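import Mathlib
import Cfsg.Agent.Lib.DefectOne.FewMain
import Cfsg.Agent.Lib.DefectOne.PSLOut
import Cfsg.Agent.Lib.Solvable.PSeries

set_option autoImplicit false

namespace Cfsg.Agent.Lib.DefectOne.Brauer1np

open Cfsg Subgroup Finset Cfsg.Agent.Lib.Blocks.Local Cfsg.Agent.Lib.Blocks.Central Cfsg.Agent.Lib.Char.Induced
open Cfsg.Agent.Lib.DefectOne Cfsg.Agent.Lib.DefectOne.FewInd
open scoped ComplexConjugate MatrixGroups

universe u

/-- The third alternative of Brauer's theorem. -/
def Alt3 (n p : ℕ) : Prop := ∃ h u : ℕ, 0 < h ∧ 0 < u ∧ n * (u + 1) = h * u * p + u ^ 2 + u + h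

/-- A factorization of `1 + n p` gives the third alternative. -/
lemma num_alt {p n A B c l : ℕ} (hp : p.Prime) (hAB : A * B = 1 + n * p) (hc : c ∣ p - 1)
    (hB : B = c + p * l) (hl : 1 ≤ l) (hAc : 1 < A * c) : Alt3 n p := by
  have hp1 := hp.two_le
  have hc0 : 0 < c := Nat.pos_of_ne_zero (by
    rintro rfl
    have := Nat.eq_zero_of_zero_dvd hc
    omega)
  -- `A c = 1 + k p`
  have h1 : A * c + p * (A * l) = 1 + n * p := by
    rw [← hAB, hB]; ring
  have hlt : A * l < n := by
    by_contra hle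
    push Not at hle
    have h2 : n * p ≤ (A * l) * p := Nat.mul_le_mul_right _ hle
    have h3 : p * (A * l) = (A * l) * p := mul_comm _ _
    omega
  obtain ⟨k, hk⟩ : ∃ k, n = A * l + k := ⟨n - A * l, by omega⟩
  have hk0 : 0 < k := by omega
  have h2 : A * c = 1 + k * p := by
    subst hk
    nlinarith
  obtain ⟨c', hc'⟩ := hc
  have h3 : p * (k + 1) = c * (A + c') := by
    have : p = c * c' + 1 := by omega
    have h4 : c * (A + c') = A * c + c * c' := by ring
    rw [h4, h2]
    nlinarith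
  have hcop : Nat.Coprime c p := by
    have h4 : c ∣ p - 1 := ⟨c', hc'⟩
    have h5 : c ≤ p - 1 := Nat.le_of_dvd (by omega) h4
    exact ((Nat.Prime.coprime_iff_not_dvd hp).2 (fun h => by
      have := Nat.le_of_dvd hc0 h
      omega)).symm
  have h4 : c ∣ k + 1 := hcop.dvd_of_dvd_mul_left ⟨A + c', h3⟩
  obtain ⟨d, hd⟩ := h4
  have hd0 : 0 < d := Nat.pos_of_ne_zero (by
    rintro rfl
    omega)
  refine ⟨l * d, k, by positivity, hk0, ?_⟩
  subst hk
  have h5 : l * d * (1 + k * p) = l * (d * (A * c)) := by rw [h2]; ring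
  have h6 : d * (A * c) = A * (k + 1) := by rw [hd]; ring
  calc (A * l + k) * (k + 1) = l * (A * (k + 1)) + k ^ 2 + k := by ring
    _ = l * (d * (A * c)) + k ^ 2 + k := by rw [h6]
    _ = l * d * (1 + k * p) + k ^ 2 + k := by rw [h5]
    _ = l * d * k * p + k ^ 2 + k + l * d := by ring

/-- Splitting a divisor of `e M`. -/
lemma exists_split {d e M : ℕ} (hd : d ∣ e * M) (hd0 : 0 < d) (hM0 : 0 < M) :
    ∃ g y A : ℕ, d = g * y ∧ M = g * A ∧ y ∣ e ∧ 0 < g ∧ 0 < y ∧ 0 < A := by
  refine ⟨Nat.gcd d M, d / Nat.gcd d M, M / Nat.gcd d M, ?_, ?_, ?_, Nat.gcd_pos_of_pos_left _ hd0, ?_, ?_⟩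
  · exact (Nat.mul_div_cancel' (Nat.gcd_dvd_left _ _)).symm
  · exact (Nat.mul_div_cancel' (Nat.gcd_dvd_right _ _)).symm
  · have hg := Nat.gcd_pos_of_pos_left M hd0
    have hcop : Nat.Coprime (d / Nat.gcd d M) (M / Nat.gcd d M) := Nat.coprime_div_gcd_div_gcd hg
    refine hcop.dvd_of_dvd_mul_right ?_
    have h1 : d / Nat.gcd d M * Nat.gcd d M = d := Nat.div_mul_cancel (Nat.gcd_dvd_left _ _)
    have h2 : M / Nat.gcd d M * Nat.gcd d M = M := Nat.div_mul_cancel (Nat.gcd_dvd_right _ _)
    have h3 : (d / Nat.gcd d M) * Nat.gcd d M ∣ (e * (M / Nat.gcd d M)) * Nat.gcd d M := by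
      rw [h1, mul_assoc, h2]
      exact hd
    exact Nat.dvd_of_mul_dvd_mul_right hg h3
  · exact Nat.div_pos (Nat.le_of_dvd hd0 (Nat.gcd_dvd_left _ _)) (Nat.gcd_pos_of_pos_left _ hd0)
  · exact Nat.div_pos (Nat.le_of_dvd hM0 (Nat.gcd_dvd_right _ _)) (Nat.gcd_pos_of_pos_left _ hd0)

/-- A number congruent mod `p` to a positive number below `p`. -/
lemma exists_add_mul_of_modEq {p a c : ℕ} (hc : c < p) (h : (a : ℤ) ≡ c [ZMOD p]) : ∃ l, a = c + p * l := by
  have hp0 : 0 < p := by omega
  have h1 : a % p = c := by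
    have h2 : a ≡ c [MOD p] := (Int.natCast_modEq_iff).1 h
    rw [h2, Nat.mod_eq_of_lt hc]
  exact ⟨a / p, by rw [← h1]; exact (Nat.mod_add_div a p).symm⟩

/-- Degrees congruent to `1`. -/
lemma num_plus {p n e d : ℕ} (hp : p.Prime) (he : e ∣ p - 1) (hd : d ∣ e * (1 + n * p)) (hd1 : 1 < d)
    (hcong : (d : ℤ) ≡ 1 [ZMOD p]) (hne : d ≠ 1 + n * p) : Alt3 n p := by
  have hp2 := hp.two_le
  obtain ⟨g, y, A, hdg, hMg, hye, hg0, hy0, hA0⟩ := exists_split hd (by omega) (by positivity : 0 < 1 + n * p)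
  have hy : y ∣ p - 1 := hye.trans he
  have hylt : y < p := by
    have := Nat.le_of_dvd (by omega) hy
    omega
  have hpZ : Prime (p : ℤ) := Nat.prime_iff_prime_int.1 hp
  -- `p` does not divide `g`
  have hpg : ¬ (p : ℤ) ∣ (g : ℤ) := by
    intro h
    have h2 : (p : ℤ) ∣ ((1 + n * p : ℕ) : ℤ) := by
      rw [hMg]
      push_cast
      exact h.mul_right _
    have h3 : p ∣ 1 + n * p := by exact_mod_cast h2
    have h4 : p ∣ 1 := (Nat.dvd_add_left (dvd_mul_left p n)).1 h3
    exact hp.one_lt.ne' (Nat.dvd_one.1 h4)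
  have h1 : (A : ℤ) ≡ y [ZMOD p] := by
    have h2 : (p : ℤ) ∣ (g : ℤ) * ((A : ℤ) - y) := by
      have h3 : (g : ℤ) * A = 1 + n * p := by exact_mod_cast hMg.symm
      have h4 : (g : ℤ) * y = d := by exact_mod_cast hdg.symm
      obtain ⟨k, hk⟩ := (Int.modEq_iff_dvd.1 hcong.symm)
      refine ⟨n - k, ?_⟩
      linear_combination h3 - h4 - hk
    have h3 := (hpZ.dvd_or_dvd h2).resolve_left hpg
    exact (Int.modEq_iff_dvd.2 h3).symm
  obtain ⟨l, hl⟩ := exists_add_mul_of_modEq hylt h1
  have hl1 : 1 ≤ l := by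
    rcases Nat.eq_zero_or_pos l with h0 | h0
    · exfalso
      apply hne
      rw [h0, mul_zero, add_zero] at hl
      rw [hdg, hMg, hl]
    · exact h0
  exact num_alt hp hMg.symm hy hl hl1 (by rw [← hdg]; exact hd1)

/-- Degrees congruent to `-1`. -/
lemma num_minus {p n e d : ℕ} (hp : p.Prime) (he : e ∣ p - 1) (hd : d ∣ e * (1 + n * p)) (hd1 : 1 < d)
    (hcong : (d : ℤ) ≡ -1 [ZMOD p]) (hne : d ≠ p - 1) (hne2 : d ≠ (p - 1) * (1 + n * p)) : Alt3 n p := by
  have hp2 := hp.two_le
  obtain ⟨g, y, A, hdg, hMg, hye, hg0, hy0, hA0⟩ := exists_split hd (by omega) (by positivity : 0 < 1 + n * p)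
  have hy : y ∣ p - 1 := hye.trans he
  have hylt : y < p := by
    have := Nat.le_of_dvd (by omega) hy
    omega
  obtain ⟨c, hc⟩ := hy
  have hc0 : 0 < c := Nat.pos_of_ne_zero (by
    rintro rfl
    omega)
  have hclt : c < p := by
    have : c ≤ y * c := Nat.le_mul_of_pos_left _ hy0
    omega
  have hcd : c ∣ p - 1 := ⟨y, by rw [hc, mul_comm]⟩
  have hpZ : Prime (p : ℤ) := Nat.prime_iff_prime_int.1 hp
  have hpy : ¬ (p : ℤ) ∣ (y : ℤ) := by
    intro h
    have h2 : p ∣ y := by exact_mod_cast h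
    have := Nat.le_of_dvd hy0 h2
    omega
  have hycZ : (y : ℤ) * c = p - 1 := by
    have h3 : ((p - 1 : ℕ) : ℤ) = ((y * c : ℕ) : ℤ) := by rw [hc]
    push_cast [Nat.cast_sub hp.one_le] at h3
    exact h3.symm
  have h1 : (g : ℤ) ≡ c [ZMOD p] := by
    have h2 : (p : ℤ) ∣ (y : ℤ) * ((g : ℤ) - c) := by
      have h4 : (g : ℤ) * y = d := by exact_mod_cast hdg.symm
      obtain ⟨k, hk⟩ := (Int.modEq_iff_dvd.1 hcong.symm)
      refine ⟨k - 1, ?_⟩
      linear_combination h4 - hycZ + hk
    have h3 := (hpZ.dvd_or_dvd h2).resolve_left hpy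
    exact (Int.modEq_iff_dvd.2 h3).symm
  obtain ⟨l, hl⟩ := exists_add_mul_of_modEq hclt h1
  have hl1 : 1 ≤ l := by
    rcases Nat.eq_zero_or_pos l with h0 | h0
    · exfalso
      apply hne
      rw [h0, mul_zero, add_zero] at hl
      rw [hdg, hl, hc, mul_comm]
    · exact h0
  refine num_alt hp (by rw [mul_comm]; exact hMg.symm) hcd hl hl1 ?_
  by_contra hAc
  have hAc1 : A * c = 1 := by
    have : 0 < A * c := Nat.mul_pos hA0 hc0
    omega
  have hA1 : A = 1 := Nat.eq_one_of_mul_eq_one_right hAc1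
  have hc1 : c = 1 := Nat.eq_one_of_mul_eq_one_left hAc1
  apply hne2
  rw [hMg, hA1, mul_one, hdg, hc, hc1, mul_one, mul_comm]

/-- An exceptional degree. -/
lemma num_exc {p n e t w B : ℕ} (hp : p.Prime) (het : p - 1 = e * t) (he0 : 0 < e) (hM : w * B = 1 + n * p)
    (hw : (w : ℤ) ≡ -(e : ℤ) [ZMOD p]) (hwt : 1 < w * t) (hne : B ≠ t) : Alt3 n p := by
  have hp2 := hp.two_le
  have ht0 : 0 < t := Nat.pos_of_ne_zero (by
    rintro rfl
    omega)
  have htlt : t < p := by
    have : t ≤ e * t := Nat.le_mul_of_pos_left _ he0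
    omega
  have helt : e < p := by
    have : e ≤ e * t := Nat.le_mul_of_pos_right _ ht0
    omega
  have hpZ : Prime (p : ℤ) := Nat.prime_iff_prime_int.1 hp
  have hpe : ¬ (p : ℤ) ∣ (e : ℤ) := by
    intro h
    have h2 : p ∣ e := by exact_mod_cast h
    have := Nat.le_of_dvd he0 h2
    omega
  have hetZ : (e : ℤ) * t = p - 1 := by
    have h3 : ((p - 1 : ℕ) : ℤ) = ((e * t : ℕ) : ℤ) := by rw [het]
    push_cast [Nat.cast_sub hp.one_le] at h3
    exact h3.symm
  have h1 : (B : ℤ) ≡ t [ZMOD p] := by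
    have h2 : (p : ℤ) ∣ (e : ℤ) * ((B : ℤ) - t) := by
      have h4 : (w : ℤ) * B = 1 + n * p := by exact_mod_cast hM
      obtain ⟨k, hk⟩ := (Int.modEq_iff_dvd.1 hw)
      refine ⟨-k * B - n - 1, ?_⟩
      linear_combination -h4 - hetZ - B * hk
    have h3 := (hpZ.dvd_or_dvd h2).resolve_left hpe
    exact (Int.modEq_iff_dvd.2 h3).symm
  obtain ⟨l, hl⟩ := exists_add_mul_of_modEq htlt h1
  have hl1 : 1 ≤ l := by
    rcases Nat.eq_zero_or_pos l with h0 | h0
    · exfalso
      apply hne
      rw [h0, mul_zero, add_zero] at hl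
      exact hl
    · exact h0
  exact num_alt hp hM ⟨e, by rw [het, mul_comm]⟩ hl hl1 hwt


section Integrality

variable {G : Type u} [Group G] [Fintype G] {p : ℕ} [hp : Fact p.Prime] {x : G}

/-- An irreducible character with value `±1` at `g`: its degree divides the class size. -/
lemma deg_dvd_of_val {χ : IrrCharacter G} {s : ℤ} (hs : s = 1 ∨ s = -1) {g : G} (hval : (χ : G → ℂ) g = s) :
    charDegree (χ : G → ℂ) ∣ (centralizer ({g} : Set G)).index := by
  have h1 := isIntegral_centralChar χ.2 g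
  unfold centralChar at h1
  have hd : (χ : G → ℂ) 1 = (charDegree (χ : G → ℂ) : ℂ) := irr_degree_cast χ
  have hd0 := irr_degree_pos' χ
  rw [hval, hd] at h1
  refine Cfsg.Agent.Lib.Char.Integrality.natCast_dvd_of_isIntegral_div hd0.ne' ?_
  rcases hs with rfl | rfl
  · simpa using h1
  · have h2 := h1.neg
    have h3 : -(((centralizer ({g} : Set G)).index : ℂ) * ((-1 : ℤ) : ℂ) / (charDegree (χ : G → ℂ) : ℂ)) =
        ((centralizer ({g} : Set G)).index : ℂ) / (charDegree (χ : G → ℂ) : ℂ) := by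
      push_cast
      ring
    rwa [h3] at h2

/-- The centralizer of a nontrivial power of `x`. -/
lemma centralizer_XX (hord : orderOf x = p) {i : ZMod p} (hi : i ≠ 0) :
    centralizer ({XX x i} : Set G) = centralizer (zpowers x : Set G) := by
  ext c
  rw [Subgroup.mem_centralizer_iff, Subgroup.mem_centralizer_iff]
  constructor
  · intro h y hy
    obtain ⟨k, rfl⟩ := Subgroup.mem_zpowers_iff.1 hy
    have h1 : XX x i * c = c * XX x i := h _ rfl
    have h2 : (XX x i) ^ (i⁻¹).val = x := by
      rw [← XX_mul_val hord, inv_mul_cancel₀ hi, XX_one hord]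
    have h3 : x * c = c * x := by
      rw [← h2]
      exact (Commute.pow_left h1 _).eq
    exact ((Commute.zpow_left h3 k)).eq
  · intro h y hy
    rw [Set.mem_singleton_iff] at hy
    subst hy
    exact h _ (XX_mem_zpowers i)

/-- The perEta-sums. -/
lemma deg_dvd_of_period {ζ : ℂ} (hζ : IsPrimitiveRoot ζ p) (hord : orderOf x = p) {θ : IrrCharacter G} {e : ℕ} {b : ZMod p} {ε : ℤ}
    (hε : ε = 1 ∨ ε = -1) (he0 : 0 < e) (hep : e < p) (hF : (perF (p := p) e b).card = e)
    (hval : ∀ i : ZMod p, i ≠ 0 → (θ : G → ℂ) (XX x i) = (ε : ℂ) * perEta ζ e b i) :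
    charDegree (θ : G → ℂ) ∣ (centralizer (zpowers x : Set G)).index := by
  classical
  set E := (centralizer (zpowers x : Set G)).index with hE
  have hd : (θ : G → ℂ) 1 = (charDegree (θ : G → ℂ) : ℂ) := irr_degree_cast θ
  have hd0 := irr_degree_pos' θ
  set z : ℂ := (E : ℂ) / (charDegree (θ : G → ℂ) : ℂ) with hz
  have hint : ∀ i : ZMod p, i ≠ 0 → IsIntegral ℤ (z * perEta ζ e b i) := by
    intro i hi
    have h1 := isIntegral_centralChar θ.2 (XX x i)
    unfold centralChar at h1
    rw [centralizer_XX hord hi, hval i hi, hd] at h1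
    rcases hε with rfl | rfl
    · have h2 : (E : ℂ) * (((1 : ℤ) : ℂ) * perEta ζ e b i) / (charDegree (θ : G → ℂ) : ℂ) = z * perEta ζ e b i := by
        rw [hz]
        push_cast
        ring
      rwa [h2] at h1
    · have h2 : -((E : ℂ) * (((-1 : ℤ) : ℂ) * perEta ζ e b i) / (charDegree (θ : G → ℂ) : ℂ)) = z * perEta ζ e b i := by
        rw [hz]
        push_cast
        ring
      have h3 := h1.neg
      rwa [h2] at h3
  have hzint : IsIntegral ℤ ζ := by
    refine ⟨Polynomial.X ^ p - 1, Polynomial.monic_X_pow_sub_C 1 hp.out.ne_zero, ?_⟩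
    simp [hζ.pow_eq_one]
  -- the sum over all nontrivial powers
  have hs0 : IsIntegral ℤ (z * e) := by
    have h1 : IsIntegral ℤ (∑ i ∈ univ.erase (0 : ZMod p), z * perEta ζ e b i) :=
      IsIntegral.sum _ (fun i hi => hint i (mem_erase.1 hi).1)
    rw [← mul_sum, sum_perEta hζ, hF] at h1
    have h2 := h1.neg
    have h3 : -(z * -(e : ℂ)) = z * e := by ring
    rwa [h3] at h2
  obtain ⟨a₀, ha₀⟩ : (perF (p := p) e b).Nonempty := card_pos.1 (by rw [hF]; exact he0)
  have hs1 : IsIntegral ℤ (z * ((p : ℂ) - e)) := by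
    have h1 : IsIntegral ℤ (∑ i ∈ univ.erase (0 : ZMod p), ζ ^ (-a₀ * i).val * (z * perEta ζ e b i)) :=
      IsIntegral.sum _ (fun i hi => (hzint.pow _).mul (hint i (mem_erase.1 hi).1))
    have h2 : ∑ i ∈ univ.erase (0 : ZMod p), ζ ^ (-a₀ * i).val * (z * perEta ζ e b i) = z * ((p : ℂ) - e) := by
      have h3 : ∀ i ∈ univ.erase (0 : ZMod p), ζ ^ (-a₀ * i).val * (z * perEta ζ e b i) =
          z * ∑ a ∈ perF (p := p) e b, ζ ^ ((a - a₀) * i).val := by
        intro i _
        unfold perEta
        rw [mul_left_comm, mul_sum]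
        congr 1
        refine sum_congr rfl fun a _ => ?_
        rw [← zeta_val_add hζ]
        congr 2
        ring
      rw [sum_congr rfl h3, ← mul_sum, sum_comm]
      congr 1
      rw [← add_sum_erase _ _ ha₀]
      have h4 : ∑ i ∈ univ.erase (0 : ZMod p), ζ ^ ((a₀ - a₀) * i).val = (p : ℂ) - 1 := by
        have h5 : ∀ i ∈ univ.erase (0 : ZMod p), ζ ^ ((a₀ - a₀) * i).val = 1 := by
          intro i _
          simp
        rw [sum_congr rfl h5, sum_const, card_erase_of_mem (mem_univ _), card_univ, ZMod.card, nsmul_eq_mul, mul_one]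
        push_cast [Nat.cast_sub hp.out.one_le]
        ring
      have h6 : ∀ a ∈ (perF (p := p) e b).erase a₀, ∑ i ∈ univ.erase (0 : ZMod p), ζ ^ ((a - a₀) * i).val = -1 := by
        intro a ha
        exact sum_zeta_erase hζ (sub_ne_zero.2 (mem_erase.1 ha).1)
      rw [h4, sum_congr rfl h6, sum_const, card_erase_of_mem ha₀, hF, nsmul_eq_mul]
      have he1 : 1 ≤ e := he0
      push_cast [Nat.cast_sub he1]
      ring
    rwa [h2] at h1
  have hs2 : IsIntegral ℤ (z * p) := by
    have h1 := hs1.add hs0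
    have h2 : z * ((p : ℂ) - e) + z * e = z * p := by ring
    rwa [h2] at h1
  -- Bezout
  have hcop : Nat.Coprime p e := (Nat.Prime.coprime_iff_not_dvd hp.out).2 (fun h => by
    have := Nat.le_of_dvd he0 h
    omega)
  have hbez : ((Nat.gcd p e : ℕ) : ℤ) = (p : ℤ) * Nat.gcdA p e + (e : ℤ) * Nat.gcdB p e := Nat.gcd_eq_gcd_ab p e
  rw [hcop, Nat.cast_one] at hbez
  have hzz : z = ((Nat.gcdA p e : ℤ) : ℂ) * (z * p) + ((Nat.gcdB p e : ℤ) : ℂ) * (z * e) := by
    have h1 : ((1 : ℤ) : ℂ) = (((p : ℤ) * Nat.gcdA p e + (e : ℤ) * Nat.gcdB p e : ℤ) : ℂ) := by rw [← hbez]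
    push_cast at h1
    linear_combination z * h1
  have hzI : IsIntegral ℤ z := by
    rw [hzz]
    exact ((isIntegral_algebraMap (R := ℤ) (A := ℂ) (x := Nat.gcdA p e)).mul hs2).add
      ((isIntegral_algebraMap (R := ℤ) (A := ℂ) (x := Nat.gcdB p e)).mul hs0)
  exact Cfsg.Agent.Lib.Char.Integrality.natCast_dvd_of_isIntegral_div hd0.ne' hzI

end Integrality

section StepA

variable {G : Type u} [Group G] [Fintype G] {p : ℕ} [hp : Fact p.Prime] {x : G} {H : Subgroup G} [Fintype H]

/-- When `e = p - 1` the period is `-1`. -/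
lemma perEta_eq_neg_one {ζ : ℂ} (hζ : IsPrimitiveRoot ζ p) {e : ℕ} {b : ZMod p} (he : p - 1 = e)
    (hF : (perF (p := p) e b).card = e) {i : ZMod p} (hi : i ≠ 0) : perEta ζ e b i = -1 := by
  classical
  have hsub : perF (p := p) e b ⊆ univ.erase (0 : ZMod p) := by
    unfold perF
    convert filter_subset _ _
  have heq : perF (p := p) e b = univ.erase (0 : ZMod p) := by
    refine eq_of_subset_of_card_le hsub ?_
    rw [hF, card_erase_of_mem (mem_univ _), card_univ, ZMod.card, he]
  unfold perEta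
  rw [heq]
  have h1 := sum_zeta_erase hζ hi
  rw [← h1]
  exact sum_congr rfl fun a _ => by rw [mul_comm]

/-- A character vanishing at `1` is zero. -/
lemma char_zero_of_one {K : Type*} [Group K] {f : K → ℂ} (hf : IsCharacter K f) (h1 : f 1 = 0) (g : K) : f g = 0 := by
  obtain ⟨n, ρ, rfl⟩ := hf
  rw [Representation.char_one] at h1
  have h2 : Module.finrank ℂ (Fin n → ℂ) = 0 := by exact_mod_cast h1
  have h3 : n = 0 := by simpa using h2
  subst h3
  show LinearMap.trace ℂ _ (ρ g) = 0
  have h4 : ρ g = 0 := Subsingleton.elim _ _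
  rw [h4, map_zero]

/-- A character of degree `p - 1` with values `-1`: the complement lies in the kernel. -/
lemma fixed_of_val (hL : LocalData p x H) {χ : IrrCharacter G} (hdeg : charDegree (χ : G → ℂ) = p - 1)
    (hval : ∀ i : ZMod p, i ≠ 0 → ∀ y : H, (χ : G → ℂ) (XX x i * y) = -1) {y : G} (hy : y ∈ H) :
    (χ : G → ℂ) y = (χ : G → ℂ) 1 := by
  classical
  have hord := hL.ord
  have hp' := hp.out
  have hc : IsCharacter G (χ : G → ℂ) := Cfsg.Agent.Lib.Char.Basic.isCharacter_of_isIrrCharacter χ.2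
  have hf := isCharacter_avgN hord hc
  have hdc : (χ : G → ℂ) 1 = ((p : ℂ) - 1) := by
    rw [irr_degree_cast, hdeg]
    push_cast [Nat.cast_sub hp'.one_le]
    ring
  have hsum : ∀ z : H, ∑ i : ZMod p, (χ : G → ℂ) (XX x i * z) = (χ : G → ℂ) z - ((p : ℂ) - 1) := by
    intro z
    rw [← add_sum_erase univ _ (mem_univ (0 : ZMod p)), XX_zero, one_mul]
    have h1 : ∀ i ∈ univ.erase (0 : ZMod p), (χ : G → ℂ) (XX x i * z) = -1 := fun i hi => hval i (mem_erase.1 hi).1 z
    rw [sum_congr rfl h1, sum_const, card_erase_of_mem (mem_univ _), card_univ, ZMod.card, nsmul_eq_mul]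
    push_cast [Nat.cast_sub hp'.one_le]
    ring
  have hf1 : avgN p x (χ : G → ℂ) 1 = 0 := by
    unfold avgN
    have h1 := hsum 1
    simp only [OneMemClass.coe_one, mul_one] at h1
    simp only [OneMemClass.coe_one, one_mul]
    rw [h1, hdc, sub_self, mul_zero]
  have hyN : y ∈ normalizer (zpowers x : Set G) := mem_normalizer_of_comm hL (hL.comm y hy)
  have h2 := char_zero_of_one hf hf1 ⟨y, hyN⟩
  unfold avgN at h2
  have hp0 : (p : ℂ)⁻¹ ≠ 0 := inv_ne_zero (by exact_mod_cast hp'.ne_zero)
  have h3 := (mul_eq_zero.1 h2).resolve_left hp0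
  have h4 : ∀ i : ZMod p, (χ : G → ℂ) (y * XX x i) = (χ : G → ℂ) (XX x i * (⟨y, hy⟩ : H)) := by
    intro i
    simp only
    rw [hL.comm_XX hy]
  simp only at h3
  rw [sum_congr rfl (fun i _ => h4 i), hsum ⟨y, hy⟩] at h3
  rw [hdc]
  exact sub_eq_zero.1 h3


set_option maxHeartbeats 2000000 in
/-- **First step**: the Sylow subgroup is self-centralizing, unless the third alternative holds. -/
theorem stepA (hperf : commutator G = ⊤) (hL : LocalData p x H) (hcore : pPrimeCore p G = ⊥)
    {𝔪 : Ideal AlgInt} (h𝔪 : IsPModular p 𝔪) {ζ : ℂ} (hζ : IsPrimitiveRoot ζ p)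
    {e t : ℕ} {X Y : Finset (IrrCharacter G)} {δ : IrrCharacter G → ℤ} {ε : ℤ} {b : IrrCharacter G → ZMod p}
    (hT : PTable 𝔪 x H ζ e t X Y δ ε b) {n M : ℕ} (hM : M = 1 + n * p) (hM1 : 1 < M)
    (hidx : (normalizer (zpowers x : Set G)).index = M) (he2 : 2 ≤ e) (hA : ¬ Alt3 n p) :
    ∀ c : G, c * x = x * c → c ∈ zpowers x := by
  classical
  have hp' := hp.out
  have hord := hL.ord
  haveI : 𝔪.IsPrime := isPrime_of_isPModular h𝔪
  have hhet := hT.het
  have hepos := hT.epos
  set triv := Cfsg.Agent.Lib.Blocks.Principal.trivChar G with htriv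
  have ht0 : 0 < t := by
    rcases Nat.eq_zero_or_pos t with h | h
    · rw [h, mul_zero] at hhet
      have := hp'.two_le
      omega
    · exact h
  have hep : e < p := by
    have h1 : e ≤ e * t := Nat.le_mul_of_pos_right _ ht0
    have := hp'.two_le
    omega
  have hedvd : e ∣ p - 1 := ⟨t, hhet⟩
  have hepZ : (p : ℤ) - 1 = e * t := by
    have h3 : ((p - 1 : ℕ) : ℤ) = ((e * t : ℕ) : ℤ) := by rw [hhet]
    push_cast [Nat.cast_sub hp'.one_le] at h3
    exact h3
  have hle : centralizer (zpowers x : Set G) ≤ normalizer (zpowers x : Set G) := by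
    intro c hc
    refine mem_normalizer_of_comm hL ?_
    exact (Subgroup.mem_centralizer_iff.1 hc x (mem_zpowers x)).symm
  have hCidx : (centralizer (zpowers x : Set G)).index = e * M := by
    rw [← relIndex_mul_index hle, hT.idx, hidx]
  -- the dichotomy
  have dich : ∀ (χ : IrrCharacter G) (s : ℤ), χ ≠ triv → (s = 1 ∨ s = -1) →
      (∀ i : ZMod p, i ≠ 0 → (χ : G → ℂ) (XX x i) = s) → (charDegree (χ : G → ℂ) : ℤ) ≡ s [ZMOD p] →
      (s = 1 → charDegree (χ : G → ℂ) = M) ∧
        (s = -1 → charDegree (χ : G → ℂ) = p - 1 ∨ charDegree (χ : G → ℂ) = (p - 1) * M) := by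
    intro χ s hχ hs hv hc
    have h1ne : (1 : ZMod p) ≠ 0 := one_ne_zero
    have hdvd : charDegree (χ : G → ℂ) ∣ e * M := by
      have h1 := deg_dvd_of_val hs (hv 1 h1ne)
      rwa [centralizer_XX hord h1ne, hCidx] at h1
    have hd1 : 1 < charDegree (χ : G → ℂ) := by
      have h0 := irr_degree_pos' χ
      by_contra hlt
      exact hχ (eq_triv_of_deg_one hperf χ (by omega))
    rw [hM] at hdvd
    constructor
    · rintro rfl
      by_contra hne
      exact hA (num_plus hp' hedvd hdvd hd1 hc (by rw [← hM]; exact hne))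
    · rintro rfl
      by_contra hne
      push Not at hne
      refine hA (num_minus hp' hedvd hdvd hd1 hc hne.1 ?_)
      rw [← hM]
      exact hne.2
  have hvX : ∀ χ ∈ X, ∀ i : ZMod p, i ≠ 0 → (χ : G → ℂ) (XX x i) = (δ χ : ℂ) := by
    intro χ hχ i hi
    have := hT.valX χ hχ i hi 1
    simpa using this
  have hrel : ∀ θ ∈ Y, ε * (charDegree (θ : G → ℂ) : ℤ) = ∑ χ ∈ X, δ χ * (charDegree (χ : G → ℂ) : ℤ) := by
    intro θ hθ
    have h1 := hT.rel 1 (by rw [orderOf_one]; exact fun h => hp'.one_lt.ne' (Nat.dvd_one.1 h)) θ hθ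
    rw [irr_degree_cast] at h1
    have h2 : ∀ χ ∈ X, (δ χ : ℂ) * (χ : G → ℂ) 1 = ((δ χ * (charDegree (χ : G → ℂ) : ℤ) : ℤ) : ℂ) := by
      intro χ _
      rw [irr_degree_cast]
      push_cast
      ring
    rw [sum_congr rfl h2] at h1
    exact_mod_cast h1
  have hMZ : (1 : ℤ) < M := by exact_mod_cast hM1
  -- a character of degree `p - 1`
  have hex : ∃ χ₁ : IrrCharacter G, charDegree (χ₁ : G → ℂ) = p - 1 ∧
      ∀ i : ZMod p, i ≠ 0 → ∀ y : H, (χ₁ : G → ℂ) (XX x i * y) = -1 := by
    by_contra hno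
    push Not at hno
    have hXm : ∀ χ ∈ X, δ χ = -1 → charDegree (χ : G → ℂ) ≠ p - 1 := by
      intro χ hχ hd1 hd
      obtain ⟨i, hi, y, hy⟩ := hno χ hd
      apply hy
      rw [hT.valX χ hχ i hi y, hd1]
      simp
    by_cases ht1 : t = 1
    · -- all characters are nonexceptional
      subst ht1
      have hep1 : p - 1 = e := by omega
      have hYc := hT.cardY
      obtain ⟨θ₀, rfl⟩ := card_eq_one.1 hYc
      have hθ₀ : θ₀ ∈ ({θ₀} : Finset (IrrCharacter G)) := mem_singleton_self _
      have hvY : ∀ i : ZMod p, i ≠ 0 → ∀ y : H, (θ₀ : G → ℂ) (XX x i * y) = ((-ε : ℤ) : ℂ) := by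
        intro i hi y
        rw [hT.valY θ₀ hθ₀ i hi y, perEta_eq_neg_one hζ hep1 (hT.cardF θ₀ hθ₀) hi]
        push_cast
        ring
      have hcY : (charDegree (θ₀ : G → ℂ) : ℤ) ≡ -ε [ZMOD p] := by
        have h1 := hT.degY θ₀ hθ₀
        refine h1.trans ?_
        refine Int.modEq_iff_dvd.2 ⟨-ε, ?_⟩
        have h3 : (e : ℤ) = p - 1 := by rw [hepZ]; ring
        rw [h3]
        ring
      have hsY : -ε = 1 ∨ -ε = -1 := by
        rcases hT.sign with h | h <;> rw [h] <;> simp
      have hdY : θ₀ ≠ triv → (M : ℤ) ∣ (charDegree (θ₀ : G → ℂ) : ℤ) := by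
        intro hne
        obtain ⟨h1, h2⟩ := dich θ₀ (-ε) hne hsY (fun i hi => by
          have := hvY i hi 1
          simpa using this) hcY
        rcases hsY with h | h
        · rw [h1 h]
        · rcases h2 h with h3 | h3
          · exfalso
            obtain ⟨i, hi, y, hy⟩ := hno θ₀ h3
            apply hy
            rw [hvY i hi y, h]
            simp
          · rw [h3]
            push_cast
            exact dvd_mul_left _ _
      have hdX : ∀ χ ∈ X, χ ≠ triv → (M : ℤ) ∣ δ χ * (charDegree (χ : G → ℂ) : ℤ) := by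
        intro χ hχ hne
        have hs := hT.signX χ hχ
        obtain ⟨h1, h2⟩ := dich χ (δ χ) hne hs (hvX χ hχ) (hT.degX χ hχ)
        refine Dvd.dvd.mul_left ?_ _
        rcases hs with h | h
        · rw [h1 h]
        · rcases h2 h with h3 | h3
          · exact absurd h3 (hXm χ hχ h)
          · rw [h3]
            push_cast
            exact dvd_mul_left _ _
      have hblock : triv ∈ X ∪ {θ₀} := by
        have h1 : triv ∈ principalBlock 𝔪 G := Cfsg.Agent.Lib.Blocks.Principal.trivChar_mem_principalBlock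
        rw [hT.block] at h1
        exact_mod_cast h1
      have hdm : (M : ℤ) ∣ 1 := by
        rcases mem_union.1 hblock with h | h
        · have hdt : δ triv = 1 := by
            have h1 := hvX triv h 1 one_ne_zero
            have h2 : (triv : G → ℂ) (XX x (1 : ZMod p)) = 1 := rfl
            rw [h2] at h1
            exact_mod_cast h1.symm
          have hne : θ₀ ≠ triv := by
            rintro rfl
            exact (disjoint_left.1 hT.disj h) hθ₀
          have h1 := hrel θ₀ hθ₀
          rw [← add_sum_erase _ _ h, hdt] at h1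
          have h2 : (charDegree (triv : G → ℂ) : ℤ) = 1 := by
            have h3 : charDegree (triv : G → ℂ) = 1 := by
              have h4 := irr_degree_cast triv
              have h5 : (triv : G → ℂ) 1 = 1 := rfl
              rw [h5] at h4
              exact_mod_cast h4.symm
            rw [h3]
            rfl
          rw [h2] at h1
          have h3 : (M : ℤ) ∣ ∑ χ ∈ X.erase triv, δ χ * (charDegree (χ : G → ℂ) : ℤ) :=
            dvd_sum fun χ hχ => hdX χ (mem_erase.1 hχ).2 (mem_erase.1 hχ).1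
          have h4 := (hdY hne).mul_left ε
          rw [h1] at h4
          have h5 : (M : ℤ) ∣ 1 * 1 := (dvd_add_left h3).1 h4
          simpa using h5
        · have h0 : θ₀ = triv := (mem_singleton.1 h).symm
          have hnotX : triv ∉ X := by
            rw [← h0]
            exact disjoint_right.1 hT.disj hθ₀
          have h1 := hrel θ₀ hθ₀
          have h3 : (M : ℤ) ∣ ∑ χ ∈ X, δ χ * (charDegree (χ : G → ℂ) : ℤ) :=
            dvd_sum fun χ hχ => hdX χ hχ (fun h => hnotX (h ▸ hχ))
          rw [← h1] at h3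
          have h2 : (charDegree (θ₀ : G → ℂ) : ℤ) = 1 := by
            have h3 : charDegree (θ₀ : G → ℂ) = 1 := by
              rw [h0]
              have h4 := irr_degree_cast triv
              have h5 : (triv : G → ℂ) 1 = 1 := rfl
              rw [h5] at h4
              exact_mod_cast h4.symm
            rw [h3]
            rfl
          rw [h2, mul_one] at h3
          rcases hT.sign with h | h
          · rwa [h] at h3
          · rw [h] at h3
            exact (Int.dvd_neg).1 h3
      have h5 := Int.le_of_dvd one_pos hdm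
      omega
    · -- the case `t ≥ 2`
      have ht2 : 1 < t := by omega
      obtain ⟨htX, hδt⟩ := hT.triv ht2
      have hall : ∀ χ ∈ X, χ ≠ triv → δ χ = 1 ∧ charDegree (χ : G → ℂ) = M := by
        intro χ hχ hne
        have hs := hT.signX χ hχ
        obtain ⟨h1, h2⟩ := dich χ (δ χ) hne hs (hvX χ hχ) (hT.degX χ hχ)
        rcases hs with h | h
        · exact ⟨h, h1 h⟩
        · exfalso
          rcases h2 h with h3 | h3
          · exact hXm χ hχ h h3
          · -- `(p - 1) M` divides `e M`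
            have h4 := deg_dvd_of_val (Or.inr h) (hvX χ hχ 1 one_ne_zero)
            rw [centralizer_XX hord one_ne_zero, hCidx, h3] at h4
            have h5 : p - 1 ∣ e := Nat.dvd_of_mul_dvd_mul_right (by omega) h4
            have h6 := Nat.le_of_dvd hepos h5
            have h7 : e * 2 ≤ e * t := Nat.mul_le_mul_left _ ht2
            omega
      obtain ⟨θ, hθ⟩ : Y.Nonempty := card_pos.1 (by rw [hT.cardY]; exact ht0)
      have h1 := hrel θ hθ
      rw [← add_sum_erase _ _ htX, hδt] at h1
      have h2 : (charDegree (triv : G → ℂ) : ℤ) = 1 := by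
        have h3 : charDegree (triv : G → ℂ) = 1 := by
          have h4 := irr_degree_cast triv
          have h5 : (triv : G → ℂ) 1 = 1 := rfl
          rw [h5] at h4
          exact_mod_cast h4.symm
        rw [h3]
        rfl
      rw [h2] at h1
      have h3 : ∑ χ ∈ X.erase triv, δ χ * (charDegree (χ : G → ℂ) : ℤ) = ((e - 1 : ℕ) : ℤ) * M := by
        have h4 : ∀ χ ∈ X.erase triv, δ χ * (charDegree (χ : G → ℂ) : ℤ) = M := by
          intro χ hχ
          obtain ⟨h5, h6⟩ := hall χ (mem_erase.1 hχ).2 (mem_erase.1 hχ).1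
          rw [h5, h6, one_mul]
        rw [sum_congr rfl h4, sum_const, card_erase_of_mem htX, hT.cardX, nsmul_eq_mul]
      rw [h3] at h1
      -- the exceptional degree
      have hw0 := irr_degree_pos' θ
      have hepZ' : (e : ℤ) = ((e - 1 : ℕ) : ℤ) + 1 := by
        have : 1 ≤ e := hepos
        push_cast [Nat.cast_sub this]
        ring
      obtain ⟨f, hf⟩ : ∃ f : ℕ, f = e - 1 := ⟨_, rfl⟩
      rw [← hf] at h1
      have hf1 : 1 ≤ f := by omega
      have hw : charDegree (θ : G → ℂ) = 1 * 1 + f * M := by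
        rcases hT.sign with h | h
        · rw [h, one_mul] at h1
          have : (charDegree (θ : G → ℂ) : ℤ) = ((1 * 1 + f * M : ℕ) : ℤ) := by
            rw [h1]
            push_cast
            ring
          exact_mod_cast this
        · exfalso
          rw [h] at h1
          have h5 : (0 : ℤ) < charDegree (θ : G → ℂ) := by exact_mod_cast hw0
          have h6 : (0 : ℤ) ≤ (f : ℤ) * M := by positivity
          omega
      have hvY : ∀ i : ZMod p, i ≠ 0 → (θ : G → ℂ) (XX x i) = (ε : ℂ) * perEta ζ e (b θ) i := by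
        intro i hi
        have := hT.valY θ hθ i hi 1
        simpa using this
      have hdv := deg_dvd_of_period hζ hord hT.sign hepos hep (hT.cardF θ hθ) hvY
      rw [hCidx] at hdv
      have hcop : Nat.Coprime (charDegree (θ : G → ℂ)) M := by
        rw [hw]
        simp
      have h5 : charDegree (θ : G → ℂ) ∣ e := hcop.dvd_of_dvd_mul_right hdv
      have h6 := Nat.le_of_dvd hepos h5
      rw [hw] at h6
      have h7 : f * 2 ≤ f * M := Nat.mul_le_mul_left _ hM1
      omega
  obtain ⟨χ₁, hd₁, hv₁⟩ := hex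
  obtain ⟨K, hKn, hK⟩ := Cfsg.Agent.Lib.Blocks.Kernel.exists_ker_of_irr χ₁.2
  haveI := hKn
  have hHK : H ≤ K := fun y hy => (hK y).2 (fixed_of_val hL hd₁ hv₁ hy)
  have hxK : x ∉ K := by
    intro h
    have h1 := (hK x).1 h
    have h2 := hv₁ 1 one_ne_zero 1
    simp only [XX_one hord, OneMemClass.coe_one, mul_one] at h2
    rw [h2, irr_degree_cast, hd₁] at h1
    have h3 : ((p - 1 : ℕ) : ℂ) + 1 = 0 := by rw [← h1]; ring
    have h4 : ((p - 1 + 1 : ℕ) : ℂ) = 0 := by
      push_cast
      push_cast at h3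
      exact h3
    have h5 : p - 1 + 1 = 0 := by exact_mod_cast h4
    omega
  have hcopK : (Nat.card K).Coprime p := by
    refine ((Nat.Prime.coprime_iff_not_dvd hp').2 ?_).symm
    intro h
    have hxq : p ∣ Nat.card (G ⧸ K) := by
      have h1 : orderOf (x : G ⧸ K) = p := by
        refine orderOf_eq_prime ?_ ?_
        · have hxp : x ^ p = 1 := by
            have := pow_orderOf_eq_one x
            rwa [hord] at this
          rw [← QuotientGroup.mk_pow, hxp]
          rfl
        · intro h0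
          exact hxK ((QuotientGroup.eq_one_iff x).1 h0)
      rw [← h1]
      exact orderOf_dvd_natCard _
    apply hL.syl
    rw [Subgroup.card_eq_card_quotient_mul_card_subgroup K, pow_two]
    exact Nat.mul_dvd_mul hxq h
  have hKbot : K ≤ ⊥ := by
    rw [← hcore]
    exact Cfsg.Agent.Lib.Basic.PCore.le_pPrimeCore hKn hcopK
  intro c hc
  obtain ⟨i, y, hy, rfl⟩ := hL.decomp c hc
  have hy1 : y = 1 := Subgroup.mem_bot.1 (hKbot (hHK hy))
  rw [hy1, mul_one]
  exact pow_mem (mem_zpowers x) i

end StepA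

section StepB

variable {G : Type u} [Group G] [Fintype G] {p : ℕ} [hp : Fact p.Prime] {x : G}

/-- An induced linear character with a constituent of the same degree. -/
lemma no_plus' (φ : normalizer (zpowers x : Set G) →* ℂˣ)
    (hconj : ∀ (y y' : normalizer (zpowers x : Set G)) (c : G), (y' : G) = c⁻¹ * y * c → φ y' = φ y)
    {M : ℕ} (hidx : (normalizer (zpowers x : Set G)).index = M) (hM1 : M ≠ 1) (χ : IrrCharacter G)
    (hd : charDegree (χ : G → ℂ) = M)
    (hm : classInner (indFun (normalizer (zpowers x : Set G)) (hf φ)) (χ : G → ℂ) ≠ 0) : False := by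
  classical
  have hPi : IsCharacter G (indFun (normalizer (zpowers x : Set G)) (hf φ)) :=
    Cfsg.Agent.Lib.Char.IndRep.isCharacter_indFun _
      (Cfsg.Agent.Lib.Char.Basic.isCharacter_of_isIrrCharacter (Cfsg.Agent.Lib.Char.LinearChars.isIrr_of_hom φ))
  obtain ⟨h1, h2⟩ := eq_sum_of_deg hPi {χ} (d := M) (by
      intro θ hθ
      rw [mem_singleton.1 hθ, irr_degree_cast, hd]) (by
      intro θ hθ
      rw [mem_singleton.1 hθ]
      exact hm) (by
      rw [indFun_one, hidx]
      simp [hf])
  have h3 : indFun (normalizer (zpowers x : Set G)) (hf φ) = (χ : G → ℂ) := funext (fun g => by simpa using h1 g)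
  have h4 : classInner (indFun (normalizer (zpowers x : Set G)) (hf φ)) (indFun (normalizer (zpowers x : Set G)) (hf φ)) = 1 := by
    rw [h3]
    exact Cfsg.Agent.Lib.Char.Ortho.classInner_irr_self χ.2
  rw [classInner_indFun_self _ φ hconj] at h4
  exact classInner_one_ne _ (by rw [hidx]; exact hM1) h4

set_option maxHeartbeats 2000000 in
/-- **Second step**: the self-centralizing case. -/
theorem stepB (hperf : commutator G = ⊤) (hord : orderOf x = p) (hcen : ∀ c : G, c * x = x * c → c ∈ zpowers x)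
    (P : Sylow p G) (hz : zpowers x = (P : Subgroup G)) {n M : ℕ} (hM : M = 1 + n * p) (hMc : Nat.card (Sylow p G) = M)
    (hM1 : 1 < M) (hA : ¬ Alt3 n p) :
    (3 < p ∧ Nonempty (G ≃* PSL(2, ZMod p))) ∨
      ∃ (m : ℕ) (F : Type) (_ : Field F) (_ : Fintype F), Fintype.card F = 2 ^ m ∧ p = 2 ^ m + 1 ∧ 3 < p ∧
        Nonempty (G ≃* PSL(2, F)) := by
  classical
  haveI : Finite (IrrCharacter G) := Cfsg.Agent.Lib.Char.Complete.finite_irr
  letI : Fintype (IrrCharacter G) := Fintype.ofFinite _
  have hp' := hp.out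
  have hPc : Nat.card P = p := by
    have h1 : Nat.card (P : Subgroup G) = Nat.card (zpowers x) := by rw [hz]
    rw [Nat.card_zpowers, hord] at h1
    exact h1
  have hdvdG : p ∣ Nat.card G := by
    have h1 := Subgroup.card_subgroup_dvd_card (P : Subgroup G)
    rwa [show Nat.card (P : Subgroup G) = p from hPc] at h1
  have hnot := not_normalizer_le_of_perfect hperf P hdvdG
  have hsyl : ¬ p ^ 2 ∣ Nat.card G := by
    intro h
    have h1 := P.pow_dvd_card_of_pow_dvd_card h
    rw [hPc] at h1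
    have h2 := Nat.le_of_dvd hp'.pos h1
    have h3 := hp'.two_le
    nlinarith
  have hL := localData_bot hord hcen hsyl
  have hζ : IsPrimitiveRoot (Complex.exp (2 * Real.pi * Complex.I / p)) p := Complex.isPrimitiveRoot_exp p hp'.ne_zero
  obtain ⟨e, t, X, Y, δ, ε, b, hT⟩ := exists_scTable hord hcen P hz hζ
  have hN : normalizer ((P : Subgroup G) : Set G) = normalizer (zpowers x : Set G) := by rw [hz]
  have hCc : centralizer ((P : Subgroup G) : Set G) = centralizer (zpowers x : Set G) := by rw [hz]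
  have hCz : centralizer (zpowers x : Set G) = zpowers x := by
    apply le_antisymm
    · intro c hc
      exact hcen c (Subgroup.mem_centralizer_iff.1 hc x (Subgroup.mem_zpowers x)).symm
    · intro c hc
      rw [Subgroup.mem_centralizer_iff]
      intro h hh
      obtain ⟨k, rfl⟩ := Subgroup.mem_zpowers_iff.1 hc
      obtain ⟨l, rfl⟩ := Subgroup.mem_zpowers_iff.1 hh
      exact ((Commute.refl x).zpow_zpow _ _).symm
  -- `e ≥ 2`
  have he2 : 2 ≤ e := by
    by_contra hlt
    have he1 : e = 1 := by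
      have := hT.epos
      omega
    apply hnot
    rw [hN, hCc, hCz]
    refine le_of_eq ?_
    symm
    refine Subgroup.eq_of_le_of_card_ge le_normalizer ?_
    rw [hT.cardN, he1, Nat.card_zpowers, hord, mul_one]
  have hhet := hT.het
  have hepos := hT.epos
  have hodd : p ≠ 2 := by
    rintro rfl
    have h1 : e * t = 1 := hhet.symm
    have h2 := Nat.eq_one_of_mul_eq_one_right h1
    omega
  have hp3 : 3 ≤ p := by
    have := hp'.two_le
    omega
  have hidx : (normalizer (zpowers x : Set G)).index = M := by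
    rw [← hN, ← hMc]
    exact (Sylow.card_eq_index_normalizer P).symm
  have hGc : Nat.card G = p * e * M := by
    rw [← Subgroup.card_mul_index (normalizer (zpowers x : Set G)), hT.cardN, hidx]
  have hCidx : (centralizer (zpowers x : Set G)).index = e * M := by
    rw [hCz]
    have h1 := Subgroup.card_mul_index (zpowers x)
    rw [Nat.card_zpowers, hord, hGc, mul_assoc] at h1
    exact Nat.eq_of_mul_eq_mul_left hp'.pos h1
  set triv := Cfsg.Agent.Lib.Blocks.Principal.trivChar G with htriv
  have ht0 : 0 < t := by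
    rcases Nat.eq_zero_or_pos t with h | h
    · rw [h, mul_zero] at hhet
      omega
    · exact h
  have hep : e < p := by
    have h1 : e ≤ e * t := Nat.le_mul_of_pos_right _ ht0
    omega
  have hedvd : e ∣ p - 1 := ⟨t, hhet⟩
  have hepZ : (p : ℤ) - 1 = e * t := by
    have h3 : ((p - 1 : ℕ) : ℤ) = ((e * t : ℕ) : ℤ) := by rw [hhet]
    push_cast [Nat.cast_sub hp'.one_le] at h3
    exact h3
  -- the dichotomy
  have dich : ∀ (χ : IrrCharacter G) (s : ℤ), χ ≠ triv → (s = 1 ∨ s = -1) →
      (∀ i : ZMod p, i ≠ 0 → (χ : G → ℂ) (XX x i) = s) → (charDegree (χ : G → ℂ) : ℤ) ≡ s [ZMOD p] →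
      (s = 1 → charDegree (χ : G → ℂ) = M) ∧
        (s = -1 → charDegree (χ : G → ℂ) = p - 1 ∨ charDegree (χ : G → ℂ) = (p - 1) * M) := by
    intro χ s hχ hs hv hc
    have h1ne : (1 : ZMod p) ≠ 0 := one_ne_zero
    have hdvd : charDegree (χ : G → ℂ) ∣ e * M := by
      have h1 := deg_dvd_of_val hs (hv 1 h1ne)
      rwa [centralizer_XX hord h1ne, hCidx] at h1
    have hd1 : 1 < charDegree (χ : G → ℂ) := by
      have h0 := irr_degree_pos' χ
      by_contra hlt
      exact hχ (eq_triv_of_deg_one hperf χ (by omega))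
    rw [hM] at hdvd
    constructor
    · rintro rfl
      by_contra hne
      exact hA (num_plus hp' hedvd hdvd hd1 hc (by rw [← hM]; exact hne))
    · rintro rfl
      by_contra hne
      push Not at hne
      refine hA (num_minus hp' hedvd hdvd hd1 hc hne.1 ?_)
      rw [← hM]
      exact hne.2
  have hrel : ∀ θ ∈ Y, ε * (charDegree (θ : G → ℂ) : ℤ) = ∑ χ ∈ X, δ χ * (charDegree (χ : G → ℂ) : ℤ) := by
    intro θ hθ
    have h1 := hT.rel 1 (by rw [orderOf_one]; exact fun h => hp'.one_lt.ne' (Nat.dvd_one.1 h)) θ hθ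
    rw [irr_degree_cast] at h1
    have h2 : ∀ χ ∈ X, (δ χ : ℂ) * (χ : G → ℂ) 1 = ((δ χ * (charDegree (χ : G → ℂ) : ℤ) : ℤ) : ℂ) := by
      intro χ _
      rw [irr_degree_cast]
      push_cast
      ring
    rw [sum_congr rfl h2] at h1
    exact_mod_cast h1
  have hsq : ∀ χ : IrrCharacter G, charDegree (χ : G → ℂ) ^ 2 ≤ Nat.card G := by
    intro χ
    have h3 := Cfsg.Agent.Lib.Char.CompleteCor.sum_sq_degrees (G := G)
    have h4 : ∑ χ : IrrCharacter G, charDegree (χ : G → ℂ) ^ 2 = Nat.card G := by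
      have h5 : ∑ χ : IrrCharacter G, ((charDegree (χ : G → ℂ) : ℂ)) ^ 2 = (Nat.card G : ℂ) := by
        rw [← h3]
        exact sum_congr rfl fun χ _ => by rw [irr_degree_cast]
      exact_mod_cast h5
    rw [← h4]
    exact single_le_sum (f := fun χ : IrrCharacter G => charDegree (χ : G → ℂ) ^ 2)
      (fun χ _ => Nat.zero_le _) (mem_univ χ)
  suffices hn' : 2 * M < (p + 1) * (p + 2) by
    rw [← hMc] at hn'
    exact few_main hperf hord hcen P hz hn'
  by_cases ht1 : t = 1
  · -- the case `t = 1`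
    exfalso
    subst ht1
    have hpodd : Odd p := hp'.odd_of_ne_two hodd
    have hep1 : p - 1 = e := by omega
    have heev : Even e := by
      rw [← hep1]
      obtain ⟨k, hk⟩ := hpodd
      exact ⟨k, by omega⟩
    obtain ⟨φ, hφ1, hφn, hconj⟩ := exists_quad hord hcen hL hT.cardN hodd heev hepos
    have hI : IsCharacter G (indFun (normalizer (zpowers x : Set G)) (hf φ)) :=
      Cfsg.Agent.Lib.Char.IndRep.isCharacter_indFun _
        (Cfsg.Agent.Lib.Char.Basic.isCharacter_of_isIrrCharacter (Cfsg.Agent.Lib.Char.LinearChars.isIrr_of_hom φ))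
    obtain ⟨m, hm, hval⟩ := exists_decomp hI
    have h1 := sum_ind hζ hT hL φ hφ1 m hval
    have hmt : m triv = 0 := by
      have h2 := inner_triv_zero φ hφn
      rw [hm] at h2
      exact_mod_cast h2
    have hno : ∀ χ : IrrCharacter G, m χ ≠ 0 → (∀ i : ZMod p, i ≠ 0 → (χ : G → ℂ) (XX x i) = ((1 : ℤ) : ℂ)) →
        (charDegree (χ : G → ℂ) : ℤ) ≡ 1 [ZMOD p] → False := by
      intro χ hχm hv hc
      have hne : χ ≠ triv := fun h => hχm (h ▸ hmt)
      have hd := (dich χ 1 hne (Or.inl rfl) hv hc).1 rfl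
      refine no_plus' φ hconj hidx hM1.ne' χ hd ?_
      rw [hm]
      exact_mod_cast hχm
    obtain ⟨θ₀, rfl⟩ := card_eq_one.1 hT.cardY
    have hθ₀ : θ₀ ∈ ({θ₀} : Finset (IrrCharacter G)) := mem_singleton_self _
    rw [sum_singleton] at h1
    have hXn : ∑ χ ∈ X, (m χ : ℤ) * δ χ ≤ 0 := by
      refine sum_nonpos fun χ hχ => ?_
      rcases hT.signX χ hχ with h | h
      · by_cases hχm : m χ = 0
        · rw [hχm]
          simp
        · exfalso
          refine hno χ hχm (fun i hi => ?_) ?_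
          · rw [hT.valX χ hχ i hi, h]
          · have := hT.degX χ hχ
            rwa [h] at this
      · rw [h]
        have : (0 : ℤ) ≤ m χ := by positivity
        linarith
    have hY : -(ε * (m θ₀ : ℤ)) ≤ 0 := by
      rcases hT.sign with h | h
      · rw [h]
        have : (0 : ℤ) ≤ m θ₀ := by positivity
        linarith
      · by_cases hχm : m θ₀ = 0
        · rw [hχm]
          simp
        · exfalso
          refine hno θ₀ hχm (fun i hi => ?_) ?_
          · rw [hT.valY θ₀ hθ₀ i hi, perEta_eq_neg_one hζ hep1 (hT.cardF θ₀ hθ₀) hi, h]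
            push_cast
            ring
          · obtain ⟨k, hk, -⟩ := hT.degY θ₀ hθ₀
            rw [hk, h]
            refine Int.modEq_iff_dvd.2 ⟨1 - k, ?_⟩
            have h3 : (e : ℤ) = p - 1 := by rw [hepZ]; ring
            rw [h3]
            ring
    have h2 : ((1 : ℕ) : ℤ) * ∑ χ ∈ X, (m χ : ℤ) * δ χ - ε * (m θ₀ : ℤ) = ((1 : ℕ) : ℤ) := h1
    push_cast at h2
    linarith
  · -- the case `t ≥ 2`
    have ht2 : 1 < t := by omega
    obtain ⟨htX, hδt⟩ := hT.triv ht2
    have h2e : 2 * e ≤ p - 1 := by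
      rw [hhet, mul_comm]
      exact Nat.mul_le_mul_left _ ht2
    by_cases hplus : ∃ χ ∈ X, χ ≠ triv ∧ δ χ = 1
    · obtain ⟨χ, hχ, hne, hδ⟩ := hplus
      have hd := (dich χ (δ χ) hne (Or.inl hδ) (hT.valX χ hχ) (hT.degX χ hχ)).1 hδ
      have h1 := hsq χ
      rw [hd, hGc, pow_two] at h1
      have h2 : M ≤ p * e := Nat.le_of_mul_le_mul_right h1 (by omega)
      have hne2 : n < e := by
        rw [hM] at h2
        have h3 : n * p < e * p := by nlinarith
        exact Nat.lt_of_mul_lt_mul_right h3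
      rw [hM]
      have h5 : 2 * n + 3 ≤ p := by omega
      nlinarith
    · push Not at hplus
      have hall : ∀ χ ∈ X, χ ≠ triv → δ χ = -1 ∧ charDegree (χ : G → ℂ) = p - 1 := by
        intro χ hχ hne
        have hs := hT.signX χ hχ
        have hdm : δ χ = -1 := hs.resolve_left (hplus χ hχ hne)
        obtain ⟨-, h2⟩ := dich χ (δ χ) hne hs (hT.valX χ hχ) (hT.degX χ hχ)
        refine ⟨hdm, ?_⟩
        rcases h2 hdm with h3 | h3
        · exact h3
        · exfalso
          have h4 := deg_dvd_of_val (Or.inr hdm) (hT.valX χ hχ 1 one_ne_zero)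
          rw [centralizer_XX hord one_ne_zero, hCidx, h3] at h4
          have h5 : p - 1 ∣ e := Nat.dvd_of_mul_dvd_mul_right (by omega) h4
          have h6 := Nat.le_of_dvd hepos h5
          omega
      have h2triv : (charDegree (triv : G → ℂ) : ℤ) = 1 := by
        have h3 : charDegree (triv : G → ℂ) = 1 := by
          have h4 := irr_degree_cast triv
          have h5 : (triv : G → ℂ) 1 = 1 := rfl
          rw [h5] at h4
          exact_mod_cast h4.symm
        rw [h3]
        rfl
      obtain ⟨f, hfe⟩ : ∃ f : ℕ, e = f + 1 := ⟨e - 1, by omega⟩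
      obtain ⟨q, hq⟩ : ∃ q : ℕ, p = q + 1 := ⟨p - 1, by omega⟩
      have hf1 : 1 ≤ f := by omega
      have hq2 : 2 ≤ q := by omega
      have hsum : ∑ χ ∈ X, δ χ * (charDegree (χ : G → ℂ) : ℤ) = 1 - (f : ℤ) * q := by
        rw [← add_sum_erase _ _ htX, hδt, h2triv]
        have h4 : ∀ χ ∈ X.erase triv, δ χ * (charDegree (χ : G → ℂ) : ℤ) = -(q : ℤ) := by
          intro χ hχ
          obtain ⟨h5, h6⟩ := hall χ (mem_erase.1 hχ).2 (mem_erase.1 hχ).1
          rw [h5, h6, hq]
          simp
        rw [sum_congr rfl h4, sum_const, card_erase_of_mem htX, hT.cardX, hfe]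
        simp
        ring
      obtain ⟨θ₀, hθ₀⟩ : Y.Nonempty := card_pos.1 (by rw [hT.cardY]; exact ht0)
      have hfq : 2 ≤ f * q := by nlinarith
      -- the sign
      have hε : ε = -1 := by
        rcases hT.sign with h | h
        · exfalso
          have h1 := hrel θ₀ hθ₀
          rw [hsum, h, one_mul] at h1
          have h2 := irr_degree_pos' θ₀
          have h3 : (0 : ℤ) < charDegree (θ₀ : G → ℂ) := by exact_mod_cast h2
          have h4 : (2 : ℤ) ≤ (f : ℤ) * q := by exact_mod_cast hfq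
          omega
        · exact h
      obtain ⟨w, hw⟩ : ∃ w : ℕ, f * q = w + 1 := ⟨f * q - 1, by omega⟩
      have hdY : ∀ θ ∈ Y, charDegree (θ : G → ℂ) = w := by
        intro θ hθ
        have h1 := hrel θ hθ
        rw [hsum, hε] at h1
        have h2 : ((f * q : ℕ) : ℤ) = ((w + 1 : ℕ) : ℤ) := by rw [hw]
        push_cast at h2
        have h3 : (charDegree (θ : G → ℂ) : ℤ) = w := by linarith
        exact_mod_cast h3
      have hd : ∀ θ ∈ Y, (θ : G → ℂ) 1 = w := by
        intro θ hθ
        rw [irr_degree_cast, hdY θ hθ]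
      have hds : w + e = p * f := by
        rw [hq, hfe]
        have : (q + 1) * f = f * q + f := by ring
        omega
      have hw1 : 3 ≤ w := by
        have h5 : 2 * e ≤ q := by omega
        have h6 : 4 ≤ q := by omega
        have h7 : 1 * q ≤ f * q := Nat.mul_le_mul_right _ hf1
        omega
      have hcop : Nat.Coprime w e := by
        have h1 : Nat.Coprime e f := by
          rw [hfe]
          simp
        have h2 : Nat.Coprime e p := ((Nat.Prime.coprime_iff_not_dvd hp').2 (fun h => by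
          have := Nat.le_of_dvd hepos h
          omega)).symm
        have h3 : Nat.Coprime e (p * f) := Nat.Coprime.mul_right h2 h1
        rw [← hds] at h3
        exact ((Nat.coprime_add_self_right).1 h3).symm
      have hvY : ∀ i : ZMod p, i ≠ 0 → (θ₀ : G → ℂ) (XX x i) = (ε : ℂ) * perEta _ e (b θ₀) i := hT.valY θ₀ hθ₀
      have hdv := deg_dvd_of_period hζ hord hT.sign hepos hep (hT.cardF θ₀ hθ₀) hvY
      rw [hCidx, hdY θ₀ hθ₀] at hdv
      obtain ⟨B, hB⟩ : w ∣ M := hcop.dvd_of_dvd_mul_left hdv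
      have hBt : B = t := by
        by_contra hne
        refine hA (num_exc hp' hhet hepos (hB ▸ hM) ?_ ?_ hne)
        · refine Int.modEq_iff_dvd.2 ⟨-(f : ℤ), ?_⟩
          have : ((w + e : ℕ) : ℤ) = ((p * f : ℕ) : ℤ) := by rw [hds]
          push_cast at this
          linarith
        · have : 3 * 1 ≤ w * t := Nat.mul_le_mul hw1 ht0
          omega
      subst hBt
      have hidx' : (normalizer (zpowers x : Set G)).index = B * w := by
        rw [hidx, hB, mul_comm]
      rcases Nat.even_or_odd e with heev | heo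
      · -- `e` even
        obtain ⟨φ, hφ1, hφn, hconj⟩ := exists_quad hord hcen hL hT.cardN hodd heev hepos
        have hI : IsCharacter G (indFun (normalizer (zpowers x : Set G)) (hf φ)) :=
          Cfsg.Agent.Lib.Char.IndRep.isCharacter_indFun _
            (Cfsg.Agent.Lib.Char.Basic.isCharacter_of_isIrrCharacter (Cfsg.Agent.Lib.Char.LinearChars.isIrr_of_hom φ))
        obtain ⟨m, hm, hval⟩ := exists_decomp hI
        have h1 := sum_ind hζ hT hL φ hφ1 m hval
        have hmt : m triv = 0 := by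
          have h2 := inner_triv_zero φ hφn
          rw [hm] at h2
          exact_mod_cast h2
        have hXn : ∑ χ ∈ X, (m χ : ℤ) * δ χ ≤ 0 := by
          refine sum_nonpos fun χ hχ => ?_
          by_cases hc : χ = triv
          · rw [hc, hmt]
            simp
          · rw [(hall χ hχ hc).1]
            have : (0 : ℤ) ≤ m χ := by positivity
            linarith
        have hYpos : ∃ θ ∈ Y, m θ ≠ 0 := by
          by_contra hno
          push Not at hno
          have h3 : ∑ θ ∈ Y, (m θ : ℤ) = 0 := sum_eq_zero fun θ hθ => by rw [hno θ hθ]; simp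
          rw [h3, mul_zero, sub_zero] at h1
          have h4 : (0 : ℤ) < B := by exact_mod_cast ht0
          nlinarith
        obtain ⟨θ₁, hθ₁, hθm⟩ := hYpos
        have hs := even_case hζ hT hε hord hcen hL hds hd hidx' φ hφ1 hconj hθ₁ (by
          rw [hm]
          exact_mod_cast hθm)
        -- `e = 2`
        subst hs
        rw [hB, hq]
        have h5 : e = 2 := by omega
        subst h5
        have h6 : q = 2 * B := by
          have h7 : p - 1 = q := by omega
          rw [h7] at hhet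
          exact hhet
        have h8 : 1 * q = w + 1 := hw
        have h9 : q = w + 1 := by omega
        nlinarith
      · exact (odd_false hζ hT hε hord hcen hL hodd heo ht2 hds hd hidx').elim

end StepB

section Core

variable {G : Type u} [Group G] [Finite G] {p : ℕ} [hp : Fact p.Prime]

theorem one_lt_card_sylow (hperf : commutator G = ⊤) (P : Sylow p G) (hP : Nat.card P = p) :
    1 < Nat.card (Sylow p G) := by
  classical
  letI : Fintype G := Fintype.ofFinite _
  have hp' := hp.out
  have hdvdG : p ∣ Nat.card G := by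
    have h1 := Subgroup.card_subgroup_dvd_card (P : Subgroup G)
    rwa [show Nat.card (P : Subgroup G) = p from hP] at h1
  have hnot := not_normalizer_le_of_perfect hperf P hdvdG
  obtain ⟨x, hxP, hx1⟩ : ∃ x ∈ (P : Subgroup G), x ≠ 1 := by
    by_contra hno
    push Not at hno
    exact P.ne_bot_of_dvd_card hdvdG ((Subgroup.eq_bot_iff_forall _).2 hno)
  obtain ⟨hz, H, hL⟩ := exists_localData P hP hxP hx1
  have hN : normalizer ((P : Subgroup G) : Set G) = normalizer (zpowers x : Set G) := by rw [hz]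
  have hCc : centralizer ((P : Subgroup G) : Set G) = centralizer (zpowers x : Set G) := by rw [hz]
  have h0 : 0 < Nat.card (Sylow p G) := Nat.card_pos
  by_contra hlt
  have h1 : Nat.card (Sylow p G) = 1 := by omega
  have hM1 : (normalizer (zpowers x : Set G)).index = 1 := by
    rw [← hN, ← h1]
    exact (Sylow.card_eq_index_normalizer P).symm
  have htop : normalizer (zpowers x : Set G) = ⊤ := Subgroup.index_eq_one.1 hM1
  apply hnot
  rw [hN, hCc]
  intro g hg
  have hg' : ∀ h : G, h ∈ normalizer (zpowers x : Set G) := fun h => by rw [htop]; exact mem_top h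
  let f : G →* (ZMod p)ˣ := (alphaHom hL).comp ((MonoidHom.id G).codRestrict _ hg')
  have h1 := PerfectN1.hom_trivial (fun u v => mul_comm u v) hperf f g
  have h2 := (alphaHom_eq_one_iff hL ⟨g, hg' g⟩).1 h1
  rw [Subgroup.mem_centralizer_iff]
  intro y hy
  obtain ⟨k, rfl⟩ := Subgroup.mem_zpowers_iff.1 hy
  have hc : Commute x g := h2.symm
  exact (hc.zpow_left k).eq

/-- **The case of a trivial `p'`-core.** -/
theorem core (hperf : commutator G = ⊤) (P : Sylow p G) (hP : Nat.card P = p) (hcore : pPrimeCore p G = ⊥)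
    {n : ℕ} (hn : Nat.card (Sylow p G) = 1 + n * p) :
    (3 < p ∧ Nonempty (G ≃* PSL(2, ZMod p))) ∨
      (∃ (m : ℕ) (F : Type) (_ : Field F) (_ : Fintype F), Fintype.card F = 2 ^ m ∧ p = 2 ^ m + 1 ∧ 3 < p ∧
        Nonempty (G ≃* PSL(2, F))) ∨ Alt3 n p := by
  classical
  letI : Fintype G := Fintype.ofFinite _
  by_cases hA : Alt3 n p
  · exact Or.inr (Or.inr hA)
  have hp' := hp.out
  have hdvdG : p ∣ Nat.card G := by
    have h1 := Subgroup.card_subgroup_dvd_card (P : Subgroup G)
    rwa [show Nat.card (P : Subgroup G) = p from hP] at h1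
  have hnot := not_normalizer_le_of_perfect hperf P hdvdG
  obtain ⟨x, hxP, hx1⟩ : ∃ x ∈ (P : Subgroup G), x ≠ 1 := by
    by_contra hno
    push Not at hno
    exact P.ne_bot_of_dvd_card hdvdG ((Subgroup.eq_bot_iff_forall _).2 hno)
  obtain ⟨hz, H, hL⟩ := exists_localData P hP hxP hx1
  letI : Fintype H := Fintype.ofFinite _
  have hord := hL.ord
  have hN : normalizer ((P : Subgroup G) : Set G) = normalizer (zpowers x : Set G) := by rw [hz]
  have hCc : centralizer ((P : Subgroup G) : Set G) = centralizer (zpowers x : Set G) := by rw [hz]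
  have hM1 := one_lt_card_sylow hperf P hP
  have hidx : (normalizer (zpowers x : Set G)).index = Nat.card (Sylow p G) := by
    rw [← hN]
    exact (Sylow.card_eq_index_normalizer P).symm
  have hζ : IsPrimitiveRoot (Complex.exp (2 * Real.pi * Complex.I / p)) p := Complex.isPrimitiveRoot_exp p hp'.ne_zero
  obtain ⟨𝔪, h𝔪⟩ := Cfsg.Agent.Lib.Blocks.ClassIndep.exists_modular p hp'
  obtain ⟨e, t, X, Y, δ, ε, b, hT⟩ := exists_pTable hL h𝔪 P hz hζ
  have he2 : 2 ≤ e := by
    by_contra hlt
    have he1 : e = 1 := by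
      have := hT.epos
      omega
    apply hnot
    rw [hN, hCc]
    have h1 := hT.idx
    rw [he1] at h1
    exact Subgroup.relIndex_eq_one.1 h1
  have hcen := stepA hperf hL hcore h𝔪 hζ hT hn hM1 hidx he2 hA
  rcases stepB hperf hord hcen P hz hn rfl hM1 hA with h | h
  · exact Or.inl h
  · exact Or.inr (Or.inl h)

end Core

end Cfsg.Agent.Lib.DefectOne.Brauer1np
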