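import Mathlib
import Cfsg.Agent.Lib.DefectOne.BlockC
import Cfsg.Agent.Lib.DefectOne.BlockD
import Cfsg.Agent.Lib.DefectOne.Structure
import Cfsg.Agent.Lib.Blocks.Transport
import Cfsg.Agent.Lib.Blocks.ClassIndep

/-!
# Counting the characters of degree prime to `p` when `p ∥ |G|`

`k_{p'}(G) · |N : C| = ∑_{φ ∈ Irr H} (e_φ² + p - 1)`, with `C = C_G(x) = ⟨x⟩ × H`, `N = N_G(⟨x⟩)`
and `e_φ = |T_φ : C|`.  The right-hand side only depends on `N`, hence `k_{p'}(G) = k_{p'}(N)`.
-/

set_option autoImplicit false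
set_option linter.unusedSectionVars false

namespace Cfsg.Agent.Lib.DefectOne.Count

open Cfsg Subgroup Finset Cfsg.Agent.Lib.DefectOne Cfsg.Agent.Lib.Blocks.Local Cfsg.Agent.Lib.Blocks.Central

universe u

section Main

variable {G : Type u} [Group G] [Fintype G] {p : ℕ} [hp : Fact p.Prime] {x : G} {H : Subgroup G}
  [Fintype H] (hL : LocalData p x H)

include hL in
/-- The rows are compatible with conjugation by the normalizer. -/
lemma rr_rel {χ : G → ℂ} (hχ : IsIrrCharacter G χ) {φ₁ φ₂ : H → ℂ} (hφ₁ : IsIrrCharacter H φ₁)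
    (hφ₂ : IsIrrCharacter H φ₂) {ζ : ℂ} (hζ : IsPrimitiveRoot ζ p) {g : G}
    (hg : g ∈ normalizer (zpowers x : Set G)) (h : ∀ y : H, φ₂ (conjH hL g hg y) = φ₁ y) (b : ZMod p) :
    rr x H φ₁ ζ χ b = rr x H φ₂ ζ χ (b * (alphaG hL g)⁻¹) := by
  classical
  have hcl : IsClassFunction G χ := isClassFunction_of_irr hχ
  set α := alphaG hL g with hα
  have hα0 : α ≠ 0 := alphaG_ne_zero hL hg
  have hspec : g * x * g⁻¹ = XX x α := alphaG_spec hL hg
  have hc : ((rr x H φ₁ ζ χ b : ℤ) : ℂ) = ((rr x H φ₂ ζ χ (b * α⁻¹) : ℤ) : ℂ) := by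
    rw [rr_eq hL hχ hφ₁ hζ, rr_eq hL hχ hφ₂ hζ]
    congr 1
    -- reindex
    have h1 : ∑ i : ZMod p, ∑ y : H, KK H φ₂ ζ (b * α⁻¹) i y * χ (XX x i * y) =
        ∑ i : ZMod p, ∑ y : H, KK H φ₂ ζ (b * α⁻¹) (α * i) (conjH hL g hg y) *
          χ (XX x (α * i) * (conjH hL g hg y : H)) := by
      rw [← Equiv.sum_comp (Equiv.mulLeft₀ α hα0)]
      refine sum_congr rfl fun i _ => ?_
      rw [← Equiv.sum_comp (conjH hL g hg).toEquiv]
      rfl
    rw [h1]
    refine sum_congr rfl fun i _ => sum_congr rfl fun y _ => ?_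
    have h2 : χ (XX x (α * i) * (conjH hL g hg y : H)) = χ (XX x i * y) := by
      have h3 : XX x (α * i) * ((conjH hL g hg y : H) : G) = g * (XX x i * y) * g⁻¹ := by
        rw [conjH_coe, ← hL.conj_XX hspec i]
        group
      rw [h3]
      exact hcl _ _
    rw [h2]
    congr 1
    unfold KK
    have h4 : (ζ ^ (b * α⁻¹).val)⁻¹ ^ (α * i).val = (ζ ^ b.val)⁻¹ ^ i.val := by
      rw [inv_pow, inv_pow, ← zeta_pow_val_mul hζ, ← zeta_pow_val_mul hζ]
      congr 3
      field_simp
    rw [h4]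
    congr 1
    rw [← h y⁻¹]
    congr 1
    apply Subtype.ext
    simp
  exact_mod_cast hc

/-- Having a non-trivial row is invariant under conjugation. -/
lemma exists_row_iff_of_rel {χ : G → ℂ} (hχ : IsIrrCharacter G χ) {φ₁ φ₂ : H → ℂ} (hφ₁ : IsIrrCharacter H φ₁)
    (hφ₂ : IsIrrCharacter H φ₂) {ζ : ℂ} (hζ : IsPrimitiveRoot ζ p) (h : RelN hL φ₁ φ₂) :
    (∃ a : ZMod p, rr x H φ₂ ζ χ a ≠ 0) → (∃ a : ZMod p, rr x H φ₁ ζ χ a ≠ 0) := by
  obtain ⟨g, hg, hr⟩ := h
  rintro ⟨a, ha⟩
  refine ⟨a * alphaG hL g, ?_⟩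
  rw [rr_rel hL hχ hφ₁ hφ₂ hζ hg hr, mul_assoc, mul_inv_cancel₀ (alphaG_ne_zero hL hg), mul_one]
  exact ha

/-- Symmetry of the relation. -/
lemma relN_symm {φ₁ φ₂ : H → ℂ} (h : RelN hL φ₁ φ₂) : RelN hL φ₂ φ₁ := by
  obtain ⟨g, hg, hr⟩ := h
  refine ⟨g⁻¹, Subgroup.inv_mem _ hg, fun y => ?_⟩
  rw [← hr]
  congr 1
  apply Subtype.ext
  simp only [conjH_coe]
  group

/-- Transitivity of the relation. -/
lemma relN_trans {φ₁ φ₂ φ₃ : H → ℂ} (h : RelN hL φ₁ φ₂) (h' : RelN hL φ₂ φ₃) : RelN hL φ₁ φ₃ := by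
  obtain ⟨g, hg, hr⟩ := h
  obtain ⟨g', hg', hr'⟩ := h'
  refine ⟨g' * g, Subgroup.mul_mem _ hg' hg, fun y => ?_⟩
  rw [← hr y, ← hr' (conjH hL g hg y)]
  congr 1
  apply Subtype.ext
  simp only [conjH_coe]
  group

/-- The inertia groups of conjugate characters are conjugate, so have the same `relIndex` above `C`. -/
lemma relIndex_TT_of_rel {φ₁ φ₂ : H → ℂ} (hφ₁ : IsClassFunction H φ₁) (hφ₂ : IsClassFunction H φ₂)
    (h : RelN hL φ₁ φ₂) :
    (centralizer (zpowers x : Set G)).relIndex (TT hL φ₂) = (centralizer (zpowers x : Set G)).relIndex (TT hL φ₁) := by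
  classical
  obtain ⟨g, hg, hr⟩ := h
  set C := centralizer (zpowers x : Set G) with hC
  -- counting through cardinalities
  have hCT : ∀ φ : H → ℂ, IsClassFunction H φ → C ≤ TT hL φ := by
    intro φ hφ c hc
    refine mem_TT_of_comm hL hφ ?_
    exact (Subgroup.mem_centralizer_iff.1 hc x (Subgroup.mem_zpowers x)).symm
  have hT : TT hL φ₂ = (TT hL φ₁).map (MulAut.conj g).toMonoidHom := by
    ext u
    simp only [Subgroup.mem_map, MulEquiv.coe_toMonoidHom, MulAut.conj_apply]
    constructor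
    · rintro ⟨hu, hu'⟩
      refine ⟨g⁻¹ * u * g, ⟨?_, fun y => ?_⟩, by group⟩
      · exact Subgroup.mul_mem _ (Subgroup.mul_mem _ (Subgroup.inv_mem _ hg) hu) hg
      · have h1 := hr (conjH hL (g⁻¹ * u * g) (Subgroup.mul_mem _ (Subgroup.mul_mem _ (Subgroup.inv_mem _ hg) hu) hg) y)
        rw [← h1, ← hr y, ← hu' (conjH hL g hg y)]
        congr 1
        apply Subtype.ext
        simp only [conjH_coe]
        group
    · rintro ⟨v, ⟨hv, hv'⟩, rfl⟩
      refine ⟨Subgroup.mul_mem _ (Subgroup.mul_mem _ hg hv) (Subgroup.inv_mem _ hg), fun y => ?_⟩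
      have h1 := hr (conjH hL v hv (conjH hL g⁻¹ (Subgroup.inv_mem _ hg) y))
      have h2 := hr (conjH hL g⁻¹ (Subgroup.inv_mem _ hg) y)
      have h3 : conjH hL g hg (conjH hL g⁻¹ (Subgroup.inv_mem _ hg) y) = y := by
        apply Subtype.ext
        simp only [conjH_coe]
        group
      rw [h3] at h2
      rw [h2, ← hv' (conjH hL g⁻¹ (Subgroup.inv_mem _ hg) y), ← h1]
      congr 1
      apply Subtype.ext
      simp only [conjH_coe]
      group
  have hCmap : C.map (MulAut.conj g).toMonoidHom = C := by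
    have hnorm : C ≤ normalizer (zpowers x : Set G) := fun c hc => mem_normalizer_of_comm hL
      (Subgroup.mem_centralizer_iff.1 hc x (Subgroup.mem_zpowers x)).symm
    have hcomm : ∀ u, u ∈ C ↔ u * x = x * u := by
      intro c
      constructor
      · intro hc
        exact (Subgroup.mem_centralizer_iff.1 hc x (Subgroup.mem_zpowers x)).symm
      · intro hc
        rw [hC, Subgroup.mem_centralizer_iff]
        intro h hh
        obtain ⟨k, rfl⟩ := Subgroup.mem_zpowers_iff.1 hh
        have : Commute c x := hc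
        exact (this.zpow_right k).eq.symm
    have hle : ∀ a ∈ normalizer (zpowers x : Set G), C.map (MulAut.conj a).toMonoidHom ≤ C := by
      rintro a ha _ ⟨c, hc, rfl⟩
      obtain ⟨α, hα⟩ := hL.exists_alpha ha
      have hc' := (hcomm c).1 hc
      obtain ⟨β, hβ⟩ := hL.exists_alpha (Subgroup.inv_mem _ ha)
      simp only [MulEquiv.coe_toMonoidHom, MulAut.conj_apply]
      have hcXX : ∀ i : ZMod p, c * XX x i = XX x i * c := by
        intro i
        unfold XX
        have : Commute c x := hc'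
        exact (this.pow_right _).eq
      rw [hcomm]
      have h1 : a⁻¹ * x * a = XX x β := by simpa using hβ
      have h2 : x = a * XX x β * a⁻¹ := by rw [← h1]; group
      calc a * c * a⁻¹ * x = a * c * (a⁻¹ * x * a) * a⁻¹ := by group
        _ = a * (c * XX x β) * a⁻¹ := by rw [h1]; group
        _ = a * (XX x β * c) * a⁻¹ := by rw [hcXX]
        _ = (a * XX x β * a⁻¹) * (a * c * a⁻¹) := by group
        _ = x * (a * c * a⁻¹) := by rw [← h2]
    apply le_antisymm (hle g hg)
    intro c hc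
    refine ⟨g⁻¹ * c * g, ?_, by simp [MulAut.conj_apply]; group⟩
    have := hle g⁻¹ (Subgroup.inv_mem _ hg) ⟨c, hc, rfl⟩
    simpa [MulAut.conj_apply] using this
  rw [hT]
  conv_lhs => rw [← hCmap]
  exact Subgroup.relIndex_map_map_of_injective _ _ (MulAut.conj g).injective

/-- The action of the normalizer on the irreducible characters of `H`. -/
noncomputable def actIrr (hL : LocalData p x H) (g : normalizer (zpowers x : Set G)) (φ : IrrCharacter H) : IrrCharacter H :=
  Cfsg.Agent.Lib.Blocks.Transport.irrComap (conjH hL (g : G) g.2).symm φ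

lemma actIrr_apply (g : normalizer (zpowers x : Set G)) (φ : IrrCharacter H) (y : H) :
    (actIrr hL g φ : H → ℂ) y = (φ : H → ℂ) ((conjH hL (g : G) g.2).symm y) := rfl

lemma conjH_symm_coe (g : G) (hg : g ∈ normalizer (zpowers x : Set G)) (y : H) :
    (((conjH hL g hg).symm y : H) : G) = g⁻¹ * y * g := rfl

/-- The size of an orbit is the index of the inertia group. -/
lemma card_rel_mul [Fintype (IrrCharacter H)] (φ : IrrCharacter H) :
    (open scoped Classical in (univ.filter (fun ψ : IrrCharacter H => RelN hL (φ : H → ℂ) (ψ : H → ℂ))).card) *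
      (centralizer (zpowers x : Set G)).relIndex (TT hL (φ : H → ℂ)) =
    (centralizer (zpowers x : Set G)).relIndex (normalizer (zpowers x : Set G)) := by
  classical
  set C := centralizer (zpowers x : Set G) with hC
  set Nn := normalizer (zpowers x : Set G) with hNn
  letI act : MulAction Nn (IrrCharacter H) :=
    { smul := actIrr hL
      one_smul := fun φ => by
        apply Subtype.ext
        funext y
        refine congrArg (φ : H → ℂ) (Subtype.ext ?_)
        show (1 : G)⁻¹ * y * 1 = y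
        group
      mul_smul := fun a b φ => by
        apply Subtype.ext
        funext y
        refine congrArg (φ : H → ℂ) (Subtype.ext ?_)
        show ((a : G) * b)⁻¹ * y * ((a : G) * b) = (b : G)⁻¹ * ((a : G)⁻¹ * y * a) * b
        group }
  have hsmul : ∀ (g : Nn) (ψ : IrrCharacter H) (y : H), ((g • ψ : IrrCharacter H) : H → ℂ) y =
      (ψ : H → ℂ) ((conjH hL (g : G) g.2).symm y) := fun _ _ _ => rfl
  have hstab : MulAction.stabilizer Nn φ = (TT hL (φ : H → ℂ)).subgroupOf Nn := by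
    ext g
    rw [MulAction.mem_stabilizer_iff, Subgroup.mem_subgroupOf]
    constructor
    · intro h
      refine ⟨g.2, fun y => ?_⟩
      have h1 := congrFun (congrArg Subtype.val h) (conjH hL (g : G) g.2 y)
      rw [hsmul] at h1
      rw [← h1, MulEquiv.symm_apply_apply]
    · rintro ⟨hg, hg'⟩
      apply Subtype.ext
      funext y
      rw [hsmul]
      have := hg' ((conjH hL (g : G) g.2).symm y)
      rw [MulEquiv.apply_symm_apply] at this
      exact this.symm
  have horb : (MulAction.orbit Nn φ) = ((univ.filter (fun ψ : IrrCharacter H => RelN hL (φ : H → ℂ) (ψ : H → ℂ)) : Finset _) : Set (IrrCharacter H)) := by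
    ext ψ
    simp only [MulAction.mem_orbit_iff, coe_filter, mem_univ, true_and, Set.mem_ofPred_eq]
    constructor
    · rintro ⟨g, rfl⟩
      refine ⟨g, g.2, fun y => ?_⟩
      rw [hsmul, MulEquiv.symm_apply_apply]
    · rintro ⟨g, hg, hr⟩
      refine ⟨⟨g, hg⟩, ?_⟩
      apply Subtype.ext
      funext y
      rw [hsmul, ← hr]
      exact congrArg (ψ : H → ℂ) ((conjH hL g hg).apply_symm_apply y)
  have hidx := MulAction.index_stabilizer (G := Nn) φ
  rw [horb, Set.ncard_coe_finset, hstab] at hidx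
  have hcT : C ≤ TT hL (φ : H → ℂ) := by
    intro c hc
    refine mem_TT_of_comm hL (isClassFunction_of_irr φ.2) ?_
    exact (Subgroup.mem_centralizer_iff.1 hc x (Subgroup.mem_zpowers x)).symm
  have h2 : ((TT hL (φ : H → ℂ)).subgroupOf Nn).index = (TT hL (φ : H → ℂ)).relIndex Nn := rfl
  rw [← hidx, h2, mul_comm]
  exact Subgroup.relIndex_mul_relIndex _ _ _ hcT (TT_le hL _)

/-- The members of the fibre over `φ`. -/
noncomputable def fib (x : G) (H : Subgroup G) [Fintype H] [Fintype (IrrCharacter G)] (ζ : ℂ) (φ : IrrCharacter H) : Finset (IrrCharacter G) :=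
  open scoped Classical in univ.filter (fun χ : IrrCharacter G => ∃ a : ZMod p, rr x H (φ : H → ℂ) ζ (χ : G → ℂ) a ≠ 0)

/-- **The fundamental counting formula.** -/
theorem card_mul_relIndex [Fintype (IrrCharacter G)] [Fintype (IrrCharacter H)] :
    (open scoped Classical in (univ.filter (fun χ : IrrCharacter G => ¬ p ∣ charDegree (χ : G → ℂ))).card) *
      (centralizer (zpowers x : Set G)).relIndex (normalizer (zpowers x : Set G)) =
    ∑ φ : IrrCharacter H, (((centralizer (zpowers x : Set G)).relIndex (TT hL (φ : H → ℂ))) ^ 2 + (p - 1)) := by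
  classical
  obtain ⟨M, hM⟩ := Cfsg.Agent.Lib.Blocks.ClassIndep.exists_modular p hp.out
  haveI hMp : M.IsPrime := isPrime_of_isPModular hM
  have hζ : IsPrimitiveRoot (Complex.exp (2 * Real.pi * Complex.I / p)) p :=
    Complex.isPrimitiveRoot_exp p hp.out.ne_zero
  set ζ := Complex.exp (2 * Real.pi * Complex.I / p) with hζdef
  set C := centralizer (zpowers x : Set G) with hC
  set Nn := normalizer (zpowers x : Set G) with hNn
  have hdc : ∀ χ : IrrCharacter G, (χ : G → ℂ) 1 = (charDegree (χ : G → ℂ) : ℂ) := fun χ =>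
    (Cfsg.Agent.Lib.Char.Values.IsCharacter.charDegree_cast
      (Cfsg.Agent.Lib.Char.Basic.isCharacter_of_isIrrCharacter χ.2)).symm
  let S : IrrCharacter H → Finset (IrrCharacter G) := fun φ =>
    univ.filter (fun χ : IrrCharacter G => ∃ a : ZMod p, rr x H (φ : H → ℂ) ζ (χ : G → ℂ) a ≠ 0)
  have hS : ∀ φ : IrrCharacter H, (S φ).card * C.relIndex (TT hL (φ : H → ℂ)) =
      (C.relIndex (TT hL (φ : H → ℂ))) ^ 2 + (p - 1) := by
    intro φ
    obtain ⟨A, e, t, hI⟩ := exists_inertiaData hL (isClassFunction_of_irr φ.2)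
    obtain ⟨X, Y, εX, ε₀, bY, hR⟩ := exists_rowStructure hL φ.2 hζ hI.epos hI.het hI.Acard hI.hA hI.T1 hI.T2 hI.fib
    have h1 : S φ = X ∪ Y := by
      ext χ
      simp only [S, mem_filter, mem_univ, true_and]
      exact (hR.supp χ).symm
    rw [h1, card_union_of_disjoint hR.disj, hR.cardX, hR.cardY, hI.idx, hI.het]
    ring
  have hSp : ∀ φ : IrrCharacter H, ∀ χ ∈ S φ, ¬ p ∣ charDegree (χ : G → ℂ) := by
    intro φ χ hχ
    obtain ⟨A, e, t, hI⟩ := exists_inertiaData hL (isClassFunction_of_irr φ.2)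
    obtain ⟨X, Y, εX, ε₀, bY, hR⟩ := exists_rowStructure hL φ.2 hζ hI.epos hI.het hI.Acard hI.hA hI.T1 hI.T2 hI.fib
    have h1 : χ ∈ X ∪ Y := (hR.supp χ).2 (mem_filter.1 hχ).2
    exact not_dvd_deg hL φ.2 hζ hR hI h1 (hdc χ)
  have hfibre : ∀ χ : IrrCharacter G, ¬ p ∣ charDegree (χ : G → ℂ) →
      ∑ φ : IrrCharacter H, (if χ ∈ S φ then C.relIndex (TT hL (φ : H → ℂ)) else 0) = C.relIndex Nn := by
    intro χ hχ
    obtain ⟨φ₀, a₀, ha₀⟩ := exists_row hL χ hζ hχ
    rw [← card_rel_mul hL φ₀, ← sum_filter]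
    have hset : (univ.filter (fun φ : IrrCharacter H => χ ∈ S φ)) =
        univ.filter (fun ψ : IrrCharacter H => RelN hL (φ₀ : H → ℂ) (ψ : H → ℂ)) := by
      ext ψ
      simp only [mem_filter, mem_univ, true_and]
      constructor
      · intro hψ
        obtain ⟨A, e, t, hI⟩ := exists_inertiaData hL (isClassFunction_of_irr φ₀.2)
        obtain ⟨X, Y, εX, ε₀, bY, hR⟩ := exists_rowStructure hL φ₀.2 hζ hI.epos hI.het hI.Acard hI.hA hI.T1 hI.T2 hI.fib
        obtain ⟨A', e', t', hI'⟩ := exists_inertiaData hL (isClassFunction_of_irr ψ.2)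
        obtain ⟨X', Y', εX', ε₀', bY', hR'⟩ := exists_rowStructure hL ψ.2 hζ hI'.epos hI'.het hI'.Acard hI'.hA hI'.T1 hI'.T2 hI'.fib
        have h2 : χ ∈ X' ∪ Y' := (hR'.supp χ).2 (mem_filter.1 hψ).2
        exact rel_of_rows hL hM χ φ₀.2 ψ.2 hζ hI ⟨a₀, ha₀⟩ (hdc χ) hχ (not_dvd_mTot hL hR' hI' h2)
      · intro hrel
        refine mem_filter.2 ⟨mem_univ _, ?_⟩
        exact exists_row_iff_of_rel hL χ.2 ψ.2 φ₀.2 hζ (relN_symm hL hrel) ⟨a₀, ha₀⟩
    rw [hset]
    rw [card_eq_sum_ones, sum_mul]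
    refine sum_congr rfl fun ψ hψ => ?_
    rw [one_mul]
    exact relIndex_TT_of_rel hL (isClassFunction_of_irr φ₀.2) (isClassFunction_of_irr ψ.2) (mem_filter.1 hψ).2
  calc _ = ∑ χ ∈ univ.filter (fun χ : IrrCharacter G => ¬ p ∣ charDegree (χ : G → ℂ)),
        ∑ φ : IrrCharacter H, (if χ ∈ S φ then C.relIndex (TT hL (φ : H → ℂ)) else 0) := by
        rw [card_eq_sum_ones, sum_mul]
        refine sum_congr rfl fun χ hχ => ?_
        rw [one_mul, hfibre χ (mem_filter.1 hχ).2]
    _ = ∑ φ : IrrCharacter H, ∑ χ ∈ univ.filter (fun χ : IrrCharacter G => ¬ p ∣ charDegree (χ : G → ℂ)),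
        (if χ ∈ S φ then C.relIndex (TT hL (φ : H → ℂ)) else 0) := sum_comm
    _ = _ := by
        refine sum_congr rfl fun φ _ => ?_
        rw [← hS φ, ← sum_filter]
        have h3 : (univ.filter (fun χ : IrrCharacter G => ¬ p ∣ charDegree (χ : G → ℂ))).filter (fun χ => χ ∈ S φ) = S φ := by
          ext χ
          simp only [mem_filter, mem_univ, true_and]
          exact ⟨fun h => h.2, fun h => ⟨hSp φ χ h, h⟩⟩
        rw [h3, sum_const, smul_eq_mul]

end Main

section Norm

variable {G : Type u} [Group G] [Fintype G] {p : ℕ} [hp : Fact p.Prime] {x : G} {H : Subgroup G}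
  [Fintype H] (hL : LocalData p x H)

/-- The normalizer of `⟨x⟩`. -/
local notation "NN" => (normalizer (zpowers x : Set G))

include hL in
lemma mem_NN_self : x ∈ NN := by
  apply mem_normalizer_of_comm hL rfl

include hL in
lemma H_le_NN : H ≤ NN := fun _ hy => mem_normalizer_of_comm hL (hL.comm _ hy)

/-- The element `x` in its normalizer. -/
def xN (hL : LocalData p x H) : NN := ⟨x, mem_NN_self hL⟩

/-- The local data in the normalizer. -/
lemma localData_NN : LocalData p (xN hL) (H.subgroupOf NN) where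
  ord := by
    have h1 : orderOf (xN hL) = orderOf x := Subgroup.orderOf_mk _ _
    rw [h1]
    exact hL.ord
  syl := fun h => hL.syl (h.trans (Subgroup.card_subgroup_dvd_card _))
  comm := by
    intro y hy
    apply Subtype.ext
    exact hL.comm _ (Subgroup.mem_subgroupOf.1 hy)
  cop := by
    have h1 : Nat.card (H.subgroupOf NN) = Nat.card H :=
      Nat.card_congr (Subgroup.subgroupOfEquivOfLe (H_le_NN hL)).toEquiv
    rw [h1]
    exact hL.cop
  decomp := by
    intro c hc
    have hc' : (c : G) * x = x * c := congrArg Subtype.val hc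
    obtain ⟨i, y, hy, hcy⟩ := hL.decomp c hc'
    refine ⟨i, ⟨y, H_le_NN hL hy⟩, Subgroup.mem_subgroupOf.2 hy, ?_⟩
    apply Subtype.ext
    show (c : G) = ((xN hL ^ i : NN) : G) * y
    rw [Subgroup.coe_pow]
    exact hcy

lemma centralizer_NN :
    centralizer (zpowers (xN hL) : Set NN) = (centralizer (zpowers x : Set G)).subgroupOf NN := by
  ext c
  rw [Subgroup.mem_subgroupOf, Subgroup.mem_centralizer_iff, Subgroup.mem_centralizer_iff]
  constructor
  · intro h u hu
    obtain ⟨k, rfl⟩ := Subgroup.mem_zpowers_iff.1 hu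
    have h1 := h (xN hL ^ k) (Subgroup.zpow_mem_zpowers _ _)
    have h2 := congrArg Subtype.val h1
    simpa [xN] using h2
  · intro h u hu
    obtain ⟨k, rfl⟩ := Subgroup.mem_zpowers_iff.1 hu
    have h1 := h (x ^ k) (Subgroup.zpow_mem_zpowers _ _)
    apply Subtype.ext
    simpa [xN] using h1

lemma normalizer_NN : normalizer (zpowers (xN hL) : Set NN) = ⊤ := by
  rw [eq_top_iff]
  rintro c -
  refine Subgroup.mem_normalizer_iff.2 fun u => ?_
  constructor
  · rintro ⟨k, rfl⟩
    have hc := Subgroup.mem_normalizer_iff.1 c.2 ((x ^ k)) |>.1 (Subgroup.zpow_mem_zpowers _ _)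
    obtain ⟨l, hl⟩ := Subgroup.mem_zpowers_iff.1 hc
    refine Subgroup.mem_zpowers_iff.2 ⟨l, ?_⟩
    apply Subtype.ext
    simpa [xN] using hl
  · intro hu
    obtain ⟨k, hk⟩ := Subgroup.mem_zpowers_iff.1 hu
    have h1 : (c : G) * u * (c : G)⁻¹ = x ^ k := by
      have := congrArg Subtype.val hk
      simpa [xN] using this.symm
    have hc : (u : G) ∈ zpowers x := by
      refine (Subgroup.mem_normalizer_iff.1 c.2 u).2 ?_
      rw [h1]
      exact Subgroup.zpow_mem_zpowers _ _
    obtain ⟨l, hl⟩ := Subgroup.mem_zpowers_iff.1 hc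
    refine Subgroup.mem_zpowers_iff.2 ⟨l, ?_⟩
    apply Subtype.ext
    simpa [xN] using hl

/-- The identification of `H` with its copy in the normalizer. -/
noncomputable def eH (hL : LocalData p x H) : H.subgroupOf NN ≃* H :=
  Subgroup.subgroupOfEquivOfLe (H_le_NN hL)

lemma eH_coe (y : H.subgroupOf NN) : ((eH hL y : H) : G) = (y : NN) := rfl

lemma TT_NN [Fintype (H.subgroupOf NN)] (φ : H → ℂ) :
    TT (localData_NN hL) (fun y => φ (eH hL y)) = (TT hL φ).subgroupOf NN := by
  ext g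
  rw [Subgroup.mem_subgroupOf]
  constructor
  · rintro ⟨hg, hg'⟩
    refine ⟨g.2, fun y => ?_⟩
    have h1 := hg' ((eH hL).symm y)
    simp only [MulEquiv.apply_symm_apply] at h1
    rw [← h1]
    refine congrArg φ (Subtype.ext ?_)
    show (g : G) * y * (g : G)⁻¹ = ((g * (((eH hL).symm y : H.subgroupOf NN) : NN) * g⁻¹ : NN) : G)
    rfl
  · rintro ⟨hg, hg'⟩
    refine ⟨by rw [normalizer_NN]; trivial, fun y => ?_⟩
    have h1 := hg' (eH hL y)
    show φ (eH hL _) = φ (eH hL y)
    rw [← h1]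
    refine congrArg φ (Subtype.ext ?_)
    rfl

include hL in
/-- **Comparison of the counting formula for `G` and its local subgroup.** -/
theorem card_eq_card_normalizer [Fintype (IrrCharacter G)] [Fintype (IrrCharacter NN)] :
    (open scoped Classical in (univ.filter (fun χ : IrrCharacter G => ¬ p ∣ charDegree (χ : G → ℂ))).card) =
    (open scoped Classical in (univ.filter (fun χ : IrrCharacter NN => ¬ p ∣ charDegree (χ : NN → ℂ))).card) := by
  classical
  letI : Fintype (IrrCharacter H) := Fintype.ofFinite _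
  letI : Fintype (H.subgroupOf NN) := Fintype.ofFinite _
  letI : Fintype (IrrCharacter (H.subgroupOf NN)) := Fintype.ofFinite _
  have h1 := card_mul_relIndex hL
  have h2 := card_mul_relIndex (localData_NN hL)
  have hι : (centralizer (zpowers (xN hL) : Set NN)).relIndex (normalizer (zpowers (xN hL) : Set NN)) =
      (centralizer (zpowers x : Set G)).relIndex NN := by
    rw [centralizer_NN, normalizer_NN, ← Subgroup.subgroupOf_self,
      Subgroup.relIndex_subgroupOf le_rfl]
  rw [hι] at h2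
  have hsum : ∑ φ : IrrCharacter (H.subgroupOf NN), (((centralizer (zpowers (xN hL) : Set NN)).relIndex
        (TT (localData_NN hL) (φ : H.subgroupOf NN → ℂ))) ^ 2 + (p - 1)) =
      ∑ φ : IrrCharacter H, (((centralizer (zpowers x : Set G)).relIndex (TT hL (φ : H → ℂ))) ^ 2 + (p - 1)) := by
    refine (Fintype.sum_bijective (Cfsg.Agent.Lib.Blocks.Transport.irrComap (eH hL))
      ⟨Cfsg.Agent.Lib.Blocks.Transport.irrComap_injective _, fun ξ =>
        ⟨Cfsg.Agent.Lib.Blocks.Transport.irrComap (eH hL).symm ξ,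
          Cfsg.Agent.Lib.Blocks.Transport.irrComap_irrComap_symm _ ξ⟩⟩ _ _ ?_).symm
    intro φ
    have h3 : TT (localData_NN hL) ((Cfsg.Agent.Lib.Blocks.Transport.irrComap (eH hL) φ : IrrCharacter (H.subgroupOf NN)) : H.subgroupOf NN → ℂ) =
        (TT hL (φ : H → ℂ)).subgroupOf NN := TT_NN hL (φ : H → ℂ)
    rw [h3, centralizer_NN, Subgroup.relIndex_subgroupOf (TT_le hL _)]
  rw [hsum, ← h1] at h2
  have hpos : 0 < (centralizer (zpowers x : Set G)).relIndex NN := by
    apply Nat.pos_of_ne_zero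
    exact (Subgroup.subgroupOf _ _).index_ne_zero_of_finite
  exact (Nat.eq_of_mul_eq_mul_right hpos h2).symm

end Norm

end Cfsg.Agent.Lib.DefectOne.Count
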