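import Mathlib
import Cfsg.Agent.Lib.DefectOne.PSLOut
import Cfsg.Agent.Lib.Char.PermChar

/-!
# Faithful actions of prime degree with a Sylow normalizer of order `2 p`
-/

set_option autoImplicit false
set_option linter.unusedSectionVars false

namespace Cfsg.Agent.Lib.DefectOne

open Cfsg Subgroup Finset MulAction
open scoped ComplexConjugate Pointwise MatrixGroups

universe u v

section Basic

variable {Γ : Type u} [Group Γ] {α : Type v} [MulAction Γ α] {p : ℕ} [hp : Fact p.Prime]

/-- An element of order `p` acting faithfully on `p` points is regular. -/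
lemma regular_of_prime [Finite α] (hα : Nat.card α = p) (hfaith : ∀ g : Γ, (∀ a : α, g • a = a) → g = 1) {x : Γ}
    (hord : orderOf x = p) : (∀ a : α, x • a ≠ a) ∧ ∀ a b : α, ∃ k : ℤ, x ^ k • a = b := by
  classical
  have hp' := hp.out
  have hx1 : x ≠ 1 := by
    rintro rfl
    rw [orderOf_one] at hord
    exact hp'.one_lt.ne hord
  have htr : ∀ a : α, x • a ≠ a → ∀ b : α, ∃ k : ℤ, x ^ k • a = b := by
    intro a ha b
    have h1 := Cfsg.Agent.Lib.Perm.PrimeDeg.natCard_orbit_mul (zpowers x) a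
    rw [Nat.card_zpowers, hord] at h1
    have h2 : Nat.card (orbit (zpowers x) a) ∣ p := Dvd.intro _ h1
    rcases (Nat.dvd_prime hp').1 h2 with h3 | h3
    · exfalso
      apply ha
      have h4 : (⟨x, mem_zpowers x⟩ : zpowers x) • a ∈ orbit (zpowers x) a := mem_orbit _ _
      have h5 : a ∈ orbit (zpowers x) a := mem_orbit_self a
      haveI : Subsingleton (orbit (zpowers x) a) := (Nat.card_eq_one_iff_unique.1 h3).1
      have h6 := Subsingleton.elim (⟨_, h4⟩ : orbit (zpowers x) a) ⟨_, h5⟩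
      exact congrArg Subtype.val h6
    · have h4 : orbit (zpowers x) a = Set.univ := by
        apply Set.eq_of_subset_of_ncard_le (Set.subset_univ _)
        rw [Set.ncard_univ, hα, ← h3, Nat.card_coe_set_eq]
      have h5 : b ∈ orbit (zpowers x) a := by rw [h4]; exact Set.mem_univ b
      obtain ⟨⟨u, hu⟩, rfl⟩ := h5
      obtain ⟨k, rfl⟩ := Subgroup.mem_zpowers_iff.1 hu
      exact ⟨k, rfl⟩
  obtain ⟨a₀, ha₀⟩ : ∃ a : α, x • a ≠ a := by
    by_contra hno
    push Not at hno
    exact hx1 (hfaith x hno)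
  have hne : ∀ a : α, x • a ≠ a := by
    intro b hb
    obtain ⟨k, rfl⟩ := htr a₀ ha₀ b
    apply ha₀
    have h1 : x ^ k * x = x * x ^ k := (Commute.zpow_left (Commute.refl x) k).eq
    have h2 : x ^ k • (x • a₀) = x ^ k • a₀ := by
      rw [smul_smul, h1, mul_smul]
      exact hb
    exact smul_left_cancel _ h2
  exact ⟨hne, fun a b => htr a (hne a) b⟩

/-- The centralizer of a regular element. -/
lemma cen_of_regular (hfaith : ∀ g : Γ, (∀ a : α, g • a = a) → g = 1) {x : Γ}
    (htr : ∀ a b : α, ∃ k : ℤ, x ^ k • a = b) [Nonempty α] {c : Γ} (hc : c * x = x * c) : c ∈ zpowers x := by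
  obtain ⟨a₀⟩ := ‹Nonempty α›
  obtain ⟨k, hk⟩ := htr a₀ (c • a₀)
  have hcc : ∀ l : ℤ, c * x ^ l = x ^ l * c := fun l => (Commute.zpow_right (show Commute c x from hc) l).eq
  have h1 : x ^ (-k) * c = 1 := by
    apply hfaith
    intro b
    obtain ⟨l, rfl⟩ := htr a₀ b
    have h2 : (x ^ (-k) * c) • (x ^ l • a₀) = x ^ l • (x ^ (-k) • (c • a₀)) := by
      simp only [smul_smul]
      congr 1
      calc x ^ (-k) * c * x ^ l = x ^ (-k) * (c * x ^ l) := by group
        _ = x ^ (-k) * (x ^ l * c) := by rw [hcc]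
        _ = (x ^ (-k) * x ^ l) * c := by group
        _ = (x ^ l * x ^ (-k)) * c := by rw [(Commute.zpow_zpow (Commute.refl x) (-k) l).eq]
        _ = x ^ l * (x ^ (-k) * c) := by group
    rw [h2, ← hk, smul_smul (x ^ (-k)) (x ^ k) a₀, ← zpow_add, neg_add_cancel, zpow_zero, one_smul]
  have h2 : c = x ^ k := by
    have h3 : c = x ^ k * (x ^ (-k) * c) := by
      rw [← mul_assoc, ← zpow_add, add_neg_cancel, zpow_zero, one_mul]
    rw [h3, h1, mul_one]
  rw [h2]
  exact zpow_mem (mem_zpowers x) k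

/-- The generator of a Sylow subgroup when elements of order `p` are self-centralizing. -/
lemma exists_generator [Finite Γ] (hcen : ∀ x : Γ, orderOf x = p → ∀ c : Γ, c * x = x * c → c ∈ zpowers x)
    (P : Sylow p Γ) (hd : p ∣ Nat.card Γ) : ∃ x : Γ, orderOf x = p ∧ zpowers x = (P : Subgroup Γ) := by
  have hne : (P : Subgroup Γ) ≠ ⊥ := P.ne_bot_of_dvd_card hd
  haveI : Nontrivial (P : Subgroup Γ) := (Subgroup.nontrivial_iff_ne_bot _).2 hne
  have hcn := P.isPGroup'.center_nontrivial
  have hpc : IsPGroup p (Subgroup.center (P : Subgroup Γ)) := P.isPGroup'.to_subgroup _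
  have hdvd : p ∣ Nat.card (Subgroup.center (P : Subgroup Γ)) := by
    obtain ⟨n, hn⟩ := IsPGroup.iff_card.1 hpc
    rw [hn]
    rcases Nat.eq_zero_or_pos n with h | h
    · rw [h, pow_zero] at hn
      have := Finite.one_lt_card_iff_nontrivial.2 hcn
      omega
    · exact dvd_pow_self p (by omega)
  obtain ⟨z, hz⟩ := exists_prime_orderOf_dvd_card' p hdvd
  set x : Γ := ((z : (P : Subgroup Γ)) : Γ) with hx
  have hord : orderOf x = p := by
    rw [hx, Subgroup.orderOf_coe, Subgroup.orderOf_coe, hz]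
  refine ⟨x, hord, ?_⟩
  apply le_antisymm
  · exact (zpowers_le).2 (z : (P : Subgroup Γ)).2
  · intro w hw
    apply hcen x hord w
    have h1 := Subgroup.mem_center_iff.1 z.2 ⟨w, hw⟩
    exact (congrArg Subtype.val h1)

end Basic

section Main

variable {Γ : Type u} [Group Γ] [Fintype Γ] {α : Type v} [Fintype α] [MulAction Γ α] {p : ℕ} [hp : Fact p.Prime]

/-- The arithmetic of the triple count: see `primeDeg_card`. -/
lemma triple_bound {F : ℤ} {p : ℤ} (h0 : 0 ≤ F) (hFp : F ≤ p) (hp : 0 ≤ p) :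
    F * (F - 1) * (F - 2) ≤ p * ((F - 1) * (F - 2) - if F = 0 then 2 else 0) := by
  by_cases hF : F = 0
  · subst hF
    simp
  · rw [if_neg hF, sub_zero]
    have h1 : 0 ≤ (F - 1) * (F - 2) := by
      by_cases h2 : F = 1
      · subst h2; simp
      · have h3 : 2 ≤ F := by omega
        exact mul_nonneg (by omega) (by omega)
    calc F * (F - 1) * (F - 2) = F * ((F - 1) * (F - 2)) := by ring
      _ ≤ p * ((F - 1) * (F - 2)) := mul_le_mul_of_nonneg_right hFp h1

/-- The order of a doubly transitive group in which the elements of order `p` are fixed-point-free. -/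
theorem primeDeg_card (hα : Nat.card α = p) (hfaith : ∀ g : Γ, (∀ a : α, g • a = a) → g = 1)
    (P : Sylow p Γ) {M : ℕ} (hM : Nat.card (Sylow p Γ) = M) (hG : Nat.card Γ = 2 * p * M) (hM0 : 0 < M)
    (hQcard : ∀ Q : Sylow p Γ, Nat.card Q = p)
    (hfpf : ∀ u : Γ, orderOf u = p → ∀ a : α, u • a ≠ a)
    (hp3 : 2 < p)
    (f : Γ → ℤ) (hf : ∀ g, f g = (Nat.card (fixedBy α g) : ℤ))
    (hsum1 : ∑ g, f g = (Nat.card Γ : ℤ)) (hsum2 : ∑ g, f g ^ 2 = 2 * (Nat.card Γ : ℤ))
    {c : ℕ} (hsum3 : ∑ g, (f g - 1) ^ 3 = (Nat.card Γ : ℤ) * c) :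
    Nat.card Γ = p * (p - 1) * (p - 2) := by
  classical
  have hp' := hp.out
  letI : Fintype (Sylow p Γ) := Fintype.ofFinite _
  have hf0 : ∀ g, 0 ≤ f g := fun g => by rw [hf]; positivity
  have hfp : ∀ g, f g ≤ p := by
    intro g
    rw [hf, ← hα]
    have h1 : Nat.card (fixedBy α g) ≤ Nat.card α := Nat.card_le_card_of_injective _ Subtype.val_injective
    exact_mod_cast h1
  have hf1 : f 1 = p := by
    rw [hf]
    have h1 : fixedBy α (1 : Γ) = Set.univ := by
      ext a
      simp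
    rw [h1, Nat.card_coe_set_eq, Set.ncard_univ, hα]
  have hfeq : ∀ g, f g = p → g = 1 := by
    intro g hg
    apply hfaith
    rw [hf] at hg
    have h1 : Nat.card (fixedBy α g) = p := by exact_mod_cast hg
    have h2 : fixedBy α g = Set.univ := by
      apply Set.eq_of_subset_of_ncard_le (Set.subset_univ _)
      rw [Set.ncard_univ, hα, ← h1, Nat.card_coe_set_eq]
    intro a
    have h3 : a ∈ fixedBy α g := by rw [h2]; exact Set.mem_univ a
    exact h3
  -- the elements without fixed points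
  set Z := (univ.filter (fun g : Γ => f g = 0)).card with hZ
  have hZle : M * (p - 1) ≤ Z := by
    let S : Sylow p Γ → Finset Γ := fun Q => univ.filter (fun g => g ∈ (Q : Subgroup Γ) ∧ g ≠ 1)
    have hS : ∀ Q, (S Q).card = p - 1 := by
      intro Q
      have h1 : S Q = (univ.filter (fun g => g ∈ (Q : Subgroup Γ))).erase 1 := by
        ext g
        simp only [S, mem_filter, mem_univ, true_and, mem_erase]
        tauto
      rw [h1, card_erase_of_mem (mem_filter.2 ⟨mem_univ _, one_mem _⟩)]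
      congr 1
      rw [← Fintype.card_subtype, ← Nat.card_eq_fintype_card]
      exact hQcard Q
    have hord : ∀ Q : Sylow p Γ, ∀ g ∈ (Q : Subgroup Γ), g ≠ 1 → orderOf g = p := by
      intro Q g hg hg1
      have h1 := Subgroup.orderOf_dvd_natCard (Q : Subgroup Γ) hg
      rw [show Nat.card (Q : Subgroup Γ) = p from hQcard Q] at h1
      rcases (Nat.dvd_prime hp').1 h1 with h2 | h2
      · exact absurd (orderOf_eq_one_iff.1 h2) hg1
      · exact h2
    have hdisj : ((univ : Finset (Sylow p Γ)) : Set (Sylow p Γ)).PairwiseDisjoint S := by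
      intro Q _ Q' _ hne
      refine Finset.disjoint_left.2 ?_
      intro g hg hg'
      simp only [S, mem_filter, mem_univ, true_and] at hg hg'
      apply hne
      apply Sylow.ext
      have h1 : zpowers g = (Q : Subgroup Γ) := by
        refine Subgroup.eq_of_le_of_card_ge ((zpowers_le).2 hg.1) ?_
        rw [Nat.card_zpowers, hord Q g hg.1 hg.2]
        exact (hQcard Q).le
      have h2 : zpowers g = (Q' : Subgroup Γ) := by
        refine Subgroup.eq_of_le_of_card_ge ((zpowers_le).2 hg'.1) ?_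
        rw [Nat.card_zpowers, hord Q g hg.1 hg.2]
        exact (hQcard Q').le
      rw [← h1, h2]
    have h1 := card_biUnion hdisj
    rw [sum_congr rfl (fun Q _ => hS Q), sum_const, card_univ, ← Nat.card_eq_fintype_card, hM, smul_eq_mul] at h1
    rw [← h1]
    apply card_le_card
    intro g hg
    rw [mem_biUnion] at hg
    obtain ⟨Q, _, hgQ⟩ := hg
    simp only [S, mem_filter, mem_univ, true_and] at hgQ
    simp only [mem_filter, mem_univ, true_and]
    rw [hf]
    have h2 : fixedBy α g = ∅ := by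
      ext a
      simp only [mem_fixedBy, Set.mem_empty_iff_false, iff_false]
      exact hfpf g (hord Q g hgQ.1 hgQ.2) a
    rw [h2]
    simp
  -- the sums
  set A : ℤ := ∑ g, f g * (f g - 1) * (f g - 2) with hA
  have hA_eq : A = Nat.card Γ * c := by
    rw [← hsum3, hA]
    have h1 : ∑ g, (f g - 1) = 0 := by
      rw [sum_sub_distrib, hsum1, sum_const, card_univ, ← Nat.card_eq_fintype_card]
      simp
    have h2 : ∑ g, f g * (f g - 1) * (f g - 2) = ∑ g, ((f g - 1) ^ 3 - (f g - 1)) :=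
      sum_congr rfl fun g _ => by ring
    rw [h2, sum_sub_distrib, h1, sub_zero]
  set B : Γ → ℤ := fun g => (f g - 1) * (f g - 2) - if f g = 0 then 2 else 0 with hB
  have hBsum : ∑ g, B g = Nat.card Γ - 2 * Z := by
    rw [sum_sub_distrib]
    have h1 : ∑ g, (f g - 1) * (f g - 2) = Nat.card Γ := by
      have h2 : ∀ g, (f g - 1) * (f g - 2) = f g ^ 2 - 3 * f g + 2 := fun g => by ring
      simp_rw [h2]
      rw [sum_add_distrib, sum_sub_distrib, hsum2, ← mul_sum, hsum1, sum_const, card_univ,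
        ← Nat.card_eq_fintype_card]
      simp only [nsmul_eq_mul]
      ring
    have h3 : ∑ g, (if f g = 0 then (2 : ℤ) else 0) = 2 * Z := by
      rw [← sum_filter, sum_const, ← hZ, nsmul_eq_mul]
      ring
    rw [h1, h3]
  have hpZ : (2 : ℤ) < p := by exact_mod_cast hp3
  have hle : ∀ g, f g * (f g - 1) * (f g - 2) ≤ p * B g := fun g =>
    triple_bound (hf0 g) (hfp g) (by omega)
  have hGZ : (Nat.card Γ : ℤ) = 2 * p * M := by rw [hG]; push_cast; ring
  have hZle' : (M : ℤ) * (p - 1) ≤ Z := by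
    have h1 : ((M * (p - 1) : ℕ) : ℤ) ≤ Z := by exact_mod_cast hZle
    push_cast [Nat.cast_sub hp'.pos] at h1
    exact h1
  have hA_le : A ≤ p * (2 * M) := by
    calc A ≤ ∑ g, p * B g := sum_le_sum fun g _ => hle g
      _ = p * (Nat.card Γ - 2 * Z) := by rw [← mul_sum, hBsum]
      _ ≤ p * (2 * M) := by
        apply mul_le_mul_of_nonneg_left _ (by omega)
        rw [hGZ]
        nlinarith
  have hnonneg : ∀ g, 0 ≤ f g * (f g - 1) * (f g - 2) := by
    intro g
    have h0 := hf0 g
    by_cases h1 : f g = 0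
    · simp [h1]
    · by_cases h2 : f g = 1
      · simp [h2]
      · by_cases h3 : f g = 2
        · simp [h3]
        · exact mul_nonneg (mul_nonneg h0 (by omega)) (by omega)
  have hid : (p : ℤ) * (p - 1) * (p - 2) ≤ A := by
    have h1 := single_le_sum (f := fun g => f g * (f g - 1) * (f g - 2)) (fun g _ => hnonneg g) (mem_univ (1 : Γ))
    simp only [hf1] at h1
    exact h1
  have hGpos : (0 : ℤ) < Nat.card Γ := by exact_mod_cast Nat.card_pos
  have hc1 : c = 1 := by
    have h1 : 0 < A := by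
      refine lt_of_lt_of_le ?_ hid
      exact mul_pos (mul_pos (by omega) (by omega)) (by omega)
    have h2 : (c : ℤ) ≠ 0 := by
      intro h0
      rw [hA_eq, h0, mul_zero] at h1
      exact lt_irrefl _ h1
    have h3 : A ≤ Nat.card Γ := by
      rw [hGZ]
      nlinarith
    rw [hA_eq] at h3
    have h4 : (c : ℤ) ≤ 1 := by nlinarith
    have h5 : c ≠ 0 := by exact_mod_cast h2
    have h6 : c ≤ 1 := by exact_mod_cast h4
    omega
  have hA_G : A = Nat.card Γ := by rw [hA_eq, hc1]; simp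
  -- each inequality is an equality
  have hAB : ∑ g, (p * B g - f g * (f g - 1) * (f g - 2)) ≤ 0 := by
    rw [sum_sub_distrib, ← mul_sum, hBsum, ← hA, hA_G, hGZ]
    nlinarith
  have hall : ∀ g, p * B g - f g * (f g - 1) * (f g - 2) = 0 := by
    intro g
    have h1 : ∑ g, (p * B g - f g * (f g - 1) * (f g - 2)) = 0 :=
      le_antisymm hAB (sum_nonneg fun g _ => sub_nonneg.2 (hle g))
    exact (sum_eq_zero_iff_of_nonneg (fun g _ => sub_nonneg.2 (hle g))).1 h1 g (mem_univ g)
  have hzero : ∀ g, g ≠ 1 → f g * (f g - 1) * (f g - 2) = 0 := by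
    intro g hg
    have h0 := hf0 g
    by_cases h1 : f g = 0
    · simp [h1]
    · by_cases h2 : f g = 1
      · simp [h2]
      · by_cases h3 : f g = 2
        · simp [h3]
        · exfalso
          have h4 := hall g
          simp only [hB, if_neg h1, sub_zero] at h4
          have h5 : ((p : ℤ) - f g) * ((f g - 1) * (f g - 2)) = 0 := by linear_combination h4
          rcases mul_eq_zero.1 h5 with h6 | h6
          · exact hg (hfeq g (by omega))
          · rcases mul_eq_zero.1 h6 with h7 | h7 <;> omega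
  have hfinal : A = (p : ℤ) * (p - 1) * (p - 2) := by
    rw [hA, ← add_sum_erase univ _ (mem_univ (1 : Γ))]
    rw [sum_eq_zero (fun g hg => hzero g (mem_erase.1 hg).1), hf1, add_zero]
  rw [hA_G] at hfinal
  have h3 : p - 2 + 2 = p := by omega
  have h4 : ((p * (p - 1) * (p - 2) : ℕ) : ℤ) = (p : ℤ) * (p - 1) * (p - 2) := by
    have h5 : ((p - 2 : ℕ) : ℤ) = (p : ℤ) - 2 := by omega
    have h6 : ((p - 1 : ℕ) : ℤ) = (p : ℤ) - 1 := by omega
    push_cast
    rw [h5, h6]
  rw [← h4] at hfinal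
  exact_mod_cast hfinal

set_option maxHeartbeats 4000000 in
/-- **Faithful actions of prime degree with `|N(P)| = 2 p`.** -/
theorem primeDeg_main (hα : Nat.card α = p) (hfaith : ∀ g : Γ, (∀ a : α, g • a = a) → g = 1) (hp3 : 2 < p)
    (P : Sylow p Γ) (hN : Nat.card (normalizer ((P : Subgroup Γ) : Set Γ)) = 2 * p) :
    (P : Subgroup Γ).Normal ∨ ∃ (m : ℕ) (F : Type) (_ : Field F) (_ : Fintype F),
      Fintype.card F = 2 ^ m ∧ p = 2 ^ m + 1 ∧ 3 < p ∧ Nonempty (Γ ≃* PSL(2, F)) := by
  classical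
  have hp' := hp.out
  haveI : Finite (IrrCharacter Γ) := Cfsg.Agent.Lib.Char.Complete.finite_irr
  letI : Fintype (IrrCharacter Γ) := Fintype.ofFinite _
  have hd : p ∣ Nat.card Γ := by
    have h1 := Subgroup.card_subgroup_dvd_card (normalizer ((P : Subgroup Γ) : Set Γ))
    rw [hN] at h1
    exact (Dvd.intro_left _ rfl).trans h1
  have hαpos : 0 < Nat.card α := by rw [hα]; exact hp'.pos
  haveI : Nonempty α := (Nat.card_pos_iff.1 hαpos).1
  have hreg : ∀ u : Γ, orderOf u = p → (∀ a : α, u • a ≠ a) ∧ ∀ a b : α, ∃ k : ℤ, u ^ k • a = b :=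
    fun u hu => regular_of_prime hα hfaith hu
  have hcenAll : ∀ u : Γ, orderOf u = p → ∀ c : Γ, c * u = u * c → c ∈ zpowers u :=
    fun u hu c hc => cen_of_regular hfaith (hreg u hu).2 hc
  obtain ⟨x, hord, hz⟩ := exists_generator hcenAll P hd
  have hcen := hcenAll x hord
  haveI htrans : IsPretransitive Γ α := ⟨fun a b => by
    obtain ⟨k, hk⟩ := (hreg x hord).2 a b
    exact ⟨x ^ k, hk⟩⟩
  have hζ : IsPrimitiveRoot (Complex.exp (2 * Real.pi * Complex.I / p)) p := Complex.isPrimitiveRoot_exp p hp'.ne_zero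
  obtain ⟨e, t, X, Y, δ, ε, b, hT⟩ := exists_scTable hord hcen P hz hζ
  have hNz : normalizer ((P : Subgroup Γ) : Set Γ) = normalizer (zpowers x : Set Γ) := by rw [hz]
  have he : e = 2 := by
    have h1 := hT.cardN
    rw [← hNz, hN] at h1
    have h2 : p * e = p * 2 := by rw [← h1]; ring
    exact Nat.eq_of_mul_eq_mul_left hp'.pos h2
  subst he
  have hhet := hT.het
  have hodd : p ≠ 2 := by omega
  have hp21 : p = 2 * t + 1 := by omega
  have ht0 : 0 < t := by omega
  have hM1 : (normalizer (zpowers x : Set Γ)).index = Nat.card (Sylow p Γ) := by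
    rw [← hNz]
    exact (Sylow.card_eq_index_normalizer P).symm
  set M := Nat.card (Sylow p Γ) with hMdef
  have hM0 : 0 < M := Nat.card_pos
  have hGc : Nat.card Γ = 2 * p * M := by
    rw [← Subgroup.card_mul_index (normalizer (zpowers x : Set Γ)), hT.cardN, hM1]
    ring
  have hnormal_of : M = 1 → (P : Subgroup Γ).Normal := by
    intro hM
    rw [hM] at hM1
    have h1 : normalizer (zpowers x : Set Γ) = ⊤ := Subgroup.index_eq_one.1 hM1
    rw [← hz]
    exact Subgroup.normalizer_eq_top_iff.1 h1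
  have hfpf : ∀ u : Γ, orderOf u = p → ∀ a : α, u • a ≠ a := fun u hu => (hreg u hu).1
  have hα' : Fintype.card α = p := by rw [← Nat.card_eq_fintype_card]; exact hα
  by_cases ht1 : t = 1
  · left
    apply hnormal_of
    have hp3' : p = 3 := by omega
    have h1 : Nat.card Γ ≤ Nat.card (Equiv.Perm α) := by
      refine Nat.card_le_card_of_injective (MulAction.toPermHom Γ α) ?_
      intro g h hgh
      have h2 : g⁻¹ * h = 1 := by
        apply hfaith
        intro a
        have h3 : g • a = h • a := congrArg (fun σ : Equiv.Perm α => σ a) hgh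
        rw [mul_smul, ← h3, inv_smul_smul]
      exact (inv_mul_eq_one.1 h2)
    rw [Nat.card_perm, hα, hGc, hp3'] at h1
    have h2 : Nat.factorial 3 = 6 := rfl
    rw [h2] at h1
    omega
  have ht2 : 2 ≤ t := by omega
  -- the characters
  have hirrc : ∀ χ : IrrCharacter Γ, IsCharacter Γ (χ : Γ → ℂ) := fun χ =>
    Cfsg.Agent.Lib.Char.Basic.isCharacter_of_isIrrCharacter χ.2
  set triv := Cfsg.Agent.Lib.Blocks.Principal.trivChar Γ with htriv
  have htr1 : (triv : Γ → ℂ) = fun _ => 1 := rfl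
  obtain ⟨htX, htδ⟩ := hT.triv (by omega)
  obtain ⟨χ₁, hχ₁⟩ : ∃ χ₁, X.erase triv = {χ₁} := by
    apply Finset.card_eq_one.1
    rw [card_erase_of_mem htX, hT.cardX]
  have hχ₁ne : χ₁ ≠ triv := by
    have h1 : χ₁ ∈ X.erase triv := by rw [hχ₁]; exact mem_singleton_self _
    exact (mem_erase.1 h1).1
  have hXeq : X = insert triv {χ₁} := by
    rw [← hχ₁, insert_erase htX]
  have hnot : triv ∉ ({χ₁} : Finset (IrrCharacter Γ)) := by
    rw [mem_singleton]
    exact hχ₁ne.symm
  have hχ₁X : χ₁ ∈ X := by rw [hXeq]; exact mem_insert_of_mem (mem_singleton_self _)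
  have hsumX : ∀ (F : IrrCharacter Γ → ℂ), ∑ χ ∈ X, F χ = F triv + F χ₁ := by
    intro F
    rw [hXeq, sum_insert hnot, sum_singleton]
  set f : Γ → ℤ := fun g => (Nat.card (fixedBy α g) : ℤ) with hf
  set π : Γ → ℂ := Cfsg.Agent.Lib.Char.PermChar.permChar Γ α with hπ
  have hπf : ∀ g, π g = (f g : ℂ) := by
    intro g
    simp [hπ, hf]
  have hπc : IsCharacter Γ π := Cfsg.Agent.Lib.Char.PermChar.isCharacter_perm
  have hπcl : IsClassFunction Γ π := Cfsg.Agent.Lib.Char.Basic.isClassFunction_of_isCharacter hπc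
  choose m hm using fun χ : IrrCharacter Γ =>
    Cfsg.Agent.Lib.Char.Ortho.exists_nat_classInner_of_isCharacter hπc (hirrc χ)
  choose D hDpos hD using fun χ : IrrCharacter Γ => Cfsg.Agent.Lib.Char.Ortho.irr_degree_pos χ.2
  have hval : ∀ g, π g = ∑ χ : IrrCharacter Γ, (m χ : ℂ) * (χ : Γ → ℂ) g := by
    intro g
    have h1 := congrFun (Cfsg.Agent.Lib.Char.Complete.eq_sum_classInner π hπcl) g
    rw [h1, Finset.sum_apply]
    refine sum_congr rfl fun χ _ => ?_
    rw [Pi.smul_apply, hm χ, smul_eq_mul]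
  have hmt : m triv = 1 := by
    have h1 := hm triv
    have h2 : classInner π (triv : Γ → ℂ) = 1 := Cfsg.Agent.Lib.Char.PermChar.classInner_perm_one_of_transitive
    rw [h2] at h1
    exact_mod_cast h1.symm
  have hDt : D triv = 1 := by
    have h1 := hD triv
    rw [show (triv : Γ → ℂ) 1 = 1 from rfl] at h1
    exact_mod_cast h1.symm
  have hf1 : f 1 = p := by
    simp only [hf]
    have h1 : fixedBy α (1 : Γ) = Set.univ := by
      ext a
      simp
    rw [h1, Nat.card_coe_set_eq, Set.ncard_univ, hα]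
  have hdegsum : ∑ χ : IrrCharacter Γ, m χ * D χ = p := by
    have h1 := hval 1
    rw [hπf, hf1] at h1
    simp_rw [hD] at h1
    have h2 : (((p : ℕ) : ℤ) : ℂ) = ((∑ χ : IrrCharacter Γ, m χ * D χ : ℕ) : ℂ) := by
      rw [h1]
      push_cast
      rfl
    have h3 : ((p : ℕ) : ℂ) = ((∑ χ : IrrCharacter Γ, m χ * D χ : ℕ) : ℂ) := by simpa using h2
    exact_mod_cast h3.symm
  -- the values on `⟨x⟩`
  have hπXX : ∀ i : ZMod p, i ≠ 0 → π (XX x i) = 0 := by
    intro i hi
    have h1 : orderOf (XX x i) = p := by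
      have h2 : (XX x i) ^ p = 1 := XX_pow_p hord i
      refine orderOf_eq_prime h2 ?_
      intro h3
      apply hi
      have h4 : XX x i = XX x (0 : ZMod p) := by rw [h3, XX_zero]
      exact XX_inj hord h4
    have h5 : fixedBy α (XX x i) = ∅ := by
      ext a
      simp only [mem_fixedBy, Set.mem_empty_iff_false, iff_false]
      exact hfpf _ h1 a
    simp [hπ, h5]
  have hrow : ((p : ℂ) - 1) * ∑ χ ∈ X, (m χ : ℂ) * δ χ - (ε : ℂ) * (2 : ℕ) * ∑ θ ∈ Y, (m θ : ℂ) = 0 := by
    rw [← hT.sum_char hζ (fun χ => (m χ : ℂ))]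
    refine sum_eq_zero fun i hi => ?_
    rw [← hval, hπXX i (mem_erase.1 hi).1]
  rw [hsumX, hmt, htδ] at hrow
  set c₁ := m χ₁ with hc₁
  set δ₁ := δ χ₁ with hδ₁
  set D₁ := D χ₁ with hD₁
  set C := ∑ θ ∈ Y, m θ with hC
  have hrowZ : (t : ℤ) * (1 + c₁ * δ₁) = ε * C := by
    have h1 : (((p : ℤ) - 1) * (1 + c₁ * δ₁) - ε * 2 * C : ℤ) = 0 := by
      have hCc : (C : ℂ) = ∑ θ ∈ Y, (m θ : ℂ) := by
        rw [hC]
        push_cast
        rfl
      have h2 : ((((p : ℤ) - 1) * (1 + c₁ * δ₁) - ε * 2 * C : ℤ) : ℂ) = 0 := by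
        push_cast
        push_cast at hrow
        rw [hCc]
        linear_combination hrow
      exact_mod_cast h2
    have h3 : (p : ℤ) - 1 = 2 * t := by
      rw [hp21]
      push_cast
      ring
    rw [h3] at h1
    linarith
  have hsign₁ : δ₁ = 1 ∨ δ₁ = -1 := hT.signX χ₁ hχ₁X
  -- the relation at the identity
  have hrel1 : ∀ θ ∈ Y, ε * (D θ : ℤ) = 1 + δ₁ * D₁ := by
    intro θ hθ
    have h1 := hT.rel 1 (by
      rw [orderOf_one]
      exact fun h => hp'.one_lt.ne' (Nat.dvd_one.1 h)) θ hθ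
    rw [hsumX, htδ, hD θ, show (triv : Γ → ℂ) 1 = 1 from rfl, hD χ₁] at h1
    have h2 : ((ε * (D θ : ℤ) : ℤ) : ℂ) = ((1 + δ₁ * D₁ : ℤ) : ℂ) := by
      push_cast
      rw [h1]
      push_cast
      ring
    exact_mod_cast h2
  obtain ⟨θ₀, hθ₀⟩ : Y.Nonempty := card_pos.1 (by rw [hT.cardY]; omega)
  -- a lower bound for the degree
  have hdeg_le : 1 + c₁ * D₁ + ∑ θ ∈ Y, m θ * D θ = ∑ χ ∈ X ∪ Y, m χ * D χ := by
    rw [sum_union hT.disj, hXeq, sum_insert hnot, sum_singleton, hmt, hDt]
  have hdeg_univ : ∑ χ ∈ X ∪ Y, m χ * D χ ≤ p := by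
    rw [← hdegsum]
    exact sum_le_sum_of_subset (subset_univ _)
  -- equality forces the other multiplicities to vanish
  have hothers : ∑ χ ∈ X ∪ Y, m χ * D χ = p → ∀ χ, χ ∉ X ∪ Y → m χ = 0 := by
    intro h χ hχ
    have h1 := sum_add_sum_compl (X ∪ Y) (fun χ => m χ * D χ)
    rw [h, hdegsum] at h1
    have h2 : ∑ χ ∈ (X ∪ Y)ᶜ, m χ * D χ = 0 := by omega
    have h3 := (sum_eq_zero_iff.1 h2) χ (mem_compl.2 hχ)
    rcases Nat.mul_eq_zero.1 h3 with h4 | h4
    · exact h4
    · exact absurd h4 (hDpos χ).ne'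
  have hπdec : ∑ χ ∈ X ∪ Y, m χ * D χ = p → ∀ g, π g = 1 + (c₁ : ℂ) * (χ₁ : Γ → ℂ) g + ∑ θ ∈ Y, (m θ : ℂ) * (θ : Γ → ℂ) g := by
    intro h g
    have h1 := hothers h
    rw [hval g, ← sum_add_sum_compl (X ∪ Y)]
    have h2 : ∑ χ ∈ (X ∪ Y)ᶜ, (m χ : ℂ) * (χ : Γ → ℂ) g = 0 := by
      refine sum_eq_zero fun χ hχ => ?_
      rw [h1 χ (mem_compl.1 hχ)]
      simp
    rw [h2, add_zero, sum_union hT.disj, hXeq, sum_insert hnot, sum_singleton, hmt, show (triv : Γ → ℂ) g = 1 from rfl]
    simp only [Nat.cast_one, mul_one]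
    rfl
  have hDθ0 : (0 : ℤ) < D θ₀ := by exact_mod_cast hDpos θ₀
  have hD₁0 : (0 : ℤ) < D₁ := by exact_mod_cast hDpos χ₁
  rcases hT.sign with hε | hε
  · -- the sign `+`: the group is small
    left
    apply hnormal_of
    have hrowZ' : (t : ℤ) * (1 + c₁ * δ₁) = C := by rw [hrowZ, hε, one_mul]
    have hrel1' : ∀ θ ∈ Y, (D θ : ℤ) = 1 + δ₁ * D₁ := by
      intro θ hθ
      rw [← hrel1 θ hθ, hε, one_mul]
    have hδ1 : δ₁ = 1 := by
      rcases hsign₁ with h | h
      · exact h
      · exfalso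
        have h1 := hrel1' θ₀ hθ₀
        rw [h] at h1
        omega
    rw [hδ1, mul_one] at hrowZ'
    have hCZ : C = t * (1 + c₁) := by
      have : (C : ℤ) = ((t * (1 + c₁) : ℕ) : ℤ) := by
        push_cast
        linarith
      exact_mod_cast this
    have hDθ : ∀ θ ∈ Y, D θ = 1 + D₁ := by
      intro θ hθ
      have h1 := hrel1' θ hθ
      rw [hδ1] at h1
      have h2 : (D θ : ℤ) = ((1 + D₁ : ℕ) : ℤ) := by
        push_cast
        linarith
      exact_mod_cast h2
    have hsumY : ∑ θ ∈ Y, m θ * D θ = C * (1 + D₁) := by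
      rw [hC, sum_mul]
      exact sum_congr rfl fun θ hθ => by rw [hDθ θ hθ]
    have hb := hdeg_univ
    rw [← hdeg_le, hsumY, hCZ] at hb
    have h1 : t * ((1 + c₁) * (1 + D₁)) ≤ t * 2 := by
      have h2 : t * (1 + c₁) * (1 + D₁) = t * ((1 + c₁) * (1 + D₁)) := by ring
      have h3 : 0 ≤ c₁ * D₁ := Nat.zero_le _
      omega
    have h2 : (1 + c₁) * (1 + D₁) ≤ 2 := Nat.le_of_mul_le_mul_left h1 ht0
    have hD₁pos : 1 ≤ D₁ := hDpos χ₁
    have hc0 : c₁ = 0 := by
      by_contra hne
      have : 1 ≤ c₁ := Nat.one_le_iff_ne_zero.2 hne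
      nlinarith
    have hD1 : D₁ = 1 := by
      rw [hc0] at h2
      omega
    have hCt : C = t := by rw [hCZ, hc0]; ring
    have heq : ∑ χ ∈ X ∪ Y, m χ * D χ = p := by
      rw [← hdeg_le, hsumY, hc0, hCt, hD1, hp21]
      ring
    have hdec := hπdec heq
    rw [hc0] at hdec
    have hχ₁one : (χ₁ : Γ → ℂ) 1 = 1 := by
      rw [hD χ₁, ← hD₁, hD1]
      simp
    obtain ⟨φ, hφ⟩ := Cfsg.Agent.Lib.Char.LinearChars.exists_hom_of_isCharacter_one (hirrc χ₁) hχ₁one
    have hπreg : ∀ g : Γ, ¬ p ∣ orderOf g → π g = 1 + (t : ℂ) * (1 + (χ₁ : Γ → ℂ) g) := by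
      intro g hg
      have h3 : ∀ θ ∈ Y, (θ : Γ → ℂ) g = 1 + (χ₁ : Γ → ℂ) g := by
        intro θ hθ
        have h4 := hT.rel g hg θ hθ
        rw [hsumX, htδ, show δ χ₁ = 1 from hδ1, show (triv : Γ → ℂ) g = 1 from rfl, hε] at h4
        simpa using h4
      rw [hdec, sum_congr rfl (fun θ hθ => by rw [h3 θ hθ]), ← sum_mul]
      have h5 : ∑ θ ∈ Y, (m θ : ℂ) = (t : ℂ) := by
        rw [← hCt, hC]
        push_cast
        rfl
      rw [h5]
      simp
    -- the stabilizer of a point
    obtain ⟨a⟩ := ‹Nonempty α›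
    have hstab : ∀ g ∈ stabilizer Γ a, g ≠ 1 → (φ g : ℂ) = -1 := by
      intro g hg hg1
      have hga : g • a = a := hg
      have hreg' : ¬ p ∣ orderOf g := by
        intro hdv
        have h1 := orderOf_pow_orderOf_div (orderOf_pos g).ne' hdv
        apply hfpf _ h1 a
        have h2 : g ^ (orderOf g / p) ∈ stabilizer Γ a := pow_mem hg _
        exact h2
      have h3 := hπreg g hreg'
      have h4 : (χ₁ : Γ → ℂ) g = (φ g : ℂ) := congrFun hφ g
      rw [h4, hπf] at h3
      have hnorm : ‖(φ g : ℂ)‖ = 1 := by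
        have h5 : (φ g : ℂ) ^ orderOf g = 1 := by
          rw [← Units.val_pow_eq_pow_val, ← map_pow, pow_orderOf_eq_one, map_one, Units.val_one]
        exact Complex.norm_eq_one_of_pow_eq_one h5 (orderOf_pos g).ne'
      have htc : (t : ℂ) ≠ 0 := by exact_mod_cast ht0.ne'
      have hreal : (φ g : ℂ) = (((f g - 1 - t : ℤ) : ℝ) / (t : ℝ) : ℝ) := by
        push_cast
        field_simp
        linear_combination -h3
      rw [hreal, Complex.norm_real, Real.norm_eq_abs, abs_div] at hnorm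
      have htr : (0 : ℝ) < t := by exact_mod_cast ht0
      rw [abs_of_pos htr, div_eq_one_iff_eq htr.ne'] at hnorm
      have hab : |f g - 1 - t| = (t : ℤ) := by
        have : ((|f g - 1 - t| : ℤ) : ℝ) = ((t : ℤ) : ℝ) := by
          push_cast
          push_cast at hnorm
          exact hnorm
        exact_mod_cast this
      rcases (abs_eq (by positivity)).1 hab with h5 | h5
      · exfalso
        apply hg1
        apply hfaith
        have h6 : f g = p := by
          rw [hp21]
          push_cast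
          linarith
        have h7 : Nat.card (fixedBy α g) = p := by
          have h70 : ((Nat.card (fixedBy α g) : ℕ) : ℤ) = (p : ℤ) := h6
          exact_mod_cast h70
        have h8 : fixedBy α g = Set.univ := by
          apply Set.eq_of_subset_of_ncard_le (Set.subset_univ _)
          rw [Set.ncard_univ, hα, ← h7, Nat.card_coe_set_eq]
        intro b
        have h9 : b ∈ fixedBy α g := by rw [h8]; exact Set.mem_univ b
        exact h9
      · rw [hreal]
        have h6 : ((f g - 1 - t : ℤ) : ℝ) = -(t : ℝ) := by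
          rw [h5]
          push_cast
          ring
        rw [h6]
        push_cast
        field_simp
    have hnotriple : ∀ g ∈ stabilizer Γ a, g ≠ 1 → ∀ h ∈ stabilizer Γ a, h ≠ 1 → g * h = 1 := by
      intro g hg hg1 h hh hh1
      by_contra hne
      have h1 := hstab g hg hg1
      have h2 := hstab h hh hh1
      have h3 := hstab (g * h) (mul_mem hg hh) hne
      rw [map_mul, Units.val_mul, h1, h2] at h3
      norm_num at h3
    have hcardS : Nat.card (stabilizer Γ a) ≤ 2 := by
      by_cases hbot : ∀ g ∈ stabilizer Γ a, g = 1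
      · have h1 : stabilizer Γ a = ⊥ := (Subgroup.eq_bot_iff_forall _).2 hbot
        rw [h1, Subgroup.card_bot]
        omega
      · push Not at hbot
        obtain ⟨g, hg, hg1⟩ := hbot
        rw [Nat.card_eq_fintype_card, Fintype.card_subtype]
        have h1 : univ.filter (fun h => h ∈ stabilizer Γ a) ⊆ {1, g⁻¹} := by
          intro h hh
          simp only [mem_filter, mem_univ, true_and] at hh
          simp only [mem_insert, mem_singleton]
          by_cases hh1 : h = 1
          · exact Or.inl hh1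
          · exact Or.inr (eq_inv_of_mul_eq_one_right (hnotriple g hg hg1 h hh hh1))
        exact (card_le_card h1).trans (card_le_two)
    have horb := Cfsg.Agent.Lib.Perm.PrimeDeg.natCard_orbit_mul Γ a
    rw [MulAction.orbit_eq_univ, Nat.card_coe_set_eq, Set.ncard_univ, hα, hGc] at horb
    have h9 : p * Nat.card (stabilizer Γ a) ≤ p * 2 := Nat.mul_le_mul_left _ hcardS
    have h10 : p * (2 * M) ≤ p * 2 := by
      calc p * (2 * M) = 2 * p * M := by ring
        _ = p * Nat.card (stabilizer Γ a) := horb.symm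
        _ ≤ p * 2 := h9
    have h11 := Nat.le_of_mul_le_mul_left h10 hp'.pos
    omega
  · -- the sign `-`
    right
    rw [hε] at hrowZ hrel1
    have hδ1 : δ₁ = -1 := by
      rcases hsign₁ with h | h
      · exfalso
        have h1 := hrel1 θ₀ hθ₀
        rw [h] at h1
        omega
      · exact h
    rw [hδ1] at hrowZ hrel1
    obtain ⟨s, hs, hs1⟩ := hT.degY θ₀ hθ₀
    have hs1' := hs1 hε
    rw [hε] at hs
    have hcd := Cfsg.Agent.Lib.Char.Values.IsCharacter.charDegree_eq (hirrc θ₀) (hD θ₀)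
    rw [hcd] at hs
    have hDθ₀ : (p : ℤ) - 2 ≤ D θ₀ := by
      have h1 : (p : ℤ) * 1 ≤ p * s := by
        apply mul_le_mul_of_nonneg_left (by exact_mod_cast hs1') (by positivity)
      push_cast at hs
      linarith
    have hD₁ge : p - 1 ≤ D₁ := by
      have h1 := hrel1 θ₀ hθ₀
      have h2 : (p : ℤ) - 1 ≤ D₁ := by linarith
      have h3 : ((p - 1 : ℕ) : ℤ) ≤ D₁ := by
        push_cast [Nat.cast_sub hp'.pos]
        exact h2
      exact_mod_cast h3
    have hc1pos : 1 ≤ c₁ := by
      by_contra hlt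
      have h0 : c₁ = 0 := by omega
      rw [h0] at hrowZ
      have h1 : (0 : ℤ) ≤ C := by positivity
      have h2 : (0 : ℤ) < t := by exact_mod_cast ht0
      simp at hrowZ
      omega
    have hb := hdeg_univ
    rw [← hdeg_le] at hb
    have hc₁1 : c₁ = 1 := by
      by_contra hne
      have h1 : 2 ≤ c₁ := by omega
      have h2 : 2 * (p - 1) ≤ c₁ * D₁ := Nat.mul_le_mul h1 hD₁ge
      omega
    have hD₁eq : D₁ = p - 1 := by
      rw [hc₁1, one_mul] at hb
      omega
    have hC0 : C = 0 := by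
      rw [hc₁1] at hrowZ
      have h1 : ((C : ℕ) : ℤ) = 0 := by
        push_cast at hrowZ
        linarith
      exact_mod_cast h1
    have hmY : ∀ θ ∈ Y, m θ = 0 := fun θ hθ => (sum_eq_zero_iff.1 hC0) θ hθ
    have heq : ∑ χ ∈ X ∪ Y, m χ * D χ = p := by
      rw [← hdeg_le, hc₁1, one_mul, hD₁eq, sum_eq_zero (fun θ hθ => by rw [hmY θ hθ, zero_mul])]
      omega
    have hdec := hπdec heq
    have hπχ : ∀ g, (χ₁ : Γ → ℂ) g = ((f g - 1 : ℤ) : ℂ) := by
      intro g
      have h1 := hdec g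
      rw [hc₁1, sum_eq_zero (fun θ hθ => by rw [hmY θ hθ]; simp), hπf] at h1
      push_cast
      push_cast at h1
      linear_combination -h1
    -- the moments
    have hcard0 : (Nat.card Γ : ℂ) ≠ 0 := by exact_mod_cast Nat.card_pos.ne'
    have hconj : ∀ z : ℤ, conj (z : ℂ) = z := fun z => by simp
    have hsum1 : ∑ g, f g = (Nat.card Γ : ℤ) := by
      have h1 : classInner π (fun _ => (1 : ℂ)) = 1 := Cfsg.Agent.Lib.Char.PermChar.classInner_perm_one_of_transitive
      rw [Cfsg.Agent.Lib.Char.Induced.classInner_def] at h1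
      simp only [map_one, mul_one, hπf] at h1
      have h2 := (inv_mul_eq_iff_eq_mul₀ hcard0).1 h1
      rw [mul_one] at h2
      exact_mod_cast h2
    have hsum2' : ∑ g, (f g - 1) ^ 2 = (Nat.card Γ : ℤ) := by
      have h1 := Cfsg.Agent.Lib.Char.Ortho.classInner_irr_self χ₁.2
      rw [Cfsg.Agent.Lib.Char.Induced.classInner_def] at h1
      simp only [hπχ, hconj] at h1
      have h3 := (inv_mul_eq_iff_eq_mul₀ hcard0).1 h1
      rw [mul_one] at h3
      have h2 : ((∑ g, (f g - 1) ^ 2 : ℤ) : ℂ) = ((Nat.card Γ : ℤ) : ℂ) := by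
        rw [Int.cast_natCast, ← h3, Int.cast_sum]
        refine sum_congr rfl fun g _ => ?_
        rw [Int.cast_pow, pow_two]
      exact_mod_cast h2
    have hsum2 : ∑ g, f g ^ 2 = 2 * (Nat.card Γ : ℤ) := by
      have h1 : ∀ g, f g ^ 2 = (f g - 1) ^ 2 + 2 * f g - 1 := fun g => by ring
      simp_rw [h1]
      rw [sum_sub_distrib, sum_add_distrib, hsum2', ← mul_sum, hsum1, sum_const, card_univ,
        ← Nat.card_eq_fintype_card]
      simp only [nsmul_eq_mul]
      ring
    obtain ⟨c, hc⟩ := Cfsg.Agent.Lib.Char.Ortho.exists_nat_classInner_of_isCharacter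
      (Cfsg.Agent.Lib.Char.Basic.isCharacter_mul (hirrc χ₁) (hirrc χ₁)) (hirrc χ₁)
    have hsum3 : ∑ g, (f g - 1) ^ 3 = (Nat.card Γ : ℤ) * c := by
      rw [Cfsg.Agent.Lib.Char.Induced.classInner_def] at hc
      simp only [Pi.mul_apply, hπχ, hconj] at hc
      have h3 := (inv_mul_eq_iff_eq_mul₀ hcard0).1 hc
      have h2 : ((∑ g, (f g - 1) ^ 3 : ℤ) : ℂ) = (((Nat.card Γ : ℤ) * c : ℤ) : ℂ) := by
        rw [Int.cast_mul, Int.cast_natCast, Int.cast_natCast, ← h3, Int.cast_sum]
        refine sum_congr rfl fun g _ => ?_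
        rw [Int.cast_pow]
        ring
      exact_mod_cast h2
    have hQcard : ∀ Q : Sylow p Γ, Nat.card Q = p := by
      intro Q
      have h1 : Nat.card (P : Subgroup Γ) = p := by
        rw [← hz, Nat.card_zpowers, hord]
      exact (Nat.card_congr (Q.equiv P).toEquiv).trans h1
    have hcardG := primeDeg_card hα hfaith P (M := M) rfl hGc hM0 hQcard hfpf hp3 f (fun g => rfl) hsum1 hsum2 hsum3
    have hMt : (normalizer (zpowers x : Set Γ)).index = t * (p - 2) := by
      rw [hM1]
      have h1 : p * (2 * M) = p * (2 * (t * (p - 2))) := by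
        calc p * (2 * M) = 2 * p * M := by ring
          _ = Nat.card Γ := hGc.symm
          _ = p * (p - 1) * (p - 2) := hcardG
          _ = p * (2 * (t * (p - 2))) := by rw [hhet]; ring
      have h2 := Nat.eq_of_mul_eq_mul_left hp'.pos h1
      omega
    have hd' : ∀ θ ∈ Y, (θ : Γ → ℂ) 1 = ((p - 2 : ℕ) : ℂ) := by
      intro θ hθ
      rw [hD θ]
      have h1 := hrel1 θ hθ
      rw [hD₁eq] at h1
      have h2 : (D θ : ℤ) = ((p - 2 : ℕ) : ℤ) := by
        have h3 : ((p - 1 : ℕ) : ℤ) = (p : ℤ) - 1 := by omega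
        have h4 : ((p - 2 : ℕ) : ℤ) = (p : ℤ) - 2 := by omega
        rw [h3] at h1
        rw [h4]
        linarith
      have h3 : D θ = p - 2 := by exact_mod_cast h2
      rw [h3]
    exact psl_of_table hζ hodd hT hε hord hcen P hz (d := p - 2) (by omega) hd' hMt (by omega) (Or.inl rfl)

end Main

end Cfsg.Agent.Lib.DefectOne
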