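import Mathlib
import Cfsg.Agent.Lib.DefectOne.PrimeDegree
import Cfsg.Agent.Lib.Char.Wielandt2pMain
import Cfsg.Agent.Lib.Compute.SmallField

/-!
# Primitive groups of degree `2 p` with a Sylow normalizer of order `2 p`
-/

set_option autoImplicit false
set_option linter.unusedSectionVars false

namespace Cfsg.Agent.Lib.DefectOne

open Cfsg Subgroup Finset MulAction Cfsg.Agent.Lib.Blocks.Local
open scoped ComplexConjugate Pointwise MatrixGroups

universe u v

section Aux

variable {Γ : Type u} [Group Γ] {α : Type v} [MulAction Γ α] {p : ℕ} [hp : Fact p.Prime]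

/-- A character value fixed by the Galois group is an integer. -/
theorem int_of_fixed2 [Finite Γ] {θ : Γ → ℂ} (hθ : IsCharacter Γ θ) (g : Γ)
    (h : ∀ k : ℕ, k.Coprime (Nat.card Γ) → θ (g ^ k) = θ g) : ∃ n : ℤ, θ g = n := by
  classical
  obtain ⟨m, ρ, rfl⟩ := id hθ
  haveI : NeZero (Nat.card Γ) := ⟨Nat.card_pos.ne'⟩
  obtain ⟨ι, hι, z, h1, h2⟩ := Cfsg.Agent.Lib.Char.Galois.character_eigen ρ g (n := Nat.card Γ) Nat.card_pos pow_card_eq_one'
  have h3 : ρ.character g = ∑ i, z i := by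
    have := h2 1
    simpa using this
  have hfix : ∀ u : (ZMod (Nat.card Γ))ˣ, ∑ i, z i ^ (u : ZMod (Nat.card Γ)).val = ∑ i, z i := by
    intro u
    rw [← h2, ← h3]
    exact h _ (ZMod.val_coe_unit_coprime u)
  obtain ⟨q, hq⟩ := Cfsg.Agent.Lib.Char.Galois.rat_of_fixed (Nat.card Γ) z h1 hfix
  have hint := Cfsg.Agent.Lib.Char.Values.IsCharacter.isIntegral hθ g
  rw [h3, hq] at hint
  have h4 : IsIntegral ℤ q := by
    have := (isIntegral_algebraMap_iff (A := ℚ) (B := ℂ) (R := ℤ) (x := q)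
      (algebraMap ℚ ℂ).injective).1 (by simpa using hint)
    exact this
  obtain ⟨n, hn⟩ := IsIntegrallyClosed.isIntegral_iff.1 h4
  refine ⟨n, ?_⟩
  rw [h3, hq, ← hn]
  simp

/-- A normal subgroup of order prime to `p` in a faithful primitive group of degree `2 p` is trivial. -/
lemma normal_bot_of_not_dvd [Finite Γ] [Finite α] (hα : Nat.card α = 2 * p)
    (hfaith : ∀ g : Γ, (∀ a : α, g • a = a) → g = 1) [IsPreprimitive Γ α] (K : Subgroup Γ) [K.Normal]
    (hd : ¬ p ∣ Nat.card K) : K = ⊥ := by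
  by_contra hne
  have hfx : fixedPoints K α ≠ Set.univ := by
    intro h
    apply hne
    rw [eq_bot_iff]
    intro k hk
    apply hfaith k
    intro a
    have h1 : a ∈ fixedPoints K α := by rw [h]; trivial
    exact h1 ⟨k, hk⟩
  haveI htr : IsPretransitive K α := IsQuasiPreprimitive.isPretransitive_of_normal hfx
  have hpos : 0 < Nat.card α := by
    rw [hα]
    have := hp.out.pos
    positivity
  obtain ⟨a⟩ := (Nat.card_pos_iff.1 hpos).1
  have h1 := Cfsg.Agent.Lib.Perm.PrimeDeg.natCard_orbit_mul K a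
  rw [orbit_eq_univ, Nat.card_coe_set_eq, Set.ncard_univ, hα] at h1
  exact hd ⟨2 * Nat.card (stabilizer K a), by rw [← h1]; ring⟩

/-- The orbit of a point moved by an element of order `p`. -/
lemma card_orbit_of_moved {x : Γ} (hord : orderOf x = p) {b : α} (hb : x • b ≠ b) :
    Nat.card (orbit (zpowers x) b) = p := by
  have h1 := Cfsg.Agent.Lib.Perm.PrimeDeg.natCard_orbit_mul (zpowers x) b
  rw [Nat.card_zpowers, hord] at h1
  have h2 : Nat.card (orbit (zpowers x) b) ∣ p := Dvd.intro _ h1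
  rcases (Nat.dvd_prime hp.out).1 h2 with h3 | h3
  · exfalso
    apply hb
    have h4 : (⟨x, mem_zpowers x⟩ : zpowers x) • b ∈ orbit (zpowers x) b := mem_orbit _ _
    have h5 : b ∈ orbit (zpowers x) b := mem_orbit_self b
    haveI : Subsingleton (orbit (zpowers x) b) := (Nat.card_eq_one_iff_unique.1 h3).1
    have h6 := Subsingleton.elim (⟨_, h4⟩ : orbit (zpowers x) b) ⟨_, h5⟩
    exact congrArg Subtype.val h6
  · exact h3

/-- An element of order `p` with a fixed point in a primitive group of degree `2 p` makes it doubly transitive. -/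
lemma fpf_of_not_two [Finite α] (hα : Nat.card α = 2 * p) (hfaith : ∀ g : Γ, (∀ a : α, g • a = a) → g = 1)
    (hp3 : 2 < p) (hprim : IsPreprimitive Γ α) (hnot2 : ¬ IsMultiplyPretransitive Γ α 2) {x : Γ}
    (hord : orderOf x = p) (a : α) : x • a ≠ a := by
  classical
  haveI : Fintype α := Fintype.ofFinite _
  intro hfix
  apply hnot2
  set s : Set α := {a | x • a = a} with hs
  have hx1 : x ≠ 1 := by
    rintro rfl
    rw [orderOf_one] at hord
    exact hp.out.one_lt.ne hord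
  obtain ⟨b, hb⟩ : ∃ b : α, x • b ≠ b := by
    by_contra hno
    push Not at hno
    exact hx1 (hfaith x hno)
  have hzp : ∀ u ∈ zpowers x, ∀ c ∈ s, u • c = c := by
    intro u hu c hc
    obtain ⟨k, rfl⟩ := Subgroup.mem_zpowers_iff.1 hu
    have h1 : x ∈ stabilizer Γ c := hc
    exact zpow_mem h1 k
  have hno : ∀ c, c ∉ s → a ∉ orbit (zpowers x) c := by
    rintro c hc ⟨⟨u, hu⟩, hu2⟩
    apply hc
    have h1 : u • c = a := hu2
    have h2 : u⁻¹ • a = a := hzp _ (inv_mem hu) a hfix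
    have h3 : c = a := by
      rw [← h1, inv_smul_smul] at h2
      rw [h2, h1]
    rw [h3]
    exact hfix
  have hmoved : ∀ c, c ∉ s → Nat.card (orbit (zpowers x) c) = p := fun c hc => card_orbit_of_moved hord hc
  have hcomp : ∀ c, c ∉ s → c ∈ orbit (zpowers x) b := by
    intro c hc
    by_contra hcb
    have hdisj : Disjoint (orbit (zpowers x) b) (orbit (zpowers x) c) := by
      rw [Set.disjoint_left]
      intro y hy1 hy2
      apply hcb
      have h1 : orbit (zpowers x) y = orbit (zpowers x) b := orbit_eq_iff.2 hy1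
      have h2 : orbit (zpowers x) y = orbit (zpowers x) c := orbit_eq_iff.2 hy2
      rw [← h1, h2]
      exact mem_orbit_self c
    have hU : orbit (zpowers x) b ∪ orbit (zpowers x) c = Set.univ := by
      apply Set.eq_of_subset_of_ncard_le (Set.subset_univ _)
      rw [Set.ncard_union_eq hdisj, Set.ncard_univ, hα]
      have h1 := hmoved b hb
      have h2 := hmoved c hc
      rw [Nat.card_coe_set_eq] at h1 h2
      rw [h1, h2]
      omega
    have h3 : a ∈ orbit (zpowers x) b ∪ orbit (zpowers x) c := by rw [hU]; trivial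
    rcases h3 with h3 | h3
    · exact hno b hb h3
    · exact hno c hc h3
  have hcompl : sᶜ = orbit (zpowers x) b := by
    ext c
    constructor
    · exact fun hc => hcomp c hc
    · rintro ⟨⟨u, hu⟩, hu2⟩ hcs
      have h1 : u • b = c := hu2
      have h2 : u⁻¹ • c = c := hzp _ (inv_mem hu) c hcs
      rw [← h1, inv_smul_smul] at h2
      apply hb
      have h3 : b = c := by rw [h2, h1]
      rw [h3]
      exact hcs
  have hscard : s.ncard = (p - 1) + 1 := by
    have h1 := Set.ncard_add_ncard_compl s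
    rw [hcompl, hα] at h1
    have h2 := hmoved b hb
    rw [Nat.card_coe_set_eq] at h2
    rw [h2] at h1
    have := hp.out.pos
    omega
  have htrans : IsPretransitive (fixingSubgroup Γ s) (SubMulAction.ofFixingSubgroup Γ s) := by
    refine ⟨fun y z => ?_⟩
    have hy : (y : α) ∉ s := (SubMulAction.mem_ofFixingSubgroup_iff Γ).1 y.2
    have hz : (z : α) ∉ s := (SubMulAction.mem_ofFixingSubgroup_iff Γ).1 z.2
    obtain ⟨⟨u, hu⟩, hu2⟩ := hcomp _ hy
    obtain ⟨⟨v, hv⟩, hv2⟩ := hcomp _ hz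
    have hw : v * u⁻¹ ∈ zpowers x := mul_mem hv (inv_mem hu)
    refine ⟨⟨v * u⁻¹, (mem_fixingSubgroup_iff Γ).2 (fun c hc => hzp _ hw c hc)⟩, Subtype.ext ?_⟩
    have h1 : u • b = y := hu2
    have h2 : v • b = z := hv2
    show (v * u⁻¹) • (y : α) = z
    rw [← h1, ← h2, mul_smul, inv_smul_smul]
  exact hprim.is_two_pretransitive hscard (by rw [hα]; omega) htrans

/-- The coordinates given by a fixed-point-free element of order `p` on `2 p` points. -/
lemma exists_phi [Finite α] (hα : Nat.card α = 2 * p) {x : Γ} (hord : orderOf x = p)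
    (hfpf : ∀ a : α, x • a ≠ a) : ∃ φ : ZMod p × Fin 2 ≃ α, ∀ j s, x • φ (j, s) = φ (j + 1, s) := by
  classical
  haveI : Fintype α := Fintype.ofFinite _
  have hp' := hp.out
  have hpos : 0 < Nat.card α := by
    rw [hα]
    have := hp'.pos
    positivity
  obtain ⟨a₀⟩ := (Nat.card_pos_iff.1 hpos).1
  have h0 := card_orbit_of_moved hord (hfpf a₀)
  obtain ⟨a₁, ha₁⟩ : ∃ a₁ : α, a₁ ∉ orbit (zpowers x) a₀ := by
    by_contra hno
    push Not at hno
    have h1 : orbit (zpowers x) a₀ = Set.univ := Set.eq_univ_of_forall hno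
    rw [Nat.card_coe_set_eq, h1, Set.ncard_univ, hα] at h0
    have := hp'.pos
    omega
  have hfixk : ∀ k : ZMod p, k ≠ 0 → ∀ a : α, XX x k • a ≠ a := by
    intro k hk a ha
    apply hfpf a
    have h1 : x = XX x k ^ (k⁻¹).val := by
      rw [← XX_mul_val hord, mul_comm, mul_inv_cancel₀ hk, XX_one hord]
    have h2 : XX x k ∈ stabilizer Γ a := ha
    rw [h1]
    exact pow_mem h2 _
  let A : Fin 2 → α := ![a₀, a₁]
  have hA : ∀ (i j : ZMod p) (s t : Fin 2), XX x i • A s = XX x j • A t → s = t ∧ i = j := by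
    have key : ∀ (i j : ZMod p), XX x i • a₀ ≠ XX x j • a₁ := by
      intro i j h
      apply ha₁
      have h1 : a₁ = (XX x j)⁻¹ • (XX x i • a₀) := by
        rw [h, inv_smul_smul]
      rw [h1, smul_smul]
      exact ⟨⟨(XX x j)⁻¹ * XX x i, mul_mem (inv_mem (XX_mem_zpowers j)) (XX_mem_zpowers i)⟩, rfl⟩
    intro i j s t h
    have hst : s = t := by
      fin_cases s <;> fin_cases t
      · rfl
      · exact absurd h (key i j)
      · exact absurd h.symm (key j i)
      · rfl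
    refine ⟨hst, ?_⟩
    subst hst
    by_contra hij
    have h1 : XX x i = XX x (i - j) * XX x j := by
      rw [← XX_add hord, sub_add_cancel]
    rw [h1, mul_smul] at h
    exact hfixk (i - j) (sub_ne_zero.2 hij) _ h
  let f : ZMod p × Fin 2 → α := fun w => XX x w.1 • A w.2
  have hinj : Function.Injective f := by
    rintro ⟨i, s⟩ ⟨j, t⟩ h
    obtain ⟨h1, h2⟩ := hA i j s t h
    rw [h1, h2]
  have hbij : Function.Bijective f := by
    refine hinj.bijective_of_nat_card_le ?_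
    rw [hα, Nat.card_prod, Nat.card_zmod, Nat.card_fin]
    omega
  refine ⟨Equiv.ofBijective f hbij, fun j s => ?_⟩
  show x • (XX x j • A s) = XX x (j + 1) • A s
  rw [smul_smul, add_comm, XX_add hord, XX_one hord]

/-- The centralizer of an element of order `p`. -/
lemma cen_of_deg2p [Finite Γ] [Finite α] (hα : Nat.card α = 2 * p) (hfaith : ∀ g : Γ, (∀ a : α, g • a = a) → g = 1)
    [IsPreprimitive Γ α] (hp3 : 2 < p) (P : Sylow p Γ) (hN : Nat.card (normalizer ((P : Subgroup Γ) : Set Γ)) = 2 * p)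
    {x : Γ} (hord : orderOf x = p) (hz : zpowers x = (P : Subgroup Γ)) (c : Γ) (hc : c * x = x * c) : c ∈ zpowers x := by
  classical
  have hp' := hp.out
  by_contra hcn
  set C := centralizer ((P : Subgroup Γ) : Set Γ) with hC
  have hcomm : ∀ u ∈ (P : Subgroup Γ), ∀ v ∈ (P : Subgroup Γ), u * v = v * u := by
    intro u hu v hv
    rw [← hz] at hu hv
    obtain ⟨k, rfl⟩ := Subgroup.mem_zpowers_iff.1 hu
    obtain ⟨l, rfl⟩ := Subgroup.mem_zpowers_iff.1 hv
    exact (Commute.zpow_zpow (Commute.refl x) k l).eq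
  have hPC : (P : Subgroup Γ) ≤ C := by
    intro u hu
    rw [hC, Subgroup.mem_centralizer_iff]
    intro v hv
    exact hcomm v hv u hu
  have hcC : c ∈ C := by
    rw [hC, Subgroup.mem_centralizer_iff]
    intro v hv
    rw [← hz] at hv
    obtain ⟨k, rfl⟩ := Subgroup.mem_zpowers_iff.1 hv
    exact ((Commute.zpow_right (show Commute c x from hc) k).eq).symm
  have hCN : C ≤ normalizer ((P : Subgroup Γ) : Set Γ) := Subgroup.centralizer_le_normalizer _
  have hPcard : Nat.card (P : Subgroup Γ) = p := by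
    rw [← hz, Nat.card_zpowers, hord]
  have h1 : Nat.card C ∣ 2 * p := by
    have := Subgroup.card_dvd_of_le hCN
    rwa [hN] at this
  have h2 : p ∣ Nat.card C := by
    have := Subgroup.card_dvd_of_le hPC
    rwa [hPcard] at this
  obtain ⟨k, hk⟩ := h2
  have hk2 : k ∣ 2 := by
    rw [hk, mul_comm] at h1
    exact Nat.dvd_of_mul_dvd_mul_right hp'.pos h1
  have hk1 : k ≠ 1 := by
    rintro rfl
    rw [mul_one] at hk
    apply hcn
    have h3 : (P : Subgroup Γ) = C := Subgroup.eq_of_le_of_card_ge hPC (by rw [hk, hPcard])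
    rw [hz, h3]
    exact hcC
  have hk3 : k = 2 := by
    rcases (Nat.dvd_prime Nat.prime_two).1 hk2 with h | h
    · exact absurd h hk1
    · exact h
  have hCeq : C = normalizer ((P : Subgroup Γ) : Set Γ) :=
    Subgroup.eq_of_le_of_card_ge hCN (by rw [hN, hk, hk3]; omega)
  have hNC : normalizer ((P : Subgroup Γ) : Set Γ) ≤ centralizer ((P : Subgroup Γ) : Set Γ) := by
    rw [← hC, hCeq]
  set K := (MonoidHom.transferSylow P hNC).ker with hK
  have hcompl : IsComplement' K (P : Subgroup Γ) := MonoidHom.ker_transferSylow_isComplement' P hNC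
  haveI hKn : K.Normal := MonoidHom.normal_ker _
  have hcardK : ¬ p ∣ Nat.card K := MonoidHom.not_dvd_card_ker_transferSylow P hNC
  have hKbot : K = ⊥ := normal_bot_of_not_dvd hα hfaith K hcardK
  have hmul := hcompl.card_mul
  rw [hKbot, Subgroup.card_bot, one_mul, hPcard] at hmul
  have hpos : 0 < Nat.card α := by
    rw [hα]
    positivity
  obtain ⟨a⟩ := (Nat.card_pos_iff.1 hpos).1
  have horb := Cfsg.Agent.Lib.Perm.PrimeDeg.natCard_orbit_mul Γ a
  rw [orbit_eq_univ, Nat.card_coe_set_eq, Set.ncard_univ, hα, ← hmul] at horb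
  have h5 : 2 * Nat.card (stabilizer Γ a) = 1 := by
    apply Nat.eq_of_mul_eq_mul_left hp'.pos
    linarith
  omega

end Aux

section Moments

variable {Γ : Type u} [Group Γ] [Fintype Γ] {p : ℕ} [hp : Fact p.Prime]

/-- At least `M (p - 1)` elements have order `p`. -/
lemma card_singular_ge {M : ℕ} (hM : Nat.card (Sylow p Γ) = M) (hQcard : ∀ Q : Sylow p Γ, Nat.card Q = p)
    (T : Γ → Prop) [DecidablePred T] (hT : ∀ g : Γ, orderOf g = p → T g) :
    M * (p - 1) ≤ (univ.filter T).card := by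
  classical
  have hp' := hp.out
  letI : Fintype (Sylow p Γ) := Fintype.ofFinite _
  let S : Sylow p Γ → Finset Γ := fun Q => univ.filter (fun g => g ∈ (Q : Subgroup Γ) ∧ g ≠ 1)
  have hS : ∀ Q, (S Q).card = p - 1 := by
    intro Q
    have h1 : S Q = (univ.filter (fun g => g ∈ (Q : Subgroup Γ))).erase 1 := by
      ext g
      simp only [S, mem_filter, mem_univ, true_and, mem_erase]
      tauto
    rw [h1, card_erase_of_mem (mem_filter.2 ⟨mem_univ _, one_mem _⟩)]
    congr 1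
    rw [← Fintype.card_subtype, ← Nat.card_eq_fintype_card]
    exact hQcard Q
  have hord : ∀ Q : Sylow p Γ, ∀ g ∈ (Q : Subgroup Γ), g ≠ 1 → orderOf g = p := by
    intro Q g hg hg1
    have h1 := Subgroup.orderOf_dvd_natCard (Q : Subgroup Γ) hg
    rw [show Nat.card (Q : Subgroup Γ) = p from hQcard Q] at h1
    rcases (Nat.dvd_prime hp').1 h1 with h2 | h2
    · exact absurd (orderOf_eq_one_iff.1 h2) hg1
    · exact h2
  have hdisj : ((univ : Finset (Sylow p Γ)) : Set (Sylow p Γ)).PairwiseDisjoint S := by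
    intro Q _ Q' _ hne
    refine Finset.disjoint_left.2 ?_
    intro g hg hg'
    simp only [S, mem_filter, mem_univ, true_and] at hg hg'
    apply hne
    apply Sylow.ext
    have h1 : zpowers g = (Q : Subgroup Γ) := by
      refine Subgroup.eq_of_le_of_card_ge ((zpowers_le).2 hg.1) ?_
      rw [Nat.card_zpowers, hord Q g hg.1 hg.2]
      exact (hQcard Q).le
    have h2 : zpowers g = (Q' : Subgroup Γ) := by
      refine Subgroup.eq_of_le_of_card_ge ((zpowers_le).2 hg'.1) ?_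
      rw [Nat.card_zpowers, hord Q g hg.1 hg.2]
      exact (hQcard Q').le
    rw [← h1, h2]
  have h1 := card_biUnion hdisj
  rw [sum_congr rfl (fun Q _ => hS Q), sum_const, card_univ, ← Nat.card_eq_fintype_card, hM, smul_eq_mul] at h1
  rw [← h1]
  apply card_le_card
  intro g hg
  rw [mem_biUnion] at hg
  obtain ⟨Q, _, hgQ⟩ := hg
  simp only [S, mem_filter, mem_univ, true_and] at hgQ
  simp only [mem_filter, mem_univ, true_and]
  exact hT g (hord Q g hgQ.1 hgQ.2)

/-- The arithmetic of the third moment. -/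
lemma triple_bound2 {F p : ℤ} (hFp : F + 1 ≤ p) :
    (F + 1) * F * (F - 1) ≤ p * (F * (F - 1) - if F = -1 then 2 else 0) := by
  by_cases hF : F = -1
  · subst hF
    simp
  · rw [if_neg hF, sub_zero]
    have h1 : 0 ≤ F * (F - 1) := by
      by_cases h2 : 0 ≤ F
      · by_cases h3 : F = 0
        · subst h3; simp
        · exact mul_nonneg h2 (by omega)
      · exact mul_nonneg_of_nonpos_of_nonpos (by omega) (by omega)
    calc (F + 1) * F * (F - 1) = (F + 1) * (F * (F - 1)) := by ring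
      _ ≤ p * (F * (F - 1)) := mul_le_mul_of_nonneg_right hFp h1

/-- The third moment of an integer-valued character of degree `p - 1` with value `-1` on the `p`-singular elements. -/
theorem deg2p_moment {M : ℕ} (hM : Nat.card (Sylow p Γ) = M) (hG : Nat.card Γ = 2 * p * M) (hM0 : 0 < M)
    (hQcard : ∀ Q : Sylow p Γ, Nat.card Q = p) (hp3 : 2 < p)
    (f : Γ → ℤ) (hf1 : f 1 = p - 1) (hfle : ∀ g, f g ≤ p - 1) (hfeq : ∀ g, f g = p - 1 → g = 1)
    (hS : ∀ g : Γ, orderOf g = p → f g = -1)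
    (hsum1 : ∑ g, f g = 0) (hsum2 : ∑ g, f g ^ 2 = (Nat.card Γ : ℤ))
    {c : ℤ} (hc1 : 1 ≤ c) (hsum3 : ∑ g, f g ^ 3 = (Nat.card Γ : ℤ) * c) :
    2 * M = (p - 1) * (p - 2) := by
  classical
  have hp' := hp.out
  set Z := (univ.filter (fun g : Γ => f g = -1)).card with hZ
  have hZle : M * (p - 1) ≤ Z := card_singular_ge hM hQcard _ hS
  set A : ℤ := ∑ g, (f g + 1) * f g * (f g - 1) with hA
  have hA_eq : A = Nat.card Γ * c := by
    rw [← hsum3, hA]
    have h2 : ∑ g, (f g + 1) * f g * (f g - 1) = ∑ g, (f g ^ 3 - f g) :=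
      sum_congr rfl fun g _ => by ring
    rw [h2, sum_sub_distrib, hsum1, sub_zero]
  set B : Γ → ℤ := fun g => f g * (f g - 1) - if f g = -1 then 2 else 0 with hB
  have hBsum : ∑ g, B g = Nat.card Γ - 2 * Z := by
    rw [sum_sub_distrib]
    have h1 : ∑ g, f g * (f g - 1) = Nat.card Γ := by
      have h2 : ∀ g, f g * (f g - 1) = f g ^ 2 - f g := fun g => by ring
      simp_rw [h2]
      rw [sum_sub_distrib, hsum2, hsum1, sub_zero]
    have h3 : ∑ g, (if f g = -1 then (2 : ℤ) else 0) = 2 * Z := by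
      rw [← sum_filter, sum_const, ← hZ, nsmul_eq_mul]
      ring
    rw [h1, h3]
  have hpZ : (2 : ℤ) < p := by exact_mod_cast hp3
  have hle : ∀ g, (f g + 1) * f g * (f g - 1) ≤ p * B g := fun g =>
    triple_bound2 (by have := hfle g; omega)
  have hGZ : (Nat.card Γ : ℤ) = 2 * p * M := by rw [hG]; push_cast; ring
  have hZle' : (M : ℤ) * (p - 1) ≤ Z := by
    have h1 : ((M * (p - 1) : ℕ) : ℤ) ≤ Z := by exact_mod_cast hZle
    push_cast [Nat.cast_sub hp'.pos] at h1
    exact h1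
  have hA_le : A ≤ p * (2 * M) := by
    calc A ≤ ∑ g, p * B g := sum_le_sum fun g _ => hle g
      _ = p * (Nat.card Γ - 2 * Z) := by rw [← mul_sum, hBsum]
      _ ≤ p * (2 * M) := by
        apply mul_le_mul_of_nonneg_left _ (by omega)
        rw [hGZ]
        nlinarith
  have hGpos : (0 : ℤ) < Nat.card Γ := by exact_mod_cast Nat.card_pos
  have hc : c = 1 := by
    have h3 : A ≤ Nat.card Γ := by
      rw [hGZ]
      nlinarith
    rw [hA_eq] at h3
    have h4 : c ≤ 1 := by nlinarith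
    omega
  have hA_G : A = Nat.card Γ := by rw [hA_eq, hc]; simp
  have hAB : ∑ g, (p * B g - (f g + 1) * f g * (f g - 1)) ≤ 0 := by
    rw [sum_sub_distrib, ← mul_sum, hBsum, ← hA, hA_G, hGZ]
    nlinarith
  have hsum0 : ∑ g, (p * B g - (f g + 1) * f g * (f g - 1)) = 0 :=
    le_antisymm hAB (sum_nonneg fun g _ => sub_nonneg.2 (hle g))
  have hall : ∀ g, p * B g - (f g + 1) * f g * (f g - 1) = 0 := by
    intro g
    exact (sum_eq_zero_iff_of_nonneg (fun g _ => sub_nonneg.2 (hle g))).1 hsum0 g (mem_univ g)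
  have hB0 : ∀ g, g ≠ 1 → B g = 0 := by
    intro g hg
    by_cases h1 : f g = -1
    · simp [hB, h1]
    · have h4 := hall g
      simp only [hB, if_neg h1, sub_zero] at h4 ⊢
      have h5 : ((p : ℤ) - (f g + 1)) * (f g * (f g - 1)) = 0 := by linear_combination h4
      rcases mul_eq_zero.1 h5 with h6 | h6
      · exact absurd (hfeq g (by omega)) hg
      · exact h6
  have hB1 : B 1 = ((p : ℤ) - 1) * ((p : ℤ) - 2) := by
    simp only [hB, hf1]
    rw [if_neg (by omega), sub_zero]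
    ring
  have hBs : ∑ g, B g = ((p : ℤ) - 1) * ((p : ℤ) - 2) := by
    rw [← add_sum_erase univ _ (mem_univ (1 : Γ)), sum_eq_zero (fun g hg => hB0 g (mem_erase.1 hg).1), add_zero, hB1]
  have hfinal : (2 : ℤ) * M = ((p : ℤ) - 1) * ((p : ℤ) - 2) := by
    have h1 : (p : ℤ) * ∑ g, B g = A := by
      have h2 := hsum0
      rw [sum_sub_distrib, ← mul_sum, ← hA] at h2
      linarith
    rw [hA_G, hGZ, hBs] at h1
    have hp0 : (p : ℤ) ≠ 0 := by omega
    apply mul_left_cancel₀ hp0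
    linarith
  have h3 : ((p - 1 : ℕ) : ℤ) = (p : ℤ) - 1 := by omega
  have h4 : ((p - 2 : ℕ) : ℤ) = (p : ℤ) - 2 := by omega
  have h5 : ((2 * M : ℕ) : ℤ) = (((p - 1) * (p - 2) : ℕ) : ℤ) := by
    push_cast
    rw [h3, h4]
    exact hfinal
  exact_mod_cast h5

end Moments

section Main

variable {Γ : Type u} [Group Γ] [Fintype Γ] {α : Type v} [Fintype α] [MulAction Γ α] {p : ℕ} [hp : Fact p.Prime]

/-- An element of order `p` is conjugate to a power of the generator of a Sylow subgroup of order `p`. -/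
lemma exists_conj_XX {x : Γ} (hord : orderOf x = p) (P : Sylow p Γ) (hz : zpowers x = (P : Subgroup Γ)) {g : Γ}
    (hg : orderOf g = p) : ∃ (c : Γ) (i : ZMod p), i ≠ 0 ∧ g = c * XX x i * c⁻¹ := by
  have hP' : IsPGroup p (zpowers g) := by
    rw [IsPGroup.iff_card, Nat.card_zpowers, hg]
    exact ⟨1, (pow_one p).symm⟩
  obtain ⟨Q, hQ⟩ := hP'.exists_le_sylow
  obtain ⟨c, hc⟩ := MulAction.exists_smul_eq Γ P Q
  have huQ : g ∈ (Q : Subgroup Γ) := hQ (Subgroup.mem_zpowers _)
  rw [← hc, Sylow.coe_subgroup_smul, Subgroup.mem_smul_pointwise_iff_exists] at huQ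
  obtain ⟨v, hv, hvu⟩ := huQ
  have hvu' : c * v * c⁻¹ = g := hvu
  rw [← hz] at hv
  obtain ⟨j, rfl⟩ := exists_XX_of_mem hord hv
  refine ⟨c, j, ?_, hvu'.symm⟩
  rintro rfl
  rw [XX_zero] at hvu'
  have h1 : g = 1 := by
    rw [← hvu']
    group
  rw [h1, orderOf_one] at hg
  exact hp.out.one_lt.ne hg

set_option maxHeartbeats 4000000 in
/-- **Primitive groups of degree `2 p`** which are not doubly transitive with `|N(P)| = 2 p`. -/
theorem deg2p_main (hα : Nat.card α = 2 * p) (hfaith : ∀ g : Γ, (∀ a : α, g • a = a) → g = 1) (hp3 : 3 < p)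
    (hprim : IsPreprimitive Γ α) (hnot2 : ¬ IsMultiplyPretransitive Γ α 2)
    (P : Sylow p Γ) (hN : Nat.card (normalizer ((P : Subgroup Γ) : Set Γ)) = 2 * p) :
    p = 5 ∧ Nonempty (Γ ≃* alternatingGroup (Fin 5)) := by
  classical
  have hp' := hp.out
  haveI := hprim
  haveI : Finite (IrrCharacter Γ) := Cfsg.Agent.Lib.Char.Complete.finite_irr
  letI : Fintype (IrrCharacter Γ) := Fintype.ofFinite _
  have hd : p ∣ Nat.card Γ := by
    have h1 := Subgroup.card_subgroup_dvd_card (normalizer ((P : Subgroup Γ) : Set Γ))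
    rw [hN] at h1
    exact (Dvd.intro_left _ rfl).trans h1
  have hαpos : 0 < Nat.card α := by
    rw [hα]
    have := hp'.pos
    positivity
  haveI : Nonempty α := (Nat.card_pos_iff.1 hαpos).1
  have hPcard : Nat.card (P : Subgroup Γ) = p := by
    have h1 : (P : Subgroup Γ) ≤ normalizer ((P : Subgroup Γ) : Set Γ) := le_normalizer
    have h2 := Subgroup.card_dvd_of_le h1
    rw [hN] at h2
    obtain ⟨k, hk⟩ := IsPGroup.iff_card.1 P.isPGroup'
    rw [hk] at h2 ⊢
    have hne : k ≠ 0 := by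
      rintro rfl
      rw [pow_zero] at hk
      exact P.ne_bot_of_dvd_card hd (Subgroup.eq_bot_of_card_eq _ hk)
    have hk1 : k = 1 := by
      by_contra hk1
      have h3 : 2 ≤ k := by omega
      have h4 : p ^ 2 ∣ 2 * p := (pow_dvd_pow p h3).trans h2
      rw [pow_two, mul_comm 2 p] at h4
      have h5 := Nat.dvd_of_mul_dvd_mul_left hp'.pos h4
      have h6 := Nat.le_of_dvd (by norm_num) h5
      omega
    rw [hk1, pow_one]
  obtain ⟨z, hzo⟩ := exists_prime_orderOf_dvd_card' (G := (P : Subgroup Γ)) p (by rw [hPcard])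
  set x : Γ := (z : Γ) with hx
  have hord : orderOf x = p := by rw [hx, Subgroup.orderOf_coe, hzo]
  have hz : zpowers x = (P : Subgroup Γ) := by
    refine Subgroup.eq_of_le_of_card_ge ((zpowers_le).2 z.2) ?_
    rw [Nat.card_zpowers, hord, hPcard]
  have hfpf : ∀ a : α, x • a ≠ a := fpf_of_not_two hα hfaith (by omega) hprim hnot2 hord
  have hcen := cen_of_deg2p hα hfaith (by omega) P hN hord hz
  obtain ⟨φ, hφ⟩ := exists_phi hα hord hfpf
  set a₀ : α := φ (0, 0) with ha₀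
  rcases Cfsg.Agent.Lib.Char.Wielandt2p.main φ x hφ hprim a₀ with h2 | ⟨hrank, a, ha0, hpa, hsub⟩
  · exact absurd h2 hnot2
  have hζ : IsPrimitiveRoot (Complex.exp (2 * Real.pi * Complex.I / p)) p := Complex.isPrimitiveRoot_exp p hp'.ne_zero
  obtain ⟨e, t, X, Y, δ, ε, b, hT⟩ := exists_scTable hord hcen P hz hζ
  have hNz : normalizer ((P : Subgroup Γ) : Set Γ) = normalizer (zpowers x : Set Γ) := by rw [hz]
  have he : e = 2 := by
    have h1 := hT.cardN
    rw [← hNz, hN] at h1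
    have h2 : p * e = p * 2 := by rw [← h1]; ring
    exact Nat.eq_of_mul_eq_mul_left hp'.pos h2
  subst he
  have hhet := hT.het
  have hodd : p ≠ 2 := by omega
  have hp21 : p = 2 * t + 1 := by omega
  have ht2 : 2 ≤ t := by omega
  have hM1 : (normalizer (zpowers x : Set Γ)).index = Nat.card (Sylow p Γ) := by
    rw [← hNz]
    exact (Sylow.card_eq_index_normalizer P).symm
  set M := Nat.card (Sylow p Γ) with hMdef
  have hM0 : 0 < M := Nat.card_pos
  have hGc : Nat.card Γ = 2 * p * M := by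
    rw [← Subgroup.card_mul_index (normalizer (zpowers x : Set Γ)), hT.cardN, hM1]
    ring
  -- the characters
  have hirrc : ∀ χ : IrrCharacter Γ, IsCharacter Γ (χ : Γ → ℂ) := fun χ =>
    Cfsg.Agent.Lib.Char.Basic.isCharacter_of_isIrrCharacter χ.2
  set triv := Cfsg.Agent.Lib.Blocks.Principal.trivChar Γ with htriv
  have htr1 : (triv : Γ → ℂ) = fun _ => 1 := rfl
  obtain ⟨htX, htδ⟩ := hT.triv (by omega)
  obtain ⟨χ₁, hχ₁⟩ : ∃ χ₁, X.erase triv = {χ₁} := by
    apply Finset.card_eq_one.1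
    rw [card_erase_of_mem htX, hT.cardX]
  have hχ₁ne : χ₁ ≠ triv := by
    have h1 : χ₁ ∈ X.erase triv := by rw [hχ₁]; exact mem_singleton_self _
    exact (mem_erase.1 h1).1
  have hXeq : X = insert triv {χ₁} := by
    rw [← hχ₁, insert_erase htX]
  have hnot : triv ∉ ({χ₁} : Finset (IrrCharacter Γ)) := by
    rw [mem_singleton]
    exact hχ₁ne.symm
  have hχ₁X : χ₁ ∈ X := by rw [hXeq]; exact mem_insert_of_mem (mem_singleton_self _)
  have hsumX : ∀ (F : IrrCharacter Γ → ℂ), ∑ χ ∈ X, F χ = F triv + F χ₁ := by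
    intro F
    rw [hXeq, sum_insert hnot, sum_singleton]
  set π : Γ → ℂ := Cfsg.Agent.Lib.Char.PermChar.permChar Γ α with hπ
  have hπc : IsCharacter Γ π := Cfsg.Agent.Lib.Char.PermChar.isCharacter_perm
  have hπcl : IsClassFunction Γ π := Cfsg.Agent.Lib.Char.Basic.isClassFunction_of_isCharacter hπc
  choose m hm using fun χ : IrrCharacter Γ =>
    Cfsg.Agent.Lib.Char.Ortho.exists_nat_classInner_of_isCharacter hπc (hirrc χ)
  choose D hDpos hD using fun χ : IrrCharacter Γ => Cfsg.Agent.Lib.Char.Ortho.irr_degree_pos χ.2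
  have hval : ∀ g, π g = ∑ χ : IrrCharacter Γ, (m χ : ℂ) * (χ : Γ → ℂ) g := by
    intro g
    have h1 := congrFun (Cfsg.Agent.Lib.Char.Complete.eq_sum_classInner π hπcl) g
    rw [h1, Finset.sum_apply]
    refine sum_congr rfl fun χ _ => ?_
    rw [Pi.smul_apply, hm χ, smul_eq_mul]
  have hmt : m triv = 1 := by
    have h1 := hm triv
    have h2 : classInner π (triv : Γ → ℂ) = 1 := Cfsg.Agent.Lib.Char.PermChar.classInner_perm_one_of_transitive
    rw [h2] at h1
    exact_mod_cast h1.symm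
  have hDt : D triv = 1 := by
    have h1 := hD triv
    rw [show (triv : Γ → ℂ) 1 = 1 from rfl] at h1
    exact_mod_cast h1.symm
  have hsq : ∑ χ : IrrCharacter Γ, m χ ^ 2 = 3 := by
    have h1 := Cfsg.Agent.Lib.Char.Ortho.classInner_eq_sum_mul hπc hπc
    rw [Cfsg.Agent.Lib.Char.PermChar.classInner_perm_self a₀, hrank] at h1
    have h2 : ∀ i : IrrCharacter Γ, classInner π (i : Γ → ℂ) * classInner (i : Γ → ℂ) π = (m i : ℂ) ^ 2 := by
      intro i
      rw [← Cfsg.Agent.Lib.Char.Ortho.classInner_conj_symm π (i : Γ → ℂ), hm i]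
      simp [pow_two]
    simp_rw [h2] at h1
    have h3 : ((∑ χ : IrrCharacter Γ, m χ ^ 2 : ℕ) : ℂ) = (3 : ℕ) := by
      push_cast
      rw [← h1]
      norm_num
    exact_mod_cast h3
  have hdegsum : ∑ χ : IrrCharacter Γ, m χ * D χ = 2 * p := by
    have h1 := hval 1
    have h0 : π 1 = ((2 * p : ℕ) : ℂ) := by
      have h2 : fixedBy α (1 : Γ) = Set.univ := by
        ext a
        simp
      simp only [hπ, Cfsg.Agent.Lib.Char.PermChar.permChar, h2, Nat.card_coe_set_eq, Set.ncard_univ, hα]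
    rw [h0] at h1
    simp_rw [hD] at h1
    have h3 : ((2 * p : ℕ) : ℂ) = ((∑ χ : IrrCharacter Γ, m χ * D χ : ℕ) : ℂ) := by
      rw [h1]
      push_cast
      rfl
    exact_mod_cast h3.symm
  -- the values on `⟨x⟩`
  have hπXX : ∀ i : ZMod p, i ≠ 0 → π (XX x i) = 0 := by
    intro i hi
    have h1 : orderOf (XX x i) = p := by
      have h2 : (XX x i) ^ p = 1 := XX_pow_p hord i
      refine orderOf_eq_prime h2 ?_
      intro h3
      apply hi
      have h4 : XX x i = XX x (0 : ZMod p) := by rw [h3, XX_zero]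
      exact XX_inj hord h4
    have h5 : fixedBy α (XX x i) = ∅ := by
      ext a
      simp only [mem_fixedBy, Set.mem_empty_iff_false, iff_false]
      exact fpf_of_not_two hα hfaith (by omega) hprim hnot2 h1 a
    simp [hπ, h5, Cfsg.Agent.Lib.Char.PermChar.permChar]
  have hrow : ((p : ℂ) - 1) * ∑ χ ∈ X, (m χ : ℂ) * δ χ - (ε : ℂ) * (2 : ℕ) * ∑ θ ∈ Y, (m θ : ℂ) = 0 := by
    rw [← hT.sum_char hζ (fun χ => (m χ : ℂ))]
    refine sum_eq_zero fun i hi => ?_
    rw [← hval, hπXX i (mem_erase.1 hi).1]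
  rw [hsumX, hmt, htδ] at hrow
  set c₁ := m χ₁ with hc₁
  set δ₁ := δ χ₁ with hδ₁
  set D₁ := D χ₁ with hD₁
  set C := ∑ θ ∈ Y, m θ with hC
  have hrowZ : (t : ℤ) * (1 + c₁ * δ₁) = ε * C := by
    have h1 : (((p : ℤ) - 1) * (1 + c₁ * δ₁) - ε * 2 * C : ℤ) = 0 := by
      have hCc : (C : ℂ) = ∑ θ ∈ Y, (m θ : ℂ) := by
        rw [hC]
        push_cast
        rfl
      have h2 : ((((p : ℤ) - 1) * (1 + c₁ * δ₁) - ε * 2 * C : ℤ) : ℂ) = 0 := by
        push_cast
        push_cast at hrow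
        rw [hCc]
        linear_combination hrow
      exact_mod_cast h2
    have h3 : (p : ℤ) - 1 = 2 * t := by
      rw [hp21]
      push_cast
      ring
    rw [h3] at h1
    linarith
  have hsign₁ : δ₁ = 1 ∨ δ₁ = -1 := hT.signX χ₁ hχ₁X
  -- the relation at the identity
  have hrel1 : ∀ θ ∈ Y, ε * (D θ : ℤ) = 1 + δ₁ * D₁ := by
    intro θ hθ
    have h1 := hT.rel 1 (by
      rw [orderOf_one]
      exact fun h => hp'.one_lt.ne' (Nat.dvd_one.1 h)) θ hθ
    rw [hsumX, htδ, hD θ, show (triv : Γ → ℂ) 1 = 1 from rfl, hD χ₁] at h1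
    have h2 : ((ε * (D θ : ℤ) : ℤ) : ℂ) = ((1 + δ₁ * D₁ : ℤ) : ℂ) := by
      push_cast
      rw [h1]
      push_cast
      ring
    exact_mod_cast h2
  obtain ⟨θ₀, hθ₀⟩ : Y.Nonempty := card_pos.1 (by rw [hT.cardY]; omega)
  have hε0 : ε ≠ 0 := by
    rcases hT.sign with h | h <;> rw [h] <;> norm_num
  have hDYc : ∀ θ ∈ Y, D θ = D θ₀ := by
    intro θ hθ
    have h1 := hrel1 θ hθ
    rw [← hrel1 θ₀ hθ₀] at h1
    have h2 := mul_left_cancel₀ hε0 h1
    exact_mod_cast h2
  -- splitting the sums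
  have hsplit : ∀ F : IrrCharacter Γ → ℕ, ∑ χ, F χ = F triv + F χ₁ + ∑ θ ∈ Y, F θ + ∑ χ ∈ (X ∪ Y)ᶜ, F χ := by
    intro F
    rw [← sum_add_sum_compl (X ∪ Y) F, sum_union hT.disj]
    congr 2
    rw [hXeq, sum_insert hnot, sum_singleton]
  have hsq' := hsplit (fun χ => m χ ^ 2)
  have hdeg' := hsplit (fun χ => m χ * D χ)
  simp only [← hc₁, ← hD₁] at hsq' hdeg'
  rw [hsq, hmt] at hsq'
  rw [hdegsum, hmt, hDt] at hdeg'
  have hCle : C ≤ ∑ θ ∈ Y, m θ ^ 2 := sum_le_sum fun θ _ => Nat.le_self_pow (by norm_num) _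
  have hdegY : ∑ θ ∈ Y, m θ * D θ = C * D θ₀ := by
    rw [hC, sum_mul]
    exact sum_congr rfl fun θ hθ => by rw [hDYc θ hθ]
  rw [hdegY] at hdeg'
  have hc₁le : c₁ ≤ 1 := by
    by_contra hlt
    have h1 : 2 ≤ c₁ := by omega
    have h2 : 4 ≤ c₁ ^ 2 := by nlinarith
    omega
  have hbad : c₁ = 0 → C = 2 → False := by
    intro h0 h2
    rw [h0] at hsq' hdeg'
    rw [h2] at hCle hdeg'
    have hR : ∑ χ ∈ (X ∪ Y)ᶜ, m χ ^ 2 = 0 := by
      omega
    have hR2 : ∑ χ ∈ (X ∪ Y)ᶜ, m χ * D χ = 0 := by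
      refine sum_eq_zero fun χ hχ => ?_
      have h3 := (sum_eq_zero_iff.1 hR) χ hχ
      have h4 : m χ = 0 := by simpa using h3
      rw [h4, zero_mul]
    rw [hR2] at hdeg'
    omega
  have hmain : δ₁ = -1 ∧ c₁ = 1 ∧ C = 0 := by
    have hC2 : C ≤ 2 := by
      have h1 : 0 ≤ c₁ ^ 2 := Nat.zero_le _
      omega
    have htpos : (0 : ℤ) < t := by exact_mod_cast (by omega : 0 < t)
    have hC0 : (0 : ℤ) ≤ C := by positivity
    have ht2' : (2 : ℤ) ≤ t := by exact_mod_cast ht2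
    have hC2' : (C : ℤ) ≤ 2 := by exact_mod_cast hC2
    have hc₁01 : c₁ = 0 ∨ c₁ = 1 := by omega
    rcases hsign₁ with hδ | hδ <;> rcases hc₁01 with hc | hc <;> rcases hT.sign with hε | hε <;>
      rw [hδ, hc, hε] at hrowZ <;> push_cast at hrowZ
    · exfalso
      exact hbad hc (by omega)
    · omega
    · omega
    · omega
    · exfalso
      exact hbad hc (by omega)
    · omega
    · refine ⟨hδ, hc, ?_⟩
      omega
    · refine ⟨hδ, hc, ?_⟩
      omega
  obtain ⟨hδm, hc₁1, hC0⟩ := hmain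
  have hmY : ∀ θ ∈ Y, m θ = 0 := fun θ hθ => (sum_eq_zero_iff.1 hC0) θ hθ
  have hsqY : ∑ θ ∈ Y, m θ ^ 2 = 0 := sum_eq_zero fun θ hθ => by rw [hmY θ hθ]; norm_num
  have hR1 : 1 ≤ ∑ χ ∈ (X ∪ Y)ᶜ, m χ * D χ := by
    have hR : ∑ χ ∈ (X ∪ Y)ᶜ, m χ ^ 2 = 1 := by
      rw [hc₁1, hsqY] at hsq'
      omega
    by_contra hlt
    have h0 : ∑ χ ∈ (X ∪ Y)ᶜ, m χ * D χ = 0 := by omega
    have h1 : ∑ χ ∈ (X ∪ Y)ᶜ, m χ ^ 2 = 0 := by
      refine sum_eq_zero fun χ hχ => ?_
      have h3 := (sum_eq_zero_iff.1 h0) χ hχ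
      rcases Nat.mul_eq_zero.1 h3 with h4 | h4
      · rw [h4]
        norm_num
      · exact absurd h4 (hDpos χ).ne'
    omega
  have hD₁eq : D₁ + 1 = p := by
    have h1 := hT.degX χ₁ hχ₁X
    have hcd := Cfsg.Agent.Lib.Char.Values.IsCharacter.charDegree_eq (hirrc χ₁) (hD χ₁)
    rw [hcd, ← hδ₁, hδm] at h1
    have h2 : (p : ℤ) ∣ (D₁ : ℤ) + 1 := by
      have h3 := h1.symm.dvd
      simpa using h3
    have h3 : p ∣ D₁ + 1 := by exact_mod_cast h2
    obtain ⟨k, hk⟩ := h3
    rw [hc₁1, hC0, one_mul, zero_mul] at hdeg'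
    have hk0 : k ≠ 0 := by
      rintro rfl
      omega
    have hk1 : k < 2 := by
      by_contra hge
      have h4 : p * 2 ≤ p * k := Nat.mul_le_mul_left _ (by omega)
      omega
    have hk2 : k = 1 := by omega
    rw [hk2, mul_one] at hk
    exact hk
  have hrel0 := hrel1 θ₀ hθ₀
  rw [hδm] at hrel0
  have hDθ₀pos : (0 : ℤ) < D θ₀ := by exact_mod_cast hDpos θ₀
  have hD₁Z : (D₁ : ℤ) + 1 = p := by exact_mod_cast hD₁eq
  have hε : ε = -1 := by
    rcases hT.sign with h | h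
    · exfalso
      rw [h] at hrel0
      omega
    · exact h
  have hDθ₀ : D θ₀ + 2 = p := by
    rw [hε] at hrel0
    have h1 : (D θ₀ : ℤ) + 2 = p := by omega
    exact_mod_cast h1
  have hd' : ∀ θ ∈ Y, (θ : Γ → ℂ) 1 = ((p - 2 : ℕ) : ℂ) := by
    intro θ hθ
    rw [hD θ, hDYc θ hθ]
    congr 1
    omega
  have hχ₁1 : (χ₁ : Γ → ℂ) 1 = ((p - 1 : ℕ) : ℂ) := by
    rw [hD χ₁]
    congr 1
    omega
  have hXXne : ∀ i : ZMod p, i ≠ 0 → XX x i ≠ 1 := by
    intro i hi h3
    apply hi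
    have h4 : XX x i = XX x (0 : ZMod p) := by rw [h3, XX_zero]
    exact XX_inj hord h4
  have hsing : ∀ g : Γ, p ∣ orderOf g → orderOf g = p := by
    intro g hg
    have h1 := orderOf_pow_orderOf_div (orderOf_pos g).ne' hg
    obtain ⟨c, i, hi, hgc⟩ := exists_conj_XX hord P hz h1
    set k := orderOf g / p with hk
    set w := c⁻¹ * g * c with hw
    have h2 : w * XX x i = XX x i * w := by
      have h3 : XX x i = c⁻¹ * g ^ k * c := by
        rw [hgc]
        group
      have h4 : Commute g (g ^ k) := (Commute.refl g).pow_right _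
      rw [h3, hw]
      calc c⁻¹ * g * c * (c⁻¹ * g ^ k * c) = c⁻¹ * (g * g ^ k) * c := by group
        _ = c⁻¹ * (g ^ k * g) * c := by rw [h4.eq]
        _ = _ := by group
    have h5 : w ∈ zpowers x := Cfsg.Agent.Lib.DefectOne.mem_of_comm_of_ne hord hcen (XX_mem_zpowers i) (hXXne i hi) h2
    have h6 : orderOf w ∣ p := by
      have h7 := Subgroup.orderOf_dvd_natCard (zpowers x) h5
      rwa [Nat.card_zpowers, hord] at h7
    have h7 : orderOf w = orderOf g := by
      have h8 : w = c⁻¹ * g * c⁻¹⁻¹ := by rw [inv_inv]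
      rw [h8, ← MulAut.conj_apply]
      exact MulEquiv.orderOf_eq (MulAut.conj c⁻¹) g
    rw [h7] at h6
    exact Nat.dvd_antisymm h6 hg
  have hcl₁ := Cfsg.Agent.Lib.Char.Basic.isClassFunction_of_isCharacter (hirrc χ₁)
  have hχ₁XX : ∀ i : ZMod p, i ≠ 0 → (χ₁ : Γ → ℂ) (XX x i) = -1 := by
    intro i hi
    rw [hT.valX χ₁ hχ₁X i hi, ← hδ₁, hδm]
    norm_num
  have hχ₁S : ∀ g : Γ, orderOf g = p → (χ₁ : Γ → ℂ) g = -1 := by
    intro g hg
    obtain ⟨c, i, hi, rfl⟩ := exists_conj_XX hord P hz hg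
    rw [hcl₁]
    exact hχ₁XX i hi
  -- the character `χ₁` is integer valued
  have hint : ∀ g, ∃ n : ℤ, (χ₁ : Γ → ℂ) g = n := by
    intro g
    refine int_of_fixed2 (hirrc χ₁) g fun k hk => ?_
    have hirr := Cfsg.Agent.Lib.Char.Galois.isIrrCharacter_pow_of_coprime χ₁.2 hk
    set ψ : IrrCharacter Γ := ⟨_, hirr⟩ with hψdef
    have hψapp : ∀ u, (ψ : Γ → ℂ) u = (χ₁ : Γ → ℂ) (u ^ k) := fun u => rfl
    have hk0 : ((k : ℕ) : ZMod p) ≠ 0 := by
      intro h0
      have h1 : p ∣ k := (ZMod.natCast_eq_zero_iff k p).1 h0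
      have h2 : p ∣ Nat.gcd k (Nat.card Γ) := Nat.dvd_gcd h1 hd
      rw [hk] at h2
      exact hp'.one_lt.ne' (Nat.dvd_one.1 h2)
    have hψX : ∀ i : ZMod p, i ≠ 0 → (ψ : Γ → ℂ) (XX x i) = -1 := by
      intro i hi
      rw [hψapp, ← XX_mul_natCast hord]
      exact hχ₁XX _ (mul_ne_zero hk0 hi)
    have hmem : ψ ∈ X ∪ Y := by
      by_contra h
      have h1 := hT.out ψ h 1 one_ne_zero
      rw [hψX 1 one_ne_zero] at h1
      norm_num at h1
    have hψ1 : (ψ : Γ → ℂ) 1 = ((p - 1 : ℕ) : ℂ) := by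
      rw [hψapp, one_pow, hχ₁1]
    have hψ : ψ = χ₁ := by
      rcases mem_union.1 hmem with h | h
      · rw [hXeq, mem_insert, mem_singleton] at h
        rcases h with h | h
        · exfalso
          rw [h, show (triv : Γ → ℂ) 1 = 1 from rfl] at hψ1
          have h3 : ((1 : ℕ) : ℂ) = ((p - 1 : ℕ) : ℂ) := by simpa using hψ1
          have h4 : 1 = p - 1 := by exact_mod_cast h3
          omega
        · exact h
      · exfalso
        rw [hd' ψ h] at hψ1
        have h4 : p - 2 = p - 1 := by exact_mod_cast hψ1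
        omega
    have h5 := congrFun (congrArg Subtype.val hψ) g
    exact h5
  choose f hf using hint
  have hf1 : f 1 = (p : ℤ) - 1 := by
    have h1 := hf 1
    rw [hχ₁1] at h1
    have h2 : ((p - 1 : ℕ) : ℤ) = f 1 := by exact_mod_cast h1
    rw [← h2]
    omega
  have hfS : ∀ g, orderOf g = p → f g = -1 := by
    intro g hg
    have h1 := hf g
    rw [hχ₁S g hg] at h1
    have h2 : ((-1 : ℤ) : ℂ) = (f g : ℂ) := by
      push_cast
      exact h1
    exact_mod_cast h2.symm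
  have hfle : ∀ g, f g ≤ (p : ℤ) - 1 := by
    intro g
    have h1 := Cfsg.Agent.Lib.Char.Values.IsCharacter.norm_le (hirrc χ₁) g
    rw [hf g, hf 1, hf1, Complex.norm_intCast, Complex.norm_intCast] at h1
    have h2 : |f g| ≤ |(p : ℤ) - 1| := by exact_mod_cast h1
    have hpos1 : (0 : ℤ) < (p : ℤ) - 1 := by omega
    rw [abs_of_pos hpos1] at h2
    exact (le_abs_self _).trans h2
  have hfeq : ∀ g, f g = (p : ℤ) - 1 → g = 1 := by
    intro g hg
    obtain ⟨K, hKn, hK⟩ := Cfsg.Agent.Lib.Blocks.Kernel.exists_ker_of_irr χ₁.2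
    have hKbot : K = ⊥ := by
      haveI := hKn
      apply normal_bot_of_not_dvd hα hfaith
      intro hdv
      obtain ⟨y, hy⟩ := exists_prime_orderOf_dvd_card' (G := K) p hdv
      have h1 : orderOf (y : Γ) = p := by rw [Subgroup.orderOf_coe, hy]
      have h2 := (hK y).1 y.2
      rw [hf, hf, hfS _ h1, hf1] at h2
      have h3 : (-1 : ℤ) = (p : ℤ) - 1 := by exact_mod_cast h2
      omega
    have h1 : g ∈ K := (hK g).2 (by rw [hf, hf, hg, hf1])
    rw [hKbot] at h1
    exact Subgroup.mem_bot.1 h1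
  -- the moments
  have hcard0 : (Nat.card Γ : ℂ) ≠ 0 := by exact_mod_cast Nat.card_pos.ne'
  have hconj : ∀ z : ℤ, conj (z : ℂ) = z := fun z => by simp
  have hsum1 : ∑ g, f g = 0 := by
    have h1 := Cfsg.Agent.Lib.Char.Ortho.classInner_irr_of_ne χ₁.2 triv.2 (fun h => hχ₁ne (Subtype.ext h))
    rw [Cfsg.Agent.Lib.Char.Induced.classInner_def] at h1
    simp only [htr1, map_one, mul_one, hf] at h1
    have h2 := (inv_mul_eq_iff_eq_mul₀ hcard0).1 h1
    rw [mul_zero] at h2
    exact_mod_cast h2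
  have hsum2 : ∑ g, f g ^ 2 = (Nat.card Γ : ℤ) := by
    have h1 := Cfsg.Agent.Lib.Char.Ortho.classInner_irr_self χ₁.2
    rw [Cfsg.Agent.Lib.Char.Induced.classInner_def] at h1
    simp only [hf, hconj] at h1
    have h3 := (inv_mul_eq_iff_eq_mul₀ hcard0).1 h1
    rw [mul_one] at h3
    have h2 : ((∑ g, f g ^ 2 : ℤ) : ℂ) = ((Nat.card Γ : ℤ) : ℂ) := by
      rw [Int.cast_natCast, ← h3, Int.cast_sum]
      refine sum_congr rfl fun g _ => ?_
      rw [Int.cast_pow, pow_two]
    exact_mod_cast h2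
  obtain ⟨c, hc⟩ := Cfsg.Agent.Lib.Char.Ortho.exists_nat_classInner_of_isCharacter
    (Cfsg.Agent.Lib.Char.Basic.isCharacter_mul (hirrc χ₁) (hirrc χ₁)) (hirrc χ₁)
  have hsum3 : ∑ g, f g ^ 3 = (Nat.card Γ : ℤ) * c := by
    rw [Cfsg.Agent.Lib.Char.Induced.classInner_def] at hc
    simp only [Pi.mul_apply, hf, hconj] at hc
    have h3 := (inv_mul_eq_iff_eq_mul₀ hcard0).1 hc
    have h2 : ((∑ g, f g ^ 3 : ℤ) : ℂ) = (((Nat.card Γ : ℤ) * c : ℤ) : ℂ) := by
      rw [Int.cast_mul, Int.cast_natCast, Int.cast_natCast, ← h3, Int.cast_sum]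
      refine sum_congr rfl fun g _ => ?_
      rw [Int.cast_pow]
      ring
    exact_mod_cast h2
  -- the multiplicity of `χ₁` in `θ₀ θ̄₀`
  obtain ⟨c', hc'⟩ := Cfsg.Agent.Lib.Char.Ortho.exists_nat_classInner_of_isCharacter
    (Cfsg.Agent.Lib.Char.Basic.isCharacter_mul (hirrc χ₁) (hirrc θ₀)) (hirrc θ₀)
  have hc1 : (1 : ℤ) ≤ c := by
    rw [Cfsg.Agent.Lib.Char.Induced.classInner_def] at hc'
    simp only [Pi.mul_apply] at hc'
    have hA := (inv_mul_eq_iff_eq_mul₀ hcard0).1 hc'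
    have hB1 := Cfsg.Agent.Lib.Char.Ortho.classInner_irr_self θ₀.2
    rw [Cfsg.Agent.Lib.Char.Induced.classInner_def] at hB1
    have hB := (inv_mul_eq_iff_eq_mul₀ hcard0).1 hB1
    rw [mul_one] at hB
    have hterm : ∀ g, ((f g : ℂ) + 1) * ((θ₀ : Γ → ℂ) g * conj ((θ₀ : Γ → ℂ) g)) =
        (((f g + 1) * (f g - 1) ^ 2 : ℤ) : ℂ) := by
      intro g
      by_cases hg : p ∣ orderOf g
      · rw [hfS g (hsing g hg)]
        simp
      · have h1 := hT.rel g hg θ₀ hθ₀
        rw [hsumX, htδ, hε, ← hδ₁, hδm, hf g, show (triv : Γ → ℂ) g = 1 from rfl] at h1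
        have h2 : (θ₀ : Γ → ℂ) g = ((f g - 1 : ℤ) : ℂ) := by
          push_cast
          push_cast at h1
          linear_combination -h1
        rw [h2, hconj]
        push_cast
        ring
    have hsumZ : ∑ g, (f g + 1) * (f g - 1) ^ 2 = (Nat.card Γ : ℤ) * (c' + 1) := by
      have h2 : ((∑ g, (f g + 1) * (f g - 1) ^ 2 : ℤ) : ℂ) = (((Nat.card Γ : ℤ) * (c' + 1) : ℤ) : ℂ) := by
        rw [Int.cast_sum]
        rw [← sum_congr rfl (fun g _ => hterm g)]
        push_cast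
        have h3 : ∑ g, ((f g : ℂ) + 1) * ((θ₀ : Γ → ℂ) g * conj ((θ₀ : Γ → ℂ) g)) =
            ∑ g, (χ₁ : Γ → ℂ) g * (θ₀ : Γ → ℂ) g * conj ((θ₀ : Γ → ℂ) g) +
              ∑ g, (θ₀ : Γ → ℂ) g * conj ((θ₀ : Γ → ℂ) g) := by
          rw [← sum_add_distrib]
          refine sum_congr rfl fun g _ => ?_
          rw [hf g]
          ring
        rw [h3, hA, hB]
        ring
      exact_mod_cast h2
    have hexp : ∑ g, (f g + 1) * (f g - 1) ^ 2 = ∑ g, f g ^ 3 - ∑ g, f g ^ 2 - ∑ g, f g + (Nat.card Γ : ℤ) := by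
      have h1 : ∀ g, (f g + 1) * (f g - 1) ^ 2 = f g ^ 3 - f g ^ 2 - f g + 1 := fun g => by ring
      simp_rw [h1]
      rw [sum_add_distrib, sum_sub_distrib, sum_sub_distrib, sum_const, card_univ, ← Nat.card_eq_fintype_card]
      simp
    rw [hsumZ, hsum3, hsum2, hsum1] at hexp
    have hGpos : (0 : ℤ) < Nat.card Γ := by exact_mod_cast Nat.card_pos
    have h5 : (Nat.card Γ : ℤ) * (c' + 1) = (Nat.card Γ : ℤ) * c := by linarith
    have h6 := mul_left_cancel₀ hGpos.ne' h5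
    have h7 : (0 : ℤ) ≤ c' := by positivity
    omega
  have hQcard : ∀ Q : Sylow p Γ, Nat.card Q = p := by
    intro Q
    exact (Nat.card_congr (Q.equiv P).toEquiv).trans hPcard
  have h2M := deg2p_moment (M := M) rfl hGc hM0 hQcard (by omega) f hf1 hfle hfeq hfS hsum1 hsum2 hc1 hsum3
  have hMt : (normalizer (zpowers x : Set Γ)).index = t * (p - 2) := by
    rw [hM1]
    have h1 : 2 * M = 2 * (t * (p - 2)) := by
      rw [h2M, hhet]
      ring
    omega
  obtain ⟨mm, F, hF, hFt, hFc, hpm, -, ⟨eΓ⟩⟩ :=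
    psl_of_table hζ hodd hT hε hord hcen P hz (d := p - 2) (by omega) hd' hMt (by omega) (Or.inl rfl)
  -- the sizes of the suborbits
  set H := stabilizer Γ a₀ with hH
  have hHcard : Nat.card H = M := by
    have horb := Cfsg.Agent.Lib.Perm.PrimeDeg.natCard_orbit_mul Γ a₀
    rw [orbit_eq_univ, Nat.card_coe_set_eq, Set.ncard_univ, hα, hGc] at horb
    exact Nat.eq_of_mul_eq_mul_left (Nat.mul_pos (by norm_num) hp'.pos : 0 < 2 * p) horb
  have hb : φ (0, 1) ≠ a₀ := by
    rw [ha₀]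
    intro h
    have h1 := φ.injective h
    simp at h1
  have hdiv : 2 * a + 1 ∣ M := by
    have h1 := Cfsg.Agent.Lib.Perm.PrimeDeg.natCard_orbit_mul H (φ (0, 1))
    rw [hHcard] at h1
    rcases hsub _ hb with h | h
    · rw [h] at h1
      exact ⟨a * Nat.card (stabilizer H (φ (0, 1))), by rw [← h1]; ring⟩
    · rw [h] at h1
      exact ⟨(a + 1) * Nat.card (stabilizer H (φ (0, 1))), by rw [← h1]; ring⟩
  -- the arithmetic
  have ha1 : a = 1 := by
    obtain ⟨w, hw⟩ : ∃ w : ℕ, w + 1 = 2 * a * (a + 1) := ⟨2 * a * (a + 1) - 1, by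
      have : 1 ≤ 2 * a * (a + 1) := by
        have : 1 ≤ a := ha0
        nlinarith
      omega⟩
    have hp1 : p - 1 = 2 * a * (a + 1) := by
      rw [hpa]
      have : 2 * a ^ 2 + 2 * a + 1 - 1 = 2 * a ^ 2 + 2 * a := rfl
      rw [this]
      ring
    have hp2 : p - 2 = w := by omega
    have hMw : M = a * (a + 1) * w := by
      have h1 : 2 * M = 2 * (a * (a + 1) * w) := by
        rw [h2M, hp1, hp2]
        ring
      omega
    rw [hMw] at hdiv
    have hco1 : Nat.Coprime (2 * a + 1) a := by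
      simp
    have hco2 : Nat.Coprime (2 * a + 1) (a + 1) := by
      have h1 : 2 * a + 1 + 1 = 2 * (a + 1) := by ring
      have h3 : Nat.gcd (2 * a + 1) (a + 1) ∣ 1 := by
        have h4 : Nat.gcd (2 * a + 1) (a + 1) ∣ 2 * (a + 1) := (Nat.gcd_dvd_right _ _).mul_left 2
        have h5 : Nat.gcd (2 * a + 1) (a + 1) ∣ 2 * a + 1 := Nat.gcd_dvd_left _ _
        rw [← h1] at h4
        exact (Nat.dvd_add_right h5).1 h4
      exact Nat.dvd_one.1 h3
    have h1 : 2 * a + 1 ∣ w := by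
      have h2 := (Nat.Coprime.dvd_of_dvd_mul_left (Nat.Coprime.mul_right hco1 hco2) hdiv)
      exact h2
    -- `w = a (2 a + 1) + (a - 1)`
    have h2 : w = a * (2 * a + 1) + (a - 1) := by
      have h3 : a - 1 + 1 = a := by omega
      have h4 : w + 1 = a * (2 * a + 1) + (a - 1) + 1 := by
        rw [hw, add_assoc, h3]
        ring
      omega
    have h3 : 2 * a + 1 ∣ a - 1 := by
      rw [h2] at h1
      exact (Nat.dvd_add_right (Dvd.intro_left _ rfl)).1 h1
    by_contra hne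
    have h4 : 0 < a - 1 := by omega
    have h5 := Nat.le_of_dvd h4 h3
    omega
  have hp5 : p = 5 := by
    rw [hpa, ha1]
    norm_num
  refine ⟨hp5, ?_⟩
  have hF4 : Fintype.card F = 4 := by
    rw [hFc]
    omega
  obtain ⟨e₂⟩ := Cfsg.Agent.Lib.Compute.SmallField.psl2_card4 hF4
  exact ⟨eΓ.trans e₂⟩

end Main


end Cfsg.Agent.Lib.DefectOne
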