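import Mathlib
import Cfsg.Agent.Lib.DefectOne.Jordan

/-!
# Modules with a one-dimensional non-free part for a Sylow subgroup of prime order

A "Fitting" module whose dimension is `≡ 1 (mod p)`, for a group with a TI Sylow subgroup `⟨x⟩`
with cyclic complement in its normalizer, has a direct summand `k_c` for `⟨x⟩ ⋊ ⟨w₀⟩`, and two such
modules with the same weight `c` are isomorphic.
-/

set_option autoImplicit false
set_option linter.unusedSectionVars false

namespace Cfsg.Agent.Lib.DefectOne.GreenJ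

open Module Cfsg.Agent.Lib.DefectOne

section Chain

variable {k : Type*} [Field k] {M : Type*} [AddCommGroup M] [Module k M] [FiniteDimensional k M]

lemma finrank_map_add (y : End k M) (U : Submodule k M) :
    finrank k (U.map y) + finrank k (LinearMap.ker y ⊓ U : Submodule k M) = finrank k U := by
  have h := LinearMap.finrank_range_add_finrank_ker (y.domRestrict U)
  rw [LinearMap.range_domRestrict, LinearMap.ker_domRestrict] at h
  have h2 : finrank k ((LinearMap.ker y).comap U.subtype) = finrank k (LinearMap.ker y ⊓ U : Submodule k M) := by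
    rw [← Submodule.finrank_map_subtype_eq U ((LinearMap.ker y).comap U.subtype), Submodule.map_comap_subtype, inf_comm]
  rw [h2] at h
  exact h

/-- A nilpotent `y` with `y ^ p = 0` whose kernel has dimension at most `rank y^{p-1} + 1`, on a space of
dimension `≡ 1 (mod p)`: the kernel is not contained in the image. -/
lemma not_ker_le_range {p : ℕ} (hp : p.Prime) (y : End k M) (hy : y ^ p = 0)
    (hb : finrank k (LinearMap.ker y) ≤ finrank k (LinearMap.range (y ^ (p - 1))) + 1)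
    (hN : finrank k M % p = 1 % p) : ¬ LinearMap.ker y ≤ LinearMap.range y := by
  intro hle
  set a : ℕ → ℕ := fun i => finrank k (LinearMap.range (y ^ i)) with ha
  set K : ℕ → ℕ := fun i => finrank k (LinearMap.ker y ⊓ LinearMap.range (y ^ i) : Submodule k M) with hK
  have hstep : ∀ i, a (i + 1) + K i = a i := by
    intro i
    have h1 : LinearMap.range (y ^ (i + 1)) = (LinearMap.range (y ^ i)).map y := by
      rw [pow_succ', Module.End.mul_eq_comp, LinearMap.range_comp]
    simp only [ha, hK]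
    rw [h1]
    exact finrank_map_add y _
  have hsum : ∀ n, a n + ∑ i ∈ Finset.range n, K i = finrank k M := by
    intro n
    induction n with
    | zero =>
      have hr0 : LinearMap.range (y ^ 0) = ⊤ := by rw [pow_zero, Module.End.one_eq_id, LinearMap.range_id]
      simp only [ha, Finset.range_zero, Finset.sum_empty, add_zero]
      rw [hr0]
      exact finrank_top k M
    | succ n ih =>
      rw [Finset.sum_range_succ]
      have := hstep n
      omega
  have hap : a p = 0 := by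
    simp [ha, hy]
  have hN' : ∑ i ∈ Finset.range p, K i = finrank k M := by
    have := hsum p
    rw [hap, zero_add] at this
    exact this
  have hanti : ∀ i, K (i + 1) ≤ K i := by
    intro i
    apply Submodule.finrank_mono
    apply inf_le_inf_left
    rw [pow_succ, Module.End.mul_eq_comp]
    exact LinearMap.range_comp_le_range _ _
  have hanti' : Antitone K := antitone_nat_of_succ_le hanti
  obtain ⟨q, hq⟩ : ∃ q, p = q + 1 := ⟨p - 1, (Nat.sub_add_cancel hp.one_le).symm⟩
  set r := finrank k (LinearMap.range (y ^ (p - 1))) with hr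
  have hKq : K q = r := by
    have h1 : LinearMap.range (y ^ q) ≤ LinearMap.ker y := by
      rintro _ ⟨m, rfl⟩
      rw [LinearMap.mem_ker, ← Module.End.mul_apply, ← pow_succ', ← hq, hy]
      rfl
    simp only [hK, hr]
    rw [inf_eq_right.2 h1]
    have : p - 1 = q := by omega
    rw [this]
  have hr0 : LinearMap.range (y ^ 0) = ⊤ := by rw [pow_zero, Module.End.one_eq_id, LinearMap.range_id]
  have hr1 : LinearMap.range (y ^ 1) = LinearMap.range y := by rw [pow_one]
  have hK0 : K 0 = finrank k (LinearMap.ker y) := by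
    simp only [hK]
    rw [hr0, inf_top_eq]
  have hK1 : K 1 = K 0 := by
    simp only [hK]
    rw [hr0, hr1, inf_top_eq, inf_eq_left.2 hle]
  have hlow : ∀ i ≤ q, r ≤ K i := by
    intro i hi
    rw [← hKq]
    exact hanti' hi
  have hup : ∀ i, K i ≤ r + 1 := by
    intro i
    calc K i ≤ K 0 := hanti' (Nat.zero_le i)
      _ ≤ r + 1 := by rw [hK0]; exact hb
  have hp2 := hp.two_le
  by_cases hc : K 0 = r
  · have hall : ∀ i ∈ Finset.range p, K i = r := by
      intro i hi
      have hi' : i ≤ q := by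
        have := Finset.mem_range.1 hi
        omega
      have h1 := hlow i hi'
      have h2 : K i ≤ K 0 := hanti' (Nat.zero_le i)
      omega
    rw [Finset.sum_congr rfl hall, Finset.sum_const, Finset.card_range, smul_eq_mul] at hN'
    rw [← hN', Nat.mul_mod_right, Nat.mod_eq_of_lt hp.one_lt] at hN
    omega
  · have hK0' : K 0 = r + 1 := by
      have h1 := hlow 0 (Nat.zero_le _)
      have h2 := hup 0
      omega
    have hK1' : K 1 = r + 1 := by rw [hK1, hK0']
    -- `q ≥ 2`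
    have hq2 : 2 ≤ q := by
      by_contra hlt
      have hq1 : q = 1 := by omega
      rw [hq1] at hKq
      omega
    obtain ⟨s, hs⟩ : ∃ s, q = s + 2 := ⟨q - 2, by omega⟩
    -- upper bound
    have hU : finrank k M ≤ p * r + (p - 1) := by
      rw [← hN', hq, Finset.sum_range_succ, hKq]
      have h1 : ∑ i ∈ Finset.range q, K i ≤ ∑ _i ∈ Finset.range q, (r + 1) :=
        Finset.sum_le_sum fun i _ => hup i
      rw [Finset.sum_const, Finset.card_range, smul_eq_mul] at h1
      have h2 : (q + 1) * r + (q + 1 - 1) = q * (r + 1) + r := by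
        simp only [Nat.add_sub_cancel]
        ring
      omega
    have hL : p * r + 2 ≤ finrank k M := by
      have h0 : p = s + 3 := by omega
      rw [← hN', h0, show s + 3 = (s + 1) + 2 by ring, Finset.sum_range_succ', Finset.sum_range_succ']
      have h1 : ∀ i ∈ Finset.range (s + 1), r ≤ K (i + 1 + 1) := by
        intro i hi
        apply hlow
        have := Finset.mem_range.1 hi
        omega
      have h2 := Finset.sum_le_sum h1
      rw [Finset.sum_const, Finset.card_range, smul_eq_mul] at h2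
      have hK1'' : K (0 + 1) = r + 1 := hK1'
      have hK0'' : K 0 = r + 1 := hK0'
      rw [hK1'', hK0'']
      have h3 : (s + 1 + 2) * r + 2 = (s + 1) * r + (r + 1) + (r + 1) := by ring
      omega
    obtain ⟨c, hc1⟩ : ∃ c, finrank k M = p * r + c := ⟨finrank k M - p * r, by omega⟩
    have hc2 : 2 ≤ c := by omega
    have hc3 : c < p := by omega
    rw [hc1, Nat.mul_add_mod, Nat.mod_eq_of_lt hc3, Nat.mod_eq_of_lt hp.one_lt] at hN
    omega

end Chain

section J1

variable {G : Type*} [Group G] {k : Type*} [Field k]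

/-- A summand `k_c` of the restriction of `ρ` to `⟨x, w₀⟩`. -/
structure J1 {M : Type*} [AddCommGroup M] [Module k M] (ρ : G →* End k M) (x w₀ : G) (c : k) (v : M) (φ : Dual k M) : Prop where
  fix_v : ρ x v = v
  fix_φ : ∀ m, φ (ρ x m) = φ m
  one : φ v = 1
  eig_v : ρ w₀ v = c • v
  eig_φ : ∀ m, φ (ρ w₀ m) = c * φ m

variable {M : Type*} [AddCommGroup M] [Module k M]

lemma J1.pow_v {ρ : G →* End k M} {x w₀ : G} {c : k} {v : M} {φ : Dual k M} (h : J1 ρ x w₀ c v φ) (a b : ℕ) :
    ρ (x ^ a * w₀ ^ b) v = c ^ b • v := by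
  have h1 : ∀ b, ρ (w₀ ^ b) v = c ^ b • v := by
    intro b
    induction b with
    | zero => simp
    | succ b ih =>
      rw [pow_succ, map_mul, Module.End.mul_apply, h.eig_v, map_smul, ih, smul_smul, pow_succ, mul_comm]
  have h2 : ∀ a, ρ (x ^ a) v = v := by
    intro a
    induction a with
    | zero => simp
    | succ a ih =>
      rw [pow_succ, map_mul, Module.End.mul_apply, h.fix_v, ih]
  rw [map_mul, Module.End.mul_apply, h1, map_smul, h2]

lemma J1.pow_φ {ρ : G →* End k M} {x w₀ : G} {c : k} {v : M} {φ : Dual k M} (h : J1 ρ x w₀ c v φ) (a b : ℕ) (m : M) :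
    φ (ρ (x ^ a * w₀ ^ b) m) = c ^ b * φ m := by
  have h1 : ∀ b m, φ (ρ (w₀ ^ b) m) = c ^ b * φ m := by
    intro b
    induction b with
    | zero => simp
    | succ b ih =>
      intro m
      rw [pow_succ', map_mul, Module.End.mul_apply, h.eig_φ, ih, pow_succ', mul_assoc]
  have h2 : ∀ a m, φ (ρ (x ^ a) m) = φ m := by
    intro a
    induction a with
    | zero => simp
    | succ a ih =>
      intro m
      rw [pow_succ', map_mul, Module.End.mul_apply, h.fix_φ, ih]
  rw [map_mul, Module.End.mul_apply, h2, h1]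

variable [Finite G] {p : ℕ} [hp : Fact p.Prime] [CharP k p] [FiniteDimensional k M]

lemma KStable_sup {ρ : G →* End k M} {K : Subgroup G} {U V : Submodule k M} (hU : KStable ρ K U) (hV : KStable ρ K V) :
    KStable ρ K (U ⊔ V) := by
  intro w hw m hm
  obtain ⟨u, hu, v, hv, rfl⟩ := Submodule.mem_sup.1 hm
  rw [map_add]
  exact Submodule.add_mem_sup (hU w hw u hu) (hV w hw v hv)

/-- Existence of the summand. -/
theorem exists_J1 [IsAlgClosed k] (ρ : G →* End k M)
    (hFit : ∀ S : End k M, (∀ g, S * ρ g = ρ g * S) → IsNilpotent S ∨ Function.Bijective S)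
    {x w₀ : G} (hx : orderOf x = p) {T K : Subgroup G}
    (hPT : Subgroup.zpowers x ≤ T) (hTPK : ∀ t ∈ T, ∃ u ∈ Subgroup.zpowers x, ∃ w ∈ K, t = u * w)
    (hKT : K ≤ T)
    (hKn : ∀ w ∈ K, ∀ u ∈ Subgroup.zpowers x, w⁻¹ * u * w ∈ Subgroup.zpowers x)
    (hK : (Nat.card K : k) ≠ 0) (hw₀ : w₀ ∈ K) (hgen : ∀ w ∈ K, ∃ n : ℕ, w = w₀ ^ n)
    (hfix : ∀ g : G, (∀ u ∈ Subgroup.zpowers x, g⁻¹ * u * g ∈ T) → g ∈ T)
    (hN : finrank k M % p = 1 % p) : ∃ (c : k) (v : M) (φ : Dual k M), J1 ρ x w₀ c v φ := by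
  classical
  set y := ρ x - 1 with hy
  have hstab_dim : ∀ U : Submodule k M, U ≤ LinearMap.range (1 : End k M) → KStable ρ K U → U ≠ ⊥ →
      (∀ U' : Submodule k M, U' ≤ U → KStable ρ K U' → U' = ⊥ ∨ U' = U) → finrank k U ≤ 1 := by
    intro U _ hU hU0 hmin
    haveI : Nontrivial U := Submodule.nontrivial_iff_ne_bot.2 hU0
    have hres : ∀ u ∈ U, ρ w₀ u ∈ U := hU w₀ hw₀
    obtain ⟨c, hc⟩ := Module.End.exists_eigenvalue ((ρ w₀).restrict hres)
    obtain ⟨u, hu⟩ := hc.exists_hasEigenvector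
    have hu1 : ρ w₀ (u : M) = c • (u : M) := by
      have := hu.apply_eq_smul
      exact congrArg Subtype.val this
    have hu0 : (u : M) ≠ 0 := fun h => hu.2 (Subtype.ext h)
    have hpow : ∀ n : ℕ, ρ (w₀ ^ n) (u : M) = c ^ n • (u : M) := by
      intro n
      induction n with
      | zero => simp
      | succ n ih =>
        rw [pow_succ, map_mul, Module.End.mul_apply, hu1, map_smul, ih, smul_smul, pow_succ, mul_comm]
    have hS : KStable ρ K (Submodule.span k {(u : M)}) := by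
      intro w hw m hm
      obtain ⟨a, rfl⟩ := Submodule.mem_span_singleton.1 hm
      obtain ⟨n, rfl⟩ := hgen w hw
      rw [map_smul, hpow, smul_smul]
      exact Submodule.mem_span_singleton.2 ⟨a * c ^ n, rfl⟩
    rcases hmin _ ((Submodule.span_singleton_le_iff_mem _ _).2 u.2) hS with h | h
    · rw [Submodule.span_singleton_eq_bot] at h
      exact absurd h hu0
    · rw [← h]
      exact finrank_span_singleton hu0 |>.le
  have hbeta := beta_le ρ hFit hx hPT hTPK hKT hKn hK 1 _ (1 : End k M) rfl (by simp)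
    (by intro t _; simp) (fun g hg h => absurd (hfix g h) hg) hstab_dim
  have hr1 : LinearMap.range (1 : End k M) = ⊤ := by
    rw [Module.End.one_eq_id, LinearMap.range_id]
  rw [hr1, inf_top_eq, Submodule.map_top] at hbeta
  have hyp : y ^ p = 0 := y_pow_p ρ hx
  have hnk := not_ker_le_range hp.out y hyp hbeta hN
  -- stability
  have hxw : ∀ w ∈ K, ∃ n : ℕ, w⁻¹ * x * w = x ^ n := by
    intro w hw
    have h1 := hKn w hw x (Subgroup.mem_zpowers x)
    have hfin : IsOfFinOrder x := isOfFinOrder_iff_pow_eq_one.2 ⟨p, hp.out.pos, by rw [← hx, pow_orderOf_eq_one]⟩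
    obtain ⟨n, hn⟩ := (mem_powers_iff_mem_zpowers.2 h1)
    exact ⟨n, hn.symm⟩
  have hpowfix : ∀ (v : M), y v = 0 → ∀ n : ℕ, ρ (x ^ n) v = v := by
    intro v hv n
    have h1 : ρ x v = v := by
      have : ρ x v - v = 0 := hv
      exact sub_eq_zero.1 this
    induction n with
    | zero => simp
    | succ n ih => rw [pow_succ, map_mul, Module.End.mul_apply, h1, ih]
  have hA : KStable ρ K (LinearMap.ker y) := by
    intro w hw v hv
    rw [LinearMap.mem_ker] at hv ⊢
    obtain ⟨n, hn⟩ := hxw w hw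
    have h1 : x * w = w * x ^ n := by
      rw [← hn]
      group
    have h2 : ρ x (ρ w v) = ρ w v := by
      rw [← Module.End.mul_apply, ← map_mul, h1, map_mul, Module.End.mul_apply, hpowfix v hv]
    show ρ x (ρ w v) - ρ w v = 0
    rw [h2, sub_self]
  have hR : KStable ρ K (LinearMap.range y) := by
    intro w hw v hv
    obtain ⟨m, rfl⟩ := hv
    obtain ⟨n, hn⟩ := hxw w⁻¹ (K.inv_mem hw)
    have h1 : w * x = x ^ n * w := by
      have : (w⁻¹)⁻¹ * x * w⁻¹ = x ^ n := hn
      rw [← this]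
      group
    have h2 : ρ w (y m) = ρ (x ^ n) (ρ w m) - ρ w m := by
      simp only [hy, LinearMap.sub_apply, Module.End.one_apply, map_sub]
      rw [← Module.End.mul_apply, ← map_mul, h1, map_mul, Module.End.mul_apply]
    rw [h2, map_pow]
    have h3 : (ρ x) ^ n - 1 = y * ∑ i ∈ Finset.range n, (ρ x) ^ i := by
      rw [hy, mul_geom_sum]
    have h4 : ((ρ x) ^ n) (ρ w m) - ρ w m = ((ρ x) ^ n - 1) (ρ w m) := by simp
    rw [h4, h3, Module.End.mul_apply]
    exact LinearMap.mem_range_self _ _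
  have hB : KStable ρ K (LinearMap.ker y ⊓ LinearMap.range y) := by
    intro w hw v hv
    exact ⟨hA w hw v hv.1, hR w hw v hv.2⟩
  obtain ⟨U, hU, hUle, hU1, hU2⟩ := exists_stable_compl ρ hK hA hB (inf_le_left)
  have hU0 : U ≠ ⊥ := by
    rintro rfl
    apply hnk
    rw [sup_bot_eq] at hU2
    rw [← hU2]
    exact inf_le_right
  haveI : Nontrivial U := Submodule.nontrivial_iff_ne_bot.2 hU0
  have hres : ∀ u ∈ U, ρ w₀ u ∈ U := hU w₀ hw₀
  obtain ⟨c, hc⟩ := Module.End.exists_eigenvalue ((ρ w₀).restrict hres)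
  obtain ⟨u, hu⟩ := hc.exists_hasEigenvector
  have hu1 : ρ w₀ (u : M) = c • (u : M) := by
    have := hu.apply_eq_smul
    exact congrArg Subtype.val this
  have hu0 : (u : M) ≠ 0 := fun h => hu.2 (Subtype.ext h)
  have huR : (u : M) ∉ LinearMap.range y := by
    intro h
    have h1 : (u : M) ∈ (LinearMap.ker y ⊓ LinearMap.range y) ⊓ U := ⟨⟨hUle u.2, h⟩, u.2⟩
    rw [hU1, Submodule.mem_bot] at h1
    exact hu0 h1
  have huk : y (u : M) = 0 := hUle u.2
  -- the functional
  have hspan : KStable ρ K (Submodule.span k {(u : M)}) := by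
    have hpow : ∀ n : ℕ, ρ (w₀ ^ n) (u : M) = c ^ n • (u : M) := by
      intro n
      induction n with
      | zero => simp
      | succ n ih =>
        rw [pow_succ, map_mul, Module.End.mul_apply, hu1, map_smul, ih, smul_smul, pow_succ, mul_comm]
    intro w hw m hm
    obtain ⟨a, rfl⟩ := Submodule.mem_span_singleton.1 hm
    obtain ⟨n, rfl⟩ := hgen w hw
    rw [map_smul, hpow, smul_smul]
    exact Submodule.mem_span_singleton.2 ⟨a * c ^ n, rfl⟩
  have hW₁ : KStable ρ K (LinearMap.range y ⊔ Submodule.span k {(u : M)}) := KStable_sup hR hspan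
  have htop : KStable ρ K (⊤ : Submodule k M) := fun _ _ _ _ => Submodule.mem_top
  obtain ⟨C₁, hC₁, -, hC₁1, hC₁2⟩ := exists_stable_compl ρ hK htop hW₁ le_top
  set C₂ := LinearMap.range y ⊔ C₁ with hC₂
  have huC₂ : (u : M) ∉ C₂ := by
    intro h
    obtain ⟨r, hr, c', hc', hrc⟩ := Submodule.mem_sup.1 h
    have h1 : c' ∈ (LinearMap.range y ⊔ Submodule.span k {(u : M)}) ⊓ C₁ := by
      refine ⟨?_, hc'⟩
      have : c' = (u : M) - r := by rw [← hrc]; abel
      rw [this, sub_eq_add_neg, add_comm]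
      exact Submodule.add_mem_sup (Submodule.neg_mem _ hr) (Submodule.mem_span_singleton_self _)
    rw [hC₁1, Submodule.mem_bot] at h1
    rw [h1, add_zero] at hrc
    exact huR (hrc ▸ hr)
  obtain ⟨φ₀, hφ₀, hφ₀C⟩ := Submodule.exists_le_ker_of_notMem huC₂
  let φ : Dual k M := (φ₀ (u : M))⁻¹ • φ₀
  have hφu : φ (u : M) = 1 := by
    simp [φ, hφ₀]
  have hφC : ∀ m ∈ C₂, φ m = 0 := by
    intro m hm
    have : φ₀ m = 0 := hφ₀C hm
    simp [φ, this]
  have hC₂st : KStable ρ K C₂ := KStable_sup hR hC₁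
  have hdec : ∀ m : M, ∃ (a : k) (d : M), d ∈ C₂ ∧ m = a • (u : M) + d := by
    intro m
    have hm : m ∈ (LinearMap.range y ⊔ Submodule.span k {(u : M)}) ⊔ C₁ := by
      rw [hC₁2]; exact Submodule.mem_top
    obtain ⟨s, hs, c', hc', rfl⟩ := Submodule.mem_sup.1 hm
    obtain ⟨r, hr, t, ht, rfl⟩ := Submodule.mem_sup.1 hs
    obtain ⟨a, rfl⟩ := Submodule.mem_span_singleton.1 ht
    refine ⟨a, r + c', Submodule.add_mem_sup hr hc', by abel⟩
  refine ⟨c, (u : M), φ, ⟨?_, ?_, hφu, hu1, ?_⟩⟩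
  · have : ρ x (u : M) - (u : M) = 0 := huk
    exact sub_eq_zero.1 this
  · intro m
    have h1 : ρ x m - m ∈ C₂ := by
      have : ρ x m - m = y m := rfl
      rw [this]
      exact Submodule.mem_sup_left (LinearMap.mem_range_self _ _)
    have h2 := hφC _ h1
    rw [map_sub, sub_eq_zero] at h2
    exact h2
  · intro m
    obtain ⟨a, d, hd, rfl⟩ := hdec m
    rw [map_add, map_smul, hu1, map_add, map_add, map_smul, map_smul, map_smul, hφu,
      hφC d hd, hφC _ (hC₂st w₀ hw₀ d hd)]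
    simp [mul_comm]

end J1

section Green

variable {G : Type*} [Group G] [Finite G] {k : Type*} [Field k]
variable {M₁ M₂ : Type*} [AddCommGroup M₁] [Module k M₁] [AddCommGroup M₂] [Module k M₂]

/-- The direct sum of two representations. -/
noncomputable def prodRho (ρ₁ : G →* End k M₁) (ρ₂ : G →* End k M₂) : G →* End k (M₁ × M₂) where
  toFun g := LinearMap.prodMap (ρ₁ g) (ρ₂ g)
  map_one' := by
    ext <;> simp
  map_mul' a b := by
    ext <;> simp

lemma prodRho_apply (ρ₁ : G →* End k M₁) (ρ₂ : G →* End k M₂) (g : G) (a : M₁) (b : M₂) :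
    prodRho ρ₁ ρ₂ g (a, b) = (ρ₁ g a, ρ₂ g b) := rfl

variable {p : ℕ} [hp : Fact p.Prime]

lemma exists_trace_map (ρ₁ : G →* End k M₁) (ρ₂ : G →* End k M₂) {x w₀ : G} {c : k} {v₁ : M₁} {φ₁ : Dual k M₁}
    {v₂ : M₂} {φ₂ : Dual k M₂} (h₁ : J1 ρ₁ x w₀ c v₁ φ₁) (h₂ : J1 ρ₂ x w₀ c v₂ φ₂) (hx : orderOf x = p)
    {T : Subgroup G} (hPT : Subgroup.zpowers x ≤ T) (hT : ∀ t ∈ T, ∃ a b : ℕ, t = x ^ a * w₀ ^ b)
    (hfix : ∀ g : G, (∀ u ∈ Subgroup.zpowers x, g⁻¹ * u * g ∈ T) → g ∈ T) [Fintype (Subgroup.zpowers x)] :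
    ∃ L : M₁ →ₗ[k] M₂, (∀ g m, L (ρ₁ g m) = ρ₂ g (L m)) ∧
      ∀ v, ρ₁ x v = v → ∃ w, L v = φ₁ v • v₂ + (∑ u : Subgroup.zpowers x, ρ₂ (u : G)) w := by
  classical
  letI : Fintype (G ⧸ T) := Fintype.ofFinite _
  set ρ := prodRho ρ₁ ρ₂ with hρ
  let F : End k (M₁ × M₂) := LinearMap.inr k M₁ M₂ ∘ₗ (φ₁.smulRight v₂) ∘ₗ LinearMap.fst k M₁ M₂
  have hFa : ∀ a b, F (a, b) = (0, φ₁ a • v₂) := fun a b => rfl
  have hF : ∀ t ∈ T, F * ρ t = ρ t * F := by
    intro t ht
    obtain ⟨a, b, rfl⟩ := hT t ht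
    apply LinearMap.ext
    rintro ⟨m₁, m₂⟩
    simp only [Module.End.mul_apply, hρ, prodRho_apply, hFa, map_zero]
    rw [h₁.pow_φ, map_smul, h₂.pow_v, smul_smul, mul_comm]
  set S := relTr ρ T F with hS
  have hcomm := relTr_comm ρ hF
  refine ⟨LinearMap.snd k M₁ M₂ ∘ₗ S ∘ₗ LinearMap.inl k M₁ M₂, ?_, ?_⟩
  · intro g m
    have h1 := LinearMap.congr_fun (hcomm g) (m, 0)
    simp only [Module.End.mul_apply, hρ, prodRho_apply, map_zero] at h1
    simp only [LinearMap.comp_apply, LinearMap.inl_apply, LinearMap.snd_apply]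
    rw [h1]
    obtain ⟨a, b⟩ := S (m, 0)
    rfl
  · intro v hv
    have hP : (Nat.card (Subgroup.zpowers x)).Prime := by
      rw [Nat.card_zpowers, hx]
      exact hp.out
    have hpow : ∀ n : ℕ, ρ₁ (x ^ n) v = v := by
      intro n
      induction n with
      | zero => simp
      | succ n ih => rw [pow_succ, map_mul, Module.End.mul_apply, hv, ih]
    have hfin : IsOfFinOrder x := isOfFinOrder_iff_pow_eq_one.2 ⟨p, hp.out.pos, by rw [← hx, pow_orderOf_eq_one]⟩
    have hvfix : ∀ u : Subgroup.zpowers x, ρ (u : G) (v, 0) = (v, 0) := by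
      rintro ⟨u, hu⟩
      obtain ⟨n, rfl⟩ := (mem_powers_iff_mem_zpowers.2 hu)
      simp only [hρ, prodRho_apply, map_zero]
      show (ρ₁ (x ^ n) v, (0 : M₂)) = _
      rw [hpow]
    let X : Finset (G ⧸ T) := {((1 : G) : G ⧸ T)}
    have hX : ∀ q, q ∈ X ↔ ∀ u : Subgroup.zpowers x, u • q = q := by
      intro q
      simp only [X, Finset.mem_singleton]
      constructor
      · rintro rfl u
        have h1 : ((u : G) : G) ∈ T := hPT u.2
        show ((u : G) • ((1 : G) : G ⧸ T)) = _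
        rw [MulAction.Quotient.smul_coe]
        apply QuotientGroup.eq.2
        simpa using h1
      · obtain ⟨g, rfl⟩ := QuotientGroup.mk_surjective q
        intro hq
        have h1 : g ∈ T := by
          apply hfix
          intro u hu
          have h2 := hq ⟨u⁻¹, Subgroup.inv_mem _ hu⟩
          have h3 : ((u⁻¹ : G) • (g : G ⧸ T)) = g := h2
          rw [MulAction.Quotient.smul_coe] at h3
          have h4 := QuotientGroup.eq.1 h3
          simpa [mul_assoc] using h4
        apply QuotientGroup.eq.2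
        simpa using h1
    obtain ⟨w, hw⟩ := relTr_apply_sub_mem_range ρ hF hP hvfix X hX
    have h1 : ∑ q ∈ X, cj ρ q.out F (v, 0) = F (v, 0) := by
      simp only [X, Finset.sum_singleton]
      rw [cj_out ρ hF 1]
      simp [cj]
    rw [h1, hFa] at hw
    refine ⟨w.2, ?_⟩
    simp only [LinearMap.comp_apply, LinearMap.inl_apply, LinearMap.snd_apply, LinearMap.sum_apply]
    rw [← hS] at hw
    rw [hw]
    simp only [Prod.snd_add, zero_add, Prod.snd_sum]
    congr 1

lemma bij_of_pair [CharP k p] [FiniteDimensional k M₁] (ρ₁ : G →* End k M₁) (ρ₂ : G →* End k M₂)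
    (hFit : ∀ S : End k M₁, (∀ g, S * ρ₁ g = ρ₁ g * S) → IsNilpotent S ∨ Function.Bijective S)
    {x w₀ : G} {c : k} {v₁ : M₁} {φ₁ : Dual k M₁} {v₂ : M₂} (h₁ : J1 ρ₁ x w₀ c v₁ φ₁)
    (hx : orderOf x = p) [Fintype (Subgroup.zpowers x)]
    (L : M₁ →ₗ[k] M₂) (L' : M₂ →ₗ[k] M₁) (hL : ∀ g m, L (ρ₁ g m) = ρ₂ g (L m))
    (hL' : ∀ g m, L' (ρ₂ g m) = ρ₁ g (L' m))
    (hv₁ : ∃ w, L v₁ = v₂ + (∑ u : Subgroup.zpowers x, ρ₂ (u : G)) w)
    (hv₂ : ∃ w, L' v₂ = v₁ + (∑ u : Subgroup.zpowers x, ρ₁ (u : G)) w) :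
    Function.Bijective (L' ∘ₗ L) := by
  classical
  set Ψ : End k M₁ := L' ∘ₗ L with hΨ
  set N₁ : End k M₁ := ∑ u : Subgroup.zpowers x, ρ₁ (u : G) with hN₁
  set N₂ : End k M₂ := ∑ u : Subgroup.zpowers x, ρ₂ (u : G) with hN₂
  have hfin : IsOfFinOrder x := isOfFinOrder_iff_pow_eq_one.2 ⟨p, hp.out.pos, by rw [← hx, pow_orderOf_eq_one]⟩
  have hcomm : ∀ g, Ψ * ρ₁ g = ρ₁ g * Ψ := by
    intro g
    apply LinearMap.ext
    intro m
    simp only [Module.End.mul_apply, hΨ, LinearMap.comp_apply, hL, hL']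
  have hLN : ∀ w, L (N₁ w) = N₂ (L w) := by
    intro w
    simp only [hN₁, hN₂, LinearMap.sum_apply, map_sum, hL]
  have hLN' : ∀ w, L' (N₂ w) = N₁ (L' w) := by
    intro w
    simp only [hN₁, hN₂, LinearMap.sum_apply, map_sum, hL']
  have hφN : ∀ w, φ₁ (N₁ w) = 0 := by
    intro w
    have h1 : ∀ u : Subgroup.zpowers x, φ₁ (ρ₁ (u : G) w) = φ₁ w := by
      rintro ⟨u, hu⟩
      obtain ⟨n, rfl⟩ := (mem_powers_iff_mem_zpowers.2 hu)
      have := h₁.pow_φ n 0 w
      simpa using this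
    simp only [hN₁, LinearMap.sum_apply, map_sum]
    rw [Finset.sum_congr rfl (fun u _ => h1 u), Finset.sum_const, Finset.card_univ, ← Nat.card_eq_fintype_card,
      Nat.card_zpowers, hx]
    simp [CharP.cast_eq_zero k p]
  have hkey : ∃ w, Ψ v₁ = v₁ + N₁ w := by
    obtain ⟨w, hw⟩ := hv₁
    obtain ⟨w', hw'⟩ := hv₂
    refine ⟨w' + L' w, ?_⟩
    simp only [hΨ, LinearMap.comp_apply]
    rw [hw, map_add, hw', hLN', map_add, add_assoc]
  have hiter : ∀ n : ℕ, ∃ w, (Ψ ^ n) v₁ = v₁ + N₁ w := by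
    intro n
    induction n with
    | zero => exact ⟨0, by simp⟩
    | succ n ih =>
      obtain ⟨w, hw⟩ := ih
      obtain ⟨w', hw'⟩ := hkey
      refine ⟨w' + Ψ w, ?_⟩
      have hΨN : Ψ (N₁ w) = N₁ (Ψ w) := by
        simp only [hΨ, LinearMap.comp_apply]
        rw [hLN, hLN']
      rw [pow_succ', Module.End.mul_apply, hw, map_add, hw', hΨN, map_add, add_assoc]
  rcases hFit Ψ hcomm with ⟨n, hn⟩ | hb
  · exfalso
    obtain ⟨w, hw⟩ := hiter n
    rw [hn, LinearMap.zero_apply] at hw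
    have h1 := congrArg φ₁ hw
    rw [map_zero, map_add, h₁.one, hφN, add_zero] at h1
    exact zero_ne_one h1
  · exact hb

/-- **Green uniqueness.** Two modules as above with the same weight are isomorphic. -/
theorem green_equiv [CharP k p] [FiniteDimensional k M₁] [FiniteDimensional k M₂] (ρ₁ : G →* End k M₁) (ρ₂ : G →* End k M₂)
    (hFit₁ : ∀ S : End k M₁, (∀ g, S * ρ₁ g = ρ₁ g * S) → IsNilpotent S ∨ Function.Bijective S)
    (hFit₂ : ∀ S : End k M₂, (∀ g, S * ρ₂ g = ρ₂ g * S) → IsNilpotent S ∨ Function.Bijective S)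
    {x w₀ : G} {c : k} {v₁ : M₁} {φ₁ : Dual k M₁} {v₂ : M₂} {φ₂ : Dual k M₂} (h₁ : J1 ρ₁ x w₀ c v₁ φ₁)
    (h₂ : J1 ρ₂ x w₀ c v₂ φ₂) (hx : orderOf x = p)
    {T : Subgroup G} (hPT : Subgroup.zpowers x ≤ T) (hT : ∀ t ∈ T, ∃ a b : ℕ, t = x ^ a * w₀ ^ b)
    (hfix : ∀ g : G, (∀ u ∈ Subgroup.zpowers x, g⁻¹ * u * g ∈ T) → g ∈ T) :
    ∃ L : M₁ ≃ₗ[k] M₂, ∀ g m, L (ρ₁ g m) = ρ₂ g (L m) := by
  classical
  letI : Fintype (Subgroup.zpowers x) := Fintype.ofFinite _
  obtain ⟨L, hL, hLv⟩ := exists_trace_map ρ₁ ρ₂ h₁ h₂ hx hPT hT hfix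
  obtain ⟨L', hL', hLv'⟩ := exists_trace_map ρ₂ ρ₁ h₂ h₁ hx hPT hT hfix
  have hv₁ : ∃ w, L v₁ = v₂ + (∑ u : Subgroup.zpowers x, ρ₂ (u : G)) w := by
    obtain ⟨w, hw⟩ := hLv v₁ h₁.fix_v
    exact ⟨w, by rw [hw, h₁.one, one_smul]⟩
  have hv₂ : ∃ w, L' v₂ = v₁ + (∑ u : Subgroup.zpowers x, ρ₁ (u : G)) w := by
    obtain ⟨w, hw⟩ := hLv' v₂ h₂.fix_v
    exact ⟨w, by rw [hw, h₂.one, one_smul]⟩
  have hb₁ := bij_of_pair ρ₁ ρ₂ hFit₁ h₁ hx L L' hL hL' hv₁ hv₂
  have hb₂ := bij_of_pair ρ₂ ρ₁ hFit₂ h₂ hx L' L hL' hL hv₂ hv₁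
  have hinj : Function.Injective L := by
    have := hb₁.1
    rw [LinearMap.coe_comp] at this
    exact Function.Injective.of_comp this
  have hsurj : Function.Surjective L := by
    have := hb₂.2
    rw [LinearMap.coe_comp] at this
    exact Function.Surjective.of_comp this
  exact ⟨LinearEquiv.ofBijective L ⟨hinj, hsurj⟩, fun g m => hL g m⟩

lemma finrank_eq_of_equiv {L : M₁ ≃ₗ[k] M₂} : finrank k M₁ = finrank k M₂ := L.finrank_eq

lemma trace_eq_of_equiv [FiniteDimensional k M₁] [FiniteDimensional k M₂] (ρ₁ : G →* End k M₁) (ρ₂ : G →* End k M₂)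
    (L : M₁ ≃ₗ[k] M₂) (hL : ∀ g m, L (ρ₁ g m) = ρ₂ g (L m)) (g : G) :
    LinearMap.trace k M₁ (ρ₁ g) = LinearMap.trace k M₂ (ρ₂ g) := by
  have h1 : ρ₂ g = L.conj (ρ₁ g) := by
    apply LinearMap.ext
    intro m
    simp only [LinearEquiv.conj_apply, LinearMap.comp_apply, LinearEquiv.coe_coe]
    rw [hL, L.apply_symm_apply]
  rw [h1, LinearMap.trace_conj']

end Green

section Dual

variable {G : Type*} [Group G] {k : Type*} [Field k] {M : Type*} [AddCommGroup M] [Module k M]

/-- The contragredient representation. -/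
noncomputable def dualRho (ρ : G →* End k M) : G →* End k (Dual k M) where
  toFun g := (ρ g⁻¹).dualMap
  map_one' := by
    ext φ m
    simp
  map_mul' a b := by
    ext φ m
    simp [mul_inv_rev]

lemma dualRho_apply (ρ : G →* End k M) (g : G) (φ : Dual k M) (m : M) : dualRho ρ g φ m = φ (ρ g⁻¹ m) := rfl

variable [FiniteDimensional k M]

lemma fit_dual (ρ : G →* End k M)
    (hFit : ∀ S : End k M, (∀ g, S * ρ g = ρ g * S) → IsNilpotent S ∨ Function.Bijective S) :
    ∀ S : End k (Dual k M), (∀ g, S * dualRho ρ g = dualRho ρ g * S) → IsNilpotent S ∨ Function.Bijective S := by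
  intro S hS
  let e := Module.evalEquiv k M
  let S' : End k M := e.symm.toLinearMap ∘ₗ S.dualMap ∘ₗ e.toLinearMap
  have hS' : ∀ (φ : Dual k M) (m : M), φ (S' m) = S φ m := by
    intro φ m
    have h1 : e (S' m) = S.dualMap (e m) := by
      simp [S']
    have h2 := congrArg (fun f => f φ) h1
    simpa [e, Module.evalEquiv_toLinearMap] using h2
  have hpow : ∀ (n : ℕ) (φ : Dual k M) (m : M), φ ((S' ^ n) m) = (S ^ n) φ m := by
    intro n
    induction n with
    | zero => simp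
    | succ n ih =>
      intro φ m
      rw [pow_succ', Module.End.mul_apply, hS', ih, pow_succ, Module.End.mul_apply]
  have hcomm : ∀ g, S' * ρ g = ρ g * S' := by
    intro g
    apply LinearMap.ext
    intro m
    rw [← sub_eq_zero]
    apply (Module.forall_dual_apply_eq_zero_iff k _).1
    intro φ
    rw [map_sub, sub_eq_zero]
    simp only [Module.End.mul_apply]
    rw [hS']
    have h1 : φ (ρ g (S' m)) = dualRho ρ g⁻¹ φ (S' m) := by
      rw [dualRho_apply, inv_inv]
    rw [h1, hS']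
    have h2 := LinearMap.congr_fun (hS g⁻¹) φ
    simp only [Module.End.mul_apply] at h2
    rw [h2, dualRho_apply, inv_inv]
  rcases hFit S' hcomm with ⟨n, hn⟩ | hb
  · left
    refine ⟨n, ?_⟩
    ext φ m
    rw [← hpow, hn]
    simp
  · right
    have h1 : S = S'.dualMap := by
      ext φ m
      rw [LinearMap.dualMap_apply, hS']
    rw [h1]
    exact LinearMap.dualMap_bijective_iff.2 hb

/-- The contragredient of a module with a summand of weight `c`. -/
lemma J1.dual {ρ : G →* End k M} {x w₀ : G} {c : k} {v : M} {φ : Dual k M} (h : J1 ρ x w₀ c v φ) :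
    J1 (dualRho ρ) x w₀ c⁻¹ φ (Dual.eval k M v) := by
  have hinv : ∀ g m, ρ g (ρ g⁻¹ m) = m := by
    intro g m
    rw [← Module.End.mul_apply, ← map_mul, mul_inv_cancel, map_one, Module.End.one_apply]
  have hinv' : ∀ g m, ρ g⁻¹ (ρ g m) = m := by
    intro g m
    rw [← Module.End.mul_apply, ← map_mul, inv_mul_cancel, map_one, Module.End.one_apply]
  have hc : c ≠ 0 := by
    rintro rfl
    have h1 := h.eig_v
    rw [zero_smul] at h1
    have h2 := hinv' w₀ v
    rw [h1, map_zero] at h2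
    have h3 := h.one
    rw [← h2, map_zero] at h3
    exact zero_ne_one h3
  have hxv : ρ x⁻¹ v = v := by
    have := hinv' x v
    rwa [h.fix_v] at this
  have hwv : ρ w₀⁻¹ v = c⁻¹ • v := by
    have := hinv' w₀ v
    rw [h.eig_v, map_smul] at this
    rw [eq_inv_smul_iff₀ hc]
    exact this
  refine ⟨?_, ?_, ?_, ?_, ?_⟩
  · ext m
    rw [dualRho_apply]
    have := h.fix_φ (ρ x⁻¹ m)
    rw [hinv] at this
    exact this.symm
  · intro ψ
    show dualRho ρ x ψ v = ψ v
    rw [dualRho_apply, hxv]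
  · show φ v = 1
    exact h.one
  · ext m
    rw [dualRho_apply]
    have := h.eig_φ (ρ w₀⁻¹ m)
    rw [hinv] at this
    rw [LinearMap.smul_apply, smul_eq_mul, this, inv_mul_cancel_left₀ hc]
  · intro ψ
    show dualRho ρ w₀ ψ v = c⁻¹ * ψ v
    rw [dualRho_apply, hwv, map_smul, smul_eq_mul]

lemma trace_dualRho (ρ : G →* End k M) (g : G) :
    LinearMap.trace k (Dual k M) (dualRho ρ g) = LinearMap.trace k M (ρ g⁻¹) := by
  show LinearMap.trace k (Dual k M) (ρ g⁻¹).dualMap = _
  exact LinearMap.trace_transpose' _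

lemma finrank_dual : finrank k (Dual k M) = finrank k M := Subspace.dual_finrank_eq

end Dual

end Cfsg.Agent.Lib.DefectOne.GreenJ
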