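import Mathlib
import Cfsg.Agent.Lib.DefectOne.ThmA
import Cfsg.Agent.Lib.DefectOne.Primitive

/-!
# Lifting idempotents over a valuation subring of `ℂ`
-/

set_option autoImplicit false
set_option linter.unusedSectionVars false

namespace Cfsg.Agent.Lib.DefectOne.IdemLift

open Module Matrix Polynomial Cfsg.Agent.Lib.DefectOne

variable (O : ValuationSubring ℂ)

local notation "kk" => IsLocalRing.ResidueField O

lemma res_surj : Function.Surjective (IsLocalRing.residue O) := IsLocalRing.residue_surjective

lemma mem_of_isRoot_map {P : O[X]} (hP : P.Monic) {α : ℂ} (hα : (P.map O.subtype).IsRoot α) : α ∈ O := by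
  have hint : IsIntegral O α := by
    refine ⟨P, hP, ?_⟩
    rw [Polynomial.IsRoot.def, Polynomial.eval_map] at hα
    exact hα
  obtain ⟨y, hy⟩ := IsIntegrallyClosed.isIntegral_iff.1 hint
  rw [← hy]
  exact y.2

theorem isAlgClosed_residue : IsAlgClosed kk := by
  refine IsAlgClosed.of_exists_root _ ?_
  intro q hq hirr
  have hl : q ∈ Polynomial.lifts (IsLocalRing.residue O) := by
    rw [Polynomial.mem_lifts]
    exact Polynomial.map_surjective _ (res_surj O) q
  obtain ⟨Q, hQ, hQd, hQm⟩ := Polynomial.lifts_and_natDegree_eq_and_monic hl hq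
  have hdeg : (Q.map O.subtype).degree ≠ 0 := by
    rw [Polynomial.degree_map_eq_of_injective Subtype.val_injective]
    have h1 : Q.natDegree ≠ 0 := by
      rw [hQd]
      exact hirr.natDegree_pos.ne'
    intro h
    exact h1 (Polynomial.natDegree_eq_of_degree_eq_some (by simpa using h))
  obtain ⟨α, hα⟩ := IsAlgClosed.exists_root _ hdeg
  have hαO := mem_of_isRoot_map O hQm hα
  refine ⟨IsLocalRing.residue O ⟨α, hαO⟩, ?_⟩
  have h0 : Q.eval (⟨α, hαO⟩ : O) = 0 := by
    apply Subtype.val_injective
    have h1 : O.subtype (Q.eval (⟨α, hαO⟩ : O)) = (Q.map O.subtype).eval α := by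
      rw [Polynomial.eval_map]
      exact Polynomial.eval₂_at_apply O.subtype (⟨α, hαO⟩ : O) |>.symm ▸ rfl
    exact h1.trans hα
  rw [← hQ, Polynomial.eval_map_apply, h0, map_zero]

section Split

/-- A monic polynomial over `O` splits into a part with roots `≡ 1` and a part with roots `≢ 1`. -/
lemma exists_split {P : O[X]} (hP : P.Monic) :
    ∃ G₁ G₀ : O[X], P = G₁ * G₀ ∧ IsCoprime G₁ G₀ ∧
      (G₀.map (IsLocalRing.residue O)).eval 1 ≠ 0 ∧ (G₁.map (IsLocalRing.residue O)).eval 0 ≠ 0 := by
  classical
  set res := IsLocalRing.residue O with hres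
  -- the roots
  have hsplit : (P.map O.subtype).Splits := IsAlgClosed.splits _
  have hmon : (P.map O.subtype).Monic := hP.map _
  have hroots : ∀ α ∈ (P.map O.subtype).roots, α ∈ O := by
    intro α hα
    exact mem_of_isRoot_map O hP (Polynomial.isRoot_of_mem_roots hα)
  let rts : Multiset O := (P.map O.subtype).roots.attach.map (fun a => (⟨a.1, hroots a.1 a.2⟩ : O))
  have hrts : rts.map (fun b : O => (b : ℂ)) = (P.map O.subtype).roots := by
    simp only [rts, Multiset.map_map, Function.comp]
    exact Multiset.attach_map_val _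
  have hprod : P = (rts.map (fun b => X - C b)).prod := by
    apply Polynomial.map_injective O.subtype Subtype.val_injective
    rw [Polynomial.map_multiset_prod, Multiset.map_map]
    have h1 := hsplit.eq_prod_roots_of_monic hmon
    rw [h1]
    rw [← hrts, Multiset.map_map]
    congr 1
    refine Multiset.map_congr rfl fun b _ => ?_
    simp
  let S₁ := rts.filter (fun b => res b = 1)
  let S₀ := rts.filter (fun b => ¬ res b = 1)
  have hS : S₁ + S₀ = rts := Multiset.filter_add_not _ _
  let f : O → O[X] := fun b => X - C b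
  refine ⟨(S₁.map f).prod, (S₀.map f).prod, ?_, ?_, ?_, ?_⟩
  · rw [hprod, ← hS, Multiset.map_add, Multiset.prod_add]
  · -- coprimality
    have hpair : ∀ a ∈ S₁, ∀ b ∈ S₀, IsCoprime (f a) (f b) := by
      intro a ha b hb
      have ha' : res a = 1 := (Multiset.mem_filter.1 ha).2
      have hb' : ¬ res b = 1 := (Multiset.mem_filter.1 hb).2
      have hu : IsUnit (b - a) := by
        have : res (b - a) ≠ 0 := by
          rw [map_sub, ha', sub_ne_zero]
          exact hb'
        by_contra hnu
        exact this ((IsLocalRing.residue_eq_zero_iff _).2 hnu)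
      obtain ⟨u, hu⟩ := hu
      refine ⟨C (↑u⁻¹ : O), - C (↑u⁻¹ : O), ?_⟩
      have h1 : C (↑u⁻¹ : O) * f a + - C (↑u⁻¹ : O) * f b = C (↑u⁻¹ * (b - a) : O) := by
        simp only [f, C_mul, C_sub]
        ring
      rw [h1, ← hu, Units.inv_mul, C_1]
    have h1 : ∀ a ∈ S₁, IsCoprime (f a) ((S₀.map f).prod) := by
      intro a ha
      have : ∀ (T : Multiset O), (∀ b ∈ T, b ∈ S₀) → IsCoprime (f a) ((T.map f).prod) := by
        intro T
        induction T using Multiset.induction_on with
        | empty => intro _; simpa using isCoprime_one_right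
        | cons b T ih =>
          intro hT
          rw [Multiset.map_cons, Multiset.prod_cons]
          exact (hpair a ha b (hT b (Multiset.mem_cons_self _ _))).mul_right
            (ih fun c hc => hT c (Multiset.mem_cons_of_mem hc))
      exact this S₀ fun _ h => h
    have : ∀ (T : Multiset O), (∀ a ∈ T, a ∈ S₁) → IsCoprime ((T.map f).prod) ((S₀.map f).prod) := by
      intro T
      induction T using Multiset.induction_on with
      | empty => intro _; simpa using isCoprime_one_left
      | cons a T ih =>
        intro hT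
        rw [Multiset.map_cons, Multiset.prod_cons]
        exact (h1 a (hT a (Multiset.mem_cons_self _ _))).mul_left
          (ih fun c hc => hT c (Multiset.mem_cons_of_mem hc))
    exact this S₁ fun _ h => h
  · rw [Polynomial.map_multiset_prod, Polynomial.eval_multiset_prod, Multiset.map_map, Multiset.map_map]
    rw [Ne, Multiset.prod_eq_zero_iff]
    intro h0
    obtain ⟨b, hb, hb0⟩ := Multiset.mem_map.1 h0
    have hb' : ¬ res b = 1 := (Multiset.mem_filter.1 hb).2
    simp only [Function.comp, f, Polynomial.map_sub, Polynomial.map_X, Polynomial.map_C, Polynomial.eval_sub,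
      Polynomial.eval_X, Polynomial.eval_C] at hb0
    exact hb' (sub_eq_zero.1 hb0).symm
  · rw [Polynomial.map_multiset_prod, Polynomial.eval_multiset_prod, Multiset.map_map, Multiset.map_map]
    rw [Ne, Multiset.prod_eq_zero_iff]
    intro h0
    obtain ⟨b, hb, hb0⟩ := Multiset.mem_map.1 h0
    have hb' : res b = 1 := (Multiset.mem_filter.1 hb).2
    simp only [Function.comp, f, Polynomial.map_sub, Polynomial.map_X, Polynomial.map_C, Polynomial.eval_sub,
      Polynomial.eval_X, Polynomial.eval_C] at hb0
    rw [hb'] at hb0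
    simp at hb0

end Split

section Lift

variable {G : Type*} [Group G] [Finite G]

/-- Evaluation of a polynomial at an idempotent. -/
lemma aeval_idem {k A : Type*} [Field k] [Ring A] [Algebra k A] {f : A} (hff : f * f = f) (h : k[X]) :
    aeval f h = h.eval 1 • f + h.eval 0 • (1 - f) := by
  have hpow : ∀ n : ℕ, f ^ (n + 1) = f := by
    intro n
    induction n with
    | zero => simp
    | succ n ih => rw [pow_succ, ih, hff]
  induction h using Polynomial.induction_on' with
  | add p q hp hq =>
    simp only [map_add, hp, hq, eval_add, add_smul]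
    abel
  | monomial n a =>
    rw [aeval_monomial, eval_monomial, eval_monomial]
    cases n with
    | zero =>
      simp only [pow_zero, mul_one, Algebra.algebraMap_eq_smul_one, smul_mul_assoc, one_mul]
      rw [← smul_add]
      simp
    | succ n =>
      rw [hpow]
      simp [Algebra.algebraMap_eq_smul_one]

/-- Lifting an idempotent of `k[G]` to `O[G]`. -/
theorem exists_idem_lift (f : MonoidAlgebra kk G) (hff : f * f = f) :
    ∃ e : MonoidAlgebra O G, e * e = e ∧ ∀ g, IsLocalRing.residue O (e.coeff g) = f.coeff g := by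
  classical
  letI : Fintype G := Fintype.ofFinite _
  set res := IsLocalRing.residue O with hres
  -- a lift
  let cf : G → O := fun g => Function.surjInv (res_surj O) (f.coeff g)
  have hcf : ∀ g, res (cf g) = f.coeff g := fun g => Function.surjInv_eq (res_surj O) _
  let a₀ : MonoidAlgebra O G := ∑ g, MonoidAlgebra.single g (cf g)
  let ψ : MonoidAlgebra O G →+* MonoidAlgebra kk G := MonoidAlgebra.mapRingHom G res
  have hψ : ∀ (a : MonoidAlgebra O G) g, (ψ a).coeff g = res (a.coeff g) := by
    intro a g
    exact MonoidAlgebra.coeff_mapRingHom res a g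
  have hψa : ψ a₀ = f := by
    ext g
    rw [hψ]
    simp only [a₀, MonoidAlgebra.coeff_sum, Finsupp.coe_finset_sum, Finset.sum_apply,
      MonoidAlgebra.coeff_single, Finsupp.single_apply]
    simp [hcf]
  haveI : Module.Finite O (MonoidAlgebra O G) := inferInstance
  obtain ⟨P, hPm, hP0⟩ : IsIntegral O a₀ := IsIntegral.of_finite O a₀
  obtain ⟨G₁, G₀, hP, hcop, h1, h0⟩ := exists_split O hPm
  obtain ⟨u, v, huv⟩ := hcop
  let h : O[X] := v * G₀
  let e : MonoidAlgebra O G := aeval a₀ h
  have hPa : aeval a₀ P = 0 := hP0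
  have hee : e * e = e := by
    have h2 : h * h - h = - (u * v * P) := by
      have h3 : h - 1 = - (u * G₁) := by
        simp only [h]
        linear_combination huv
      have : h * h - h = h * (h - 1) := by ring
      rw [this, h3, hP]
      simp only [h]
      ring
    have h4 : e * e - e = aeval a₀ (h * h - h) := by
      rw [map_sub, map_mul]
    rw [h2, map_neg, map_mul, hPa, mul_zero, neg_zero, sub_eq_zero] at h4
    exact h4
  refine ⟨e, hee, ?_⟩
  -- reduction
  have hψalg : ψ.comp (algebraMap O (MonoidAlgebra O G)) = (algebraMap kk (MonoidAlgebra kk G)).comp res :=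
    MonoidAlgebra.mapRingHom_comp_algebraMap res
  have hred : ∀ q : O[X], ψ (aeval a₀ q) = aeval f (q.map res) := by
    intro q
    rw [aeval_def, aeval_def, Polynomial.hom_eval₂, hψa, Polynomial.eval₂_map, hψalg]
  have hPb : aeval f (P.map res) = 0 := by
    rw [← hred, hPa, map_zero]
  rw [aeval_idem hff] at hPb
  set Pb := P.map res with hPbdef
  have hf1f : (1 - f) * f = 0 := by rw [sub_mul, one_mul, hff, sub_self]
  have hff1 : f * (1 - f) = 0 := by rw [mul_sub, mul_one, hff, sub_self]
  have hA : f ≠ 0 → (h.map res).eval 1 = 1 := by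
    intro hf0
    have h2 : Pb.eval 1 • f = 0 := by
      have := congrArg (· * f) hPb
      simpa [add_mul, smul_mul_assoc, hff, hf1f] using this
    have h3 : Pb.eval 1 = 0 := (smul_eq_zero.1 h2).resolve_right hf0
    rw [hPbdef, hP, Polynomial.map_mul, eval_mul] at h3
    have h4 : (G₁.map res).eval 1 = 0 := (mul_eq_zero.1 h3).resolve_right h1
    have h5 := congrArg (fun q : O[X] => (q.map res).eval 1) huv
    simp only [Polynomial.map_add, Polynomial.map_mul, eval_add, eval_mul, h4, mul_zero, zero_add,
      Polynomial.map_one, eval_one] at h5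
    simp only [h, Polynomial.map_mul, eval_mul]
    exact h5
  have hB : f ≠ 1 → (h.map res).eval 0 = 0 := by
    intro hf1
    have hf1' : (1 - f) ≠ 0 := sub_ne_zero.2 (Ne.symm hf1)
    have h2 : Pb.eval 0 • (1 - f) = 0 := by
      have := congrArg (· * (1 - f)) hPb
      have h3 : (1 - f) * (1 - f) = 1 - f := by rw [sub_mul, one_mul, mul_sub, mul_one, hff]; abel
      simpa [add_mul, smul_mul_assoc, hff1, h3] using this
    have h3 : Pb.eval 0 = 0 := (smul_eq_zero.1 h2).resolve_right hf1'
    rw [hPbdef, hP, Polynomial.map_mul, eval_mul] at h3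
    have h4 : (G₀.map res).eval 0 = 0 := (mul_eq_zero.1 h3).resolve_left h0
    simp only [h, Polynomial.map_mul, eval_mul, h4, mul_zero]
  have hfinal : ψ e = f := by
    show ψ (aeval a₀ h) = f
    rw [hred, aeval_idem hff]
    by_cases hf0 : f = 0
    · have hne : f ≠ 1 := by
        rw [hf0]; exact zero_ne_one
      rw [hB hne, hf0]; simp
    · rw [hA hf0]
      by_cases hf1 : f = 1
      · rw [hf1]; simp
      · rw [hB hf1]; simp
  intro g
  rw [← hψ, hfinal]

/-- The coefficient law of an idempotent. -/
lemma coeff_law [Fintype G] {R : Type*} [Semiring R] {e : MonoidAlgebra R G} (hee : e * e = e) (g : G) :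
    ∑ s, e.coeff (g * s⁻¹) * e.coeff s = e.coeff g := by
  classical
  conv_rhs => rw [← hee]
  rw [MonoidAlgebra.coeff_mul, Finsupp.sum_fintype _ _ (fun i => by simp)]
  have h1 : ∀ a : G, (e.coeff.sum fun m₂ r₂ => if a * m₂ = g then e.coeff a * r₂ else 0) =
      ∑ b, if a * b = g then e.coeff a * e.coeff b else 0 := by
    intro a
    rw [Finsupp.sum_fintype _ _ (fun i => by simp)]
  simp only [h1]
  rw [Finset.sum_comm]
  refine Finset.sum_congr rfl fun s _ => ?_
  have h2 : ∀ a : G, a * s = g ↔ a = g * s⁻¹ := fun a => eq_mul_inv_iff_mul_eq.symm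
  simp [h2]

end Lift

end Cfsg.Agent.Lib.DefectOne.IdemLift
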