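import Mathlib
import Cfsg.Agent.Lib.DefectOne.GreenJ
import Cfsg.Agent.Lib.DefectOne.IdemLift
import Cfsg.Agent.Lib.DefectOne.SimpleDim

/-!
# Dimensions of Fitting forms of dimension `≡ 1` modulo `p`
-/

set_option autoImplicit false
set_option linter.unusedSectionVars false

namespace Cfsg.Agent.Lib.DefectOne.DimThm

open Module Matrix Cfsg Cfsg.Agent.Lib.DefectOne Cfsg.Agent.Lib.DefectOne.GreenJ

variable (O : ValuationSubring ℂ) {G : Type*} [Group G] [Finite G] {n : ℕ} {p : ℕ} [hp : Fact p.Prime]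

local notation "kk" => IsLocalRing.ResidueField O

/-- The matrix Fitting property for the endomorphism form. -/
lemma fit_rhoK (A : G →* Matrix (Fin n) (Fin n) O)
    (hFit : ∀ S : Matrix (Fin n) (Fin n) kk, (∀ g, S * redHom O A g = redHom O A g * S) → IsNilpotent S ∨ IsUnit S) :
    ∀ S : End kk (Fin n → kk), (∀ g, S * rhoK O A g = rhoK O A g * S) → IsNilpotent S ∨ Function.Bijective S := by
  intro S hS
  let Ψ : Matrix (Fin n) (Fin n) kk ≃ₐ[kk] _ := Matrix.toLinAlgEquiv'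
  have h1 : ∀ g, Ψ.symm S * redHom O A g = redHom O A g * Ψ.symm S := by
    intro g
    apply Ψ.injective
    rw [map_mul, map_mul, AlgEquiv.apply_symm_apply]
    exact hS g
  rcases hFit _ h1 with h2 | h2
  · left
    obtain ⟨m, hm⟩ := h2
    refine ⟨m, ?_⟩
    have := congrArg Ψ hm
    rwa [map_pow, map_zero, AlgEquiv.apply_symm_apply] at this
  · right
    have h3 : IsUnit S := by
      have := h2.map Ψ
      rwa [AlgEquiv.apply_symm_apply] at this
    exact (Module.End.isUnit_iff S).1 h3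

lemma trace_rhoK (A : G →* Matrix (Fin n) (Fin n) O) (g : G) :
    LinearMap.trace kk (Fin n → kk) (rhoK O A g) = IsLocalRing.residue O (A g).trace := by
  show LinearMap.trace kk (Fin n → kk) (Matrix.toLin' (redHom O A g)) = _
  rw [Matrix.trace_toLin'_eq, redHom_apply, Matrix.trace, Matrix.trace, map_sum]
  simp

/-- The trivial representation. -/
noncomputable def trivRho (k : Type*) [Field k] (G : Type*) [Group G] : G →* End k k := 1

lemma fit_triv (k : Type*) [Field k] (G : Type*) [Group G] :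
    ∀ S : End k k, (∀ g : G, S * trivRho k G g = trivRho k G g * S) → IsNilpotent S ∨ Function.Bijective S := by
  intro S _
  by_cases h : S 1 = 0
  · left
    have : S = 0 := by
      ext
      simpa using h
    rw [this]
    exact IsNilpotent.zero
  · right
    have h1 : ∀ a, S a = a * S 1 := by
      intro a
      have := S.map_smul a 1
      simpa using this
    constructor
    · intro a b hab
      rw [h1 a, h1 b] at hab
      exact mul_right_cancel₀ h hab
    · intro b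
      refine ⟨b * (S 1)⁻¹, ?_⟩
      rw [h1, mul_assoc, inv_mul_cancel₀ h, mul_one]

lemma j1_triv (k : Type*) [Field k] {G : Type*} [Group G] (x w₀ : G) :
    J1 (trivRho k G) x w₀ 1 1 (LinearMap.id : Dual k k) where
  fix_v := by simp [trivRho]
  fix_φ := by simp [trivRho]
  one := by simp
  eig_v := by simp [trivRho]
  eig_φ := by simp [trivRho]

lemma J1.root {k : Type*} [Field k] {M : Type*} [AddCommGroup M] [Module k M] {G : Type*} [Group G]
    {ρ : G →* End k M} {x w₀ : G} {c : k} {v : M} {φ : Dual k M} (hj : J1 ρ x w₀ c v φ) {e : ℕ} (hwe : w₀ ^ e = 1) :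
    c ^ e = 1 := by
  have h1 := hj.pow_v 0 e
  rw [pow_zero, one_mul, hwe, map_one, Module.End.one_apply] at h1
  have h2 : v ≠ 0 := by
    intro h0
    have := hj.one
    rw [h0, map_zero] at this
    exact zero_ne_one this
  have h3 : (c ^ e - 1) • v = 0 := by
    rw [sub_smul, one_smul, ← h1, sub_self]
  exact sub_eq_zero.1 ((smul_eq_zero.1 h3).resolve_right h2)

/-- The data of a Fitting form of a character with a `J1` vector. -/
def HasForm (x w₀ : G) (χ : G → ℂ) (c : kk) : Prop :=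
  ∃ (d : ℕ) (A : G →* Matrix (Fin d) (Fin d) O) (v : Fin d → kk) (φ : Dual kk (Fin d → kk)),
    χ 1 = d ∧ (∀ g, ((A g).map (Subtype.val : O → ℂ)).trace = χ g) ∧
    (∀ S : End kk (Fin d → kk), (∀ g, S * rhoK O A g = rhoK O A g * S) → IsNilpotent S ∨ Function.Bijective S) ∧
    J1 (rhoK O A) x w₀ c v φ

lemma nonunits_of_res_eq {d d' : ℕ} {A : G →* Matrix (Fin d) (Fin d) O} {A' : G →* Matrix (Fin d') (Fin d') O}
    {g g' : G} (h : IsLocalRing.residue O (A g).trace = IsLocalRing.residue O (A' g').trace) :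
    ((A g).map (Subtype.val : O → ℂ)).trace - ((A' g').map (Subtype.val : O → ℂ)).trace ∈ O.nonunits := by
  have h1 : ∀ (m : ℕ) (X : Matrix (Fin m) (Fin m) O), (X.map (Subtype.val : O → ℂ)).trace = ((X.trace : O) : ℂ) := by
    intro m X
    simp [Matrix.trace]
  rw [h1, h1]
  have h2 : ((A g).trace - (A' g').trace) ∈ IsLocalRing.maximalIdeal O := by
    rw [← IsLocalRing.residue_eq_zero_iff, map_sub, h, sub_self]
  have h3 := ValuationSubring.coe_mem_nonunits_iff.2 h2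
  simpa using h3

section Main

variable {x w₀ : G} {T K : Subgroup G}

lemma hasForm_cmp (hOp : (p : ℂ) ∈ O.nonunits) (hx : orderOf x = p) (hPT : Subgroup.zpowers x ≤ T)
    (hT : ∀ t ∈ T, ∃ a b : ℕ, t = x ^ a * w₀ ^ b)
    (hfix : ∀ g : G, (∀ u ∈ Subgroup.zpowers x, g⁻¹ * u * g ∈ T) → g ∈ T) {χ χ' : G → ℂ} {c : kk}
    (h : HasForm O x w₀ χ c) (h' : HasForm O x w₀ χ' c) (g : G) : χ g - χ' g ∈ O.nonunits := by
  haveI : CharP kk p := charP_residue O p hOp
  obtain ⟨d, A, v, φ, -, htr, hF, hj⟩ := h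
  obtain ⟨d', A', v', φ', -, htr', hF', hj'⟩ := h'
  obtain ⟨L, hL⟩ := green_equiv (rhoK O A) (rhoK O A') hF hF' hj hj' hx hPT hT hfix
  have h1 := trace_eq_of_equiv (rhoK O A) (rhoK O A') L hL g
  rw [trace_rhoK, trace_rhoK] at h1
  have h2 := nonunits_of_res_eq O h1
  rwa [htr, htr'] at h2

lemma hasForm_cmp_dual (hOp : (p : ℂ) ∈ O.nonunits) (hx : orderOf x = p) (hPT : Subgroup.zpowers x ≤ T)
    (hT : ∀ t ∈ T, ∃ a b : ℕ, t = x ^ a * w₀ ^ b)
    (hfix : ∀ g : G, (∀ u ∈ Subgroup.zpowers x, g⁻¹ * u * g ∈ T) → g ∈ T) {χ χ' : G → ℂ} {c : kk}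
    (h : HasForm O x w₀ χ c) (h' : HasForm O x w₀ χ' c⁻¹) (g : G) : χ g - χ' g⁻¹ ∈ O.nonunits := by
  haveI : CharP kk p := charP_residue O p hOp
  obtain ⟨d, A, v, φ, -, htr, hF, hj⟩ := h
  obtain ⟨d', A', v', φ', -, htr', hF', hj'⟩ := h'
  have hj2 := hj'.dual
  rw [inv_inv] at hj2
  obtain ⟨L, hL⟩ := green_equiv (rhoK O A) (dualRho (rhoK O A')) hF (fit_dual _ hF') hj hj2 hx hPT hT hfix
  have h1 := trace_eq_of_equiv (rhoK O A) (dualRho (rhoK O A')) L hL g
  rw [trace_rhoK, trace_dualRho, trace_rhoK] at h1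
  have h2 := nonunits_of_res_eq O h1
  rwa [htr, htr'] at h2

theorem dim_theorem (hOint : ∀ z : ℂ, IsIntegral ℤ z → z ∈ O) (hOp : (p : ℂ) ∈ O.nonunits)
    (hx : orderOf x = p) (hPT : Subgroup.zpowers x ≤ T)
    (hTPK : ∀ t ∈ T, ∃ u ∈ Subgroup.zpowers x, ∃ w ∈ K, t = u * w) (hKT : K ≤ T)
    (hKn : ∀ w ∈ K, ∀ u ∈ Subgroup.zpowers x, w⁻¹ * u * w ∈ Subgroup.zpowers x)
    (hK : ¬ p ∣ Nat.card K) (hw₀ : w₀ ∈ K) (hgen : ∀ w ∈ K, ∃ n : ℕ, w = w₀ ^ n)
    (hT : ∀ t ∈ T, ∃ a b : ℕ, t = x ^ a * w₀ ^ b)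
    (hfix : ∀ g : G, (∀ u ∈ Subgroup.zpowers x, g⁻¹ * u * g ∈ T) → g ∈ T)
    (Z : Finset (G → ℂ)) (hZirr : ∀ χ ∈ Z, IsIrrCharacter G χ)
    (hZ1 : ∀ χ ∈ Z, ∃ d : ℕ, χ 1 = d ∧ 1 < d ∧ d % p = 1 % p)
    (hreal : ∀ χ ∈ Z, ∀ w ∈ K, χ w⁻¹ = χ w)
    (hdist : ∀ χ ∈ Z, ∀ χ' ∈ Z, χ ≠ χ' → ∃ w ∈ K, χ w - χ' w ∉ O.nonunits)
    {e : ℕ} (he : 1 + 2 * Z.card = e) (hwe : w₀ ^ e = 1)
    (A : G →* Matrix (Fin n) (Fin n) O)
    (hFit : ∀ S : Matrix (Fin n) (Fin n) kk, (∀ g, S * redHom O A g = redHom O A g * S) → IsNilpotent S ∨ IsUnit S)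
    (hn : n % p = 1 % p) :
    n = 1 ∨ ∃ χ ∈ Z, χ 1 = n := by
  classical
  haveI : CharP kk p := charP_residue O p hOp
  haveI : IsAlgClosed kk := IdemLift.isAlgClosed_residue O
  have hKk : (Nat.card K : kk) ≠ 0 := fun h => hK ((CharP.cast_eq_zero_iff _ p _).1 h)
  -- forms with a `J1` vector
  have hJ : ∀ {m : ℕ} (B : G →* Matrix (Fin m) (Fin m) O),
      (∀ S : End kk (Fin m → kk), (∀ g, S * rhoK O B g = rhoK O B g * S) → IsNilpotent S ∨ Function.Bijective S) →
      m % p = 1 % p → ∃ (c : kk) (v : Fin m → kk) (φ : Dual kk (Fin m → kk)), J1 (rhoK O B) x w₀ c v φ := by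
    intro m B hB hm
    exact exists_J1 (rhoK O B) hB hx hPT hTPK hKT hKn hKk hw₀ hgen hfix (by simpa using hm)
  have hform : ∀ χ ∈ Z, ∃ c : kk, HasForm O x w₀ χ c := by
    intro χ hχ
    obtain ⟨d', R, hpos, h1, htr, hirr⟩ := exists_irr_matrix (hZirr χ hχ)
    obtain ⟨d, hd, hd1, hdp⟩ := hZ1 χ hχ
    have h2 : d' = d := by
      rw [h1] at hd
      exact_mod_cast hd
    subst h2
    obtain ⟨B, A', hdet, hA', hF⟩ := exists_fit_form O R hirr hpos
    have hF' := fit_rhoK O A' hF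
    obtain ⟨c, v, φ, hj⟩ := hJ A' hF' hdp
    refine ⟨c, d', A', v, φ, h1, fun g => ?_, hF', hj⟩
    rw [hA' g]
    have h3 : (B⁻¹ * R g * B).trace = (R g).trace := by
      rw [Matrix.trace_mul_comm, ← mul_assoc, Matrix.mul_nonsing_inv B (isUnit_iff_ne_zero.2 hdet), one_mul]
    rw [h3, htr]
  let wt : (G → ℂ) → kk := fun χ => if h : χ ∈ Z then (hform χ h).choose else 1
  have hwt : ∀ χ ∈ Z, HasForm O x w₀ χ (wt χ) := by
    intro χ hχ
    simp only [wt, dif_pos hχ]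
    exact (hform χ hχ).choose_spec
  have hwtroot : ∀ χ ∈ Z, wt χ ^ e = 1 := by
    intro χ hχ
    obtain ⟨d, A', v, φ, -, -, -, hj⟩ := hwt χ hχ
    exact J1.root hj hwe
  -- the weights differ from one
  have hne1 : ∀ χ ∈ Z, wt χ ≠ 1 := by
    intro χ hχ h1
    obtain ⟨d, A', v, φ, hd, -, hF, hj⟩ := hwt χ hχ
    rw [h1] at hj
    obtain ⟨L, -⟩ := green_equiv (rhoK O A') (trivRho kk G) hF (fit_triv kk G) hj (j1_triv kk x w₀) hx hPT hT hfix
    have h2 := L.finrank_eq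
    simp only [Module.finrank_fin_fun, Module.finrank_self] at h2
    obtain ⟨d₂, hd₂, hd₁, -⟩ := hZ1 χ hχ
    rw [hd₂] at hd
    have h3 : d₂ = d := by exact_mod_cast hd
    omega
  have hodd : ∀ χ ∈ Z, wt χ ≠ (wt χ)⁻¹ := by
    intro χ hχ h1
    have h0 : wt χ ≠ 0 := by
      intro h
      have := hwtroot χ hχ
      rw [h, zero_pow (by omega)] at this
      exact zero_ne_one this
    have h2 : wt χ ^ 2 = 1 := by
      rw [pow_two]
      nth_rewrite 2 [h1]
      exact mul_inv_cancel₀ h0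
    have h3 := hwtroot χ hχ
    rw [← he, pow_add, pow_one, pow_mul, h2, one_pow, mul_one] at h3
    exact hne1 χ hχ h3
  have hinjwt : Set.InjOn wt Z := by
    intro χ hχ χ' hχ' h
    by_contra hne
    obtain ⟨w, hw, hw'⟩ := hdist χ hχ χ' hχ' hne
    apply hw'
    have h1 := hwt χ' hχ'
    rw [← h] at h1
    exact hasForm_cmp O hOp hx hPT hT hfix (hwt χ hχ) h1 w
  have hdisj : ∀ χ ∈ Z, ∀ χ' ∈ Z, wt χ ≠ (wt χ')⁻¹ := by
    intro χ hχ χ' hχ' h
    by_cases hne : χ = χ'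
    · subst hne
      exact hodd χ hχ h
    · obtain ⟨w, hw, hw'⟩ := hdist χ hχ χ' hχ' hne
      apply hw'
      have h1 := hwt χ' hχ'
      have h2 : wt χ' = (wt χ)⁻¹ := by rw [h, inv_inv]
      rw [h2] at h1
      have h3 := hasForm_cmp_dual O hOp hx hPT hT hfix (hwt χ hχ) h1 w
      rwa [hreal χ' hχ' w hw] at h3
  -- the weights are all the roots of unity
  let S : Finset kk := insert 1 (Z.image wt ∪ Z.image (fun χ => (wt χ)⁻¹))
  have hScard : S.card = e := by
    have h1 : (1 : kk) ∉ Z.image wt ∪ Z.image (fun χ => (wt χ)⁻¹) := by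
      intro h
      rcases Finset.mem_union.1 h with h | h
      · obtain ⟨χ, hχ, h2⟩ := Finset.mem_image.1 h
        exact hne1 χ hχ h2
      · obtain ⟨χ, hχ, h2⟩ := Finset.mem_image.1 h
        apply hne1 χ hχ
        simpa using h2
    have h2 : Disjoint (Z.image wt) (Z.image (fun χ => (wt χ)⁻¹)) := by
      rw [Finset.disjoint_left]
      intro a ha hb
      obtain ⟨χ, hχ, rfl⟩ := Finset.mem_image.1 ha
      obtain ⟨χ', hχ', h3⟩ := Finset.mem_image.1 hb
      exact hdisj χ hχ χ' hχ' h3.symm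
    have h3 : (Z.image wt).card = Z.card := Finset.card_image_of_injOn hinjwt
    have h4 : (Z.image (fun χ => (wt χ)⁻¹)).card = Z.card := by
      apply Finset.card_image_of_injOn
      intro a ha b hb hab
      exact hinjwt ha hb (inv_injective hab)
    simp only [S]
    rw [Finset.card_insert_of_notMem h1, Finset.card_union_of_disjoint h2, h3, h4, ← he]
    ring
  have he0 : 0 < e := by omega
  have hSroots : S ⊆ Polynomial.nthRootsFinset e (1 : kk) := by
    intro a ha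
    rw [Polynomial.mem_nthRootsFinset he0]
    simp only [S, Finset.mem_insert, Finset.mem_union, Finset.mem_image] at ha
    rcases ha with rfl | ⟨χ, hχ, rfl⟩ | ⟨χ, hχ, rfl⟩
    · simp
    · exact hwtroot χ hχ
    · rw [inv_pow, hwtroot χ hχ, inv_one]
  have hSeq : S = Polynomial.nthRootsFinset e (1 : kk) := by
    apply Finset.eq_of_subset_of_card_le hSroots
    rw [hScard]
    have h1 := Polynomial.card_nthRoots e (1 : kk)
    exact (Multiset.toFinset_card_le _).trans h1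
  -- the given form
  have hF := fit_rhoK O A hFit
  obtain ⟨c, v, φ, hj⟩ := hJ A hF hn
  have hc : c ∈ S := by
    rw [hSeq, Polynomial.mem_nthRootsFinset he0]
    exact J1.root hj hwe
  simp only [S, Finset.mem_insert, Finset.mem_union, Finset.mem_image] at hc
  rcases hc with rfl | ⟨χ, hχ, rfl⟩ | ⟨χ, hχ, rfl⟩
  · left
    obtain ⟨L, -⟩ := green_equiv (rhoK O A) (trivRho kk G) hF (fit_triv kk G) hj (j1_triv kk x w₀) hx hPT hT hfix
    have h2 := L.finrank_eq
    simpa using h2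
  · right
    refine ⟨χ, hχ, ?_⟩
    obtain ⟨d, A', v', φ', hd, -, hF', hj'⟩ := hwt χ hχ
    obtain ⟨L, -⟩ := green_equiv (rhoK O A) (rhoK O A') hF hF' hj hj' hx hPT hT hfix
    have h2 := L.finrank_eq
    simp only [Module.finrank_fin_fun] at h2
    rw [hd, h2]
  · right
    refine ⟨χ, hχ, ?_⟩
    obtain ⟨d, A', v', φ', hd, -, hF', hj'⟩ := hwt χ hχ
    obtain ⟨L, -⟩ := green_equiv (rhoK O A) (dualRho (rhoK O A')) hF (fit_dual _ hF') hj hj'.dual hx hPT hT hfix
    have h2 := L.finrank_eq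
    rw [finrank_dual] at h2
    simp only [Module.finrank_fin_fun] at h2
    rw [hd, h2]

end Main

end Cfsg.Agent.Lib.DefectOne.DimThm
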