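import Mathlib
import Cfsg.Agent.Lib.DefectOne.IdemLift

/-!
# Projective characters vanish on `p`-singular elements of order `p`
-/

set_option autoImplicit false
set_option linter.unusedSectionVars false

namespace Cfsg.Agent.Lib.DefectOne.ExcFit

open Module Matrix Cfsg.Agent.Lib.DefectOne

variable (O : ValuationSubring ℂ) {G : Type*} [Group G] {n : ℕ}

local notation "kk" => IsLocalRing.ResidueField O

section FitEig
variable [Finite G]

/-- The integral form attached to a fixed vector of a lifted "primitive" idempotent has the Fitting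
property. -/
theorem exists_fit_of_eig (R : G →* Matrix (Fin n) (Fin n) ℂ) [Fintype G]
    (f : MonoidAlgebra kk G) (hff : f * f = f)
    (hprim : ∀ c : MonoidAlgebra kk G, f * c = c → c * f = c →
      IsNilpotent c ∨ ∃ d : MonoidAlgebra kk G, d * f = d ∧ f * d = d ∧ d * c = f)
    (cf : G → O) (hcf : ∀ g, IsLocalRing.residue O (cf g) = f.coeff g)
    (v : Fin n → ℂ) (hspan : Submodule.span ℂ (Set.range fun g => R g *ᵥ v) = ⊤)
    (hev : (∑ g, (cf g : ℂ) • R g) *ᵥ v = v) :
    ∃ (B : Matrix (Fin n) (Fin n) ℂ) (A : G →* Matrix (Fin n) (Fin n) O), B.det ≠ 0 ∧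
      (∀ g, (A g).map (Subtype.val) = B⁻¹ * R g * B) ∧
      ∀ S : Matrix (Fin n) (Fin n) kk,
        (∀ g, S * redHom O A g = redHom O A g * S) → IsNilpotent S ∨ IsUnit S := by
  classical
  set res := IsLocalRing.residue O with hres
  let φ : O →+* ℂ := O.subtype
  have hφ : ∀ x : O, φ x = (x : ℂ) := fun _ => rfl
  let aR : Matrix (Fin n) (Fin n) ℂ := ∑ g, (cf g : ℂ) • R g
  have hev' : aR *ᵥ v = v := hev
  -- the second integral form
  obtain ⟨B, A, c, τ, hdet, hA, hc, hτ⟩ := exists_int_form O R v hspan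
  refine ⟨B, A, hdet, hA, fun S hS => ?_⟩
  have hBu : IsUnit B.det := isUnit_iff_ne_zero.2 hdet
  have hBinv' : B * B⁻¹ = 1 := Matrix.mul_nonsing_inv _ hBu
  have hBinv : B⁻¹ * B = 1 := Matrix.nonsing_inv_mul _ hBu
  let Φ := MonoidAlgebra.lift (IsLocalRing.ResidueField O) (Matrix (Fin n) (Fin n) (IsLocalRing.ResidueField O)) G (redHom O A)
  let a : Matrix (Fin n) (Fin n) O := ∑ g, cf g • A g
  have hred : a.map res = Φ f := lin_red O A cf f hcf
  have haC2 : a.map φ = B⁻¹ * aR * B := by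
    have h1 : a.map φ = φ.mapMatrix a := rfl
    rw [h1, map_sum]
    simp only [aR, Finset.mul_sum, Finset.sum_mul]
    refine Finset.sum_congr rfl fun g _ => ?_
    have h2 : φ.mapMatrix (cf g • A g) = (cf g : ℂ) • (A g).map φ := by
      ext i j
      simp [hφ]
    rw [h2]
    have h3 : (A g).map φ = B⁻¹ * R g * B := hA g
    rw [h3]
    simp [Matrix.mul_smul, Matrix.smul_mul]
  have hac : a *ᵥ c = c := by
    ext i
    have h1 : ((a *ᵥ c) i : O).1 = (a.map φ *ᵥ (fun l => (c l : ℂ))) i := by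
      simp [Matrix.mulVec, dotProduct, hφ]
    rw [h1, ← hc, haC2, Matrix.mulVec_mulVec, mul_assoc, mul_assoc, hBinv', mul_one,
      ← Matrix.mulVec_mulVec, hev']
    have h2 : (B⁻¹ *ᵥ v) i = (c i : ℂ) := congrFun hc i
    exact h2
  let cb : Fin n → IsLocalRing.ResidueField O := fun i => res (c i)
  have hcb_map : ∀ M' : Matrix (Fin n) (Fin n) O, M'.map res *ᵥ cb = fun i => res ((M' *ᵥ c) i) := by
    intro M'
    ext i
    simp [Matrix.mulVec, dotProduct, cb, map_sum]
  have hΦf_cb : Φ f *ᵥ cb = cb := by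
    rw [← hred, hcb_map, hac]
  have hτb : ∀ j, redHom O A (τ j) *ᵥ cb = Pi.single j 1 := by
    intro j
    rw [redHom_apply, hcb_map, hτ]
    ext i
    by_cases hij : i = j
    · subst hij; simp
    · simp [Pi.single_apply, hij]
  have hSΦ : ∀ b, S * Φ b = Φ b * S := by
    intro b
    simp only [Φ]
    rw [MonoidAlgebra.lift_apply, Finsupp.sum_fintype _ _ (fun _ => by simp)]
    rw [Finset.mul_sum, Finset.sum_mul]
    refine Finset.sum_congr rfl fun g _ => ?_
    rw [Matrix.mul_smul, Matrix.smul_mul, hS g]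
  have hSb : ∀ b u, S *ᵥ (Φ b *ᵥ u) = Φ b *ᵥ (S *ᵥ u) := by
    intro b u
    rw [Matrix.mulVec_mulVec, Matrix.mulVec_mulVec, hSΦ]
  have hSA : ∀ g u, S *ᵥ (redHom O A g *ᵥ u) = redHom O A g *ᵥ (S *ᵥ u) := by
    intro g u
    rw [Matrix.mulVec_mulVec, Matrix.mulVec_mulVec, hS]
  -- `S c̄ = Φ(b) c̄`
  let b : MonoidAlgebra (IsLocalRing.ResidueField O) G :=
    ∑ j, MonoidAlgebra.single (τ j) ((S *ᵥ cb) j)
  have hb : Φ b *ᵥ cb = S *ᵥ cb := by
    simp only [b, map_sum, Φ, MonoidAlgebra.lift_single]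
    rw [Matrix.sum_mulVec]
    simp only [Matrix.smul_mulVec, hτb]
    ext i
    simp [Finset.sum_apply, Pi.single_apply]
  set c₁ := f * b * f with hc₁
  have hΦ_mul : ∀ x y u, Φ (x * y) *ᵥ u = Φ x *ᵥ (Φ y *ᵥ u) := by
    intro x y u
    rw [map_mul, Matrix.mulVec_mulVec]
  have hc₁S : S *ᵥ cb = Φ c₁ *ᵥ cb := by
    rw [hc₁, hΦ_mul, hΦf_cb, hΦ_mul, hb, ← hSb, hΦf_cb]
  have hfc : f * c₁ = c₁ := by
    rw [hc₁, ← mul_assoc, ← mul_assoc, hff]
  have hcf₁ : c₁ * f = c₁ := by
    rw [hc₁, mul_assoc, hff]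
  rcases hprim c₁ hfc hcf₁ with ⟨N, hN⟩ | ⟨d, hdf, hfd, hdc⟩
  · left
    refine ⟨N, ?_⟩
    have hpow : ∀ m : ℕ, (S ^ m) *ᵥ cb = Φ (c₁ ^ m) *ᵥ cb := by
      intro m
      induction m with
      | zero => simp
      | succ m ih =>
        have h1 : (S ^ (m + 1)) *ᵥ cb = S *ᵥ ((S ^ m) *ᵥ cb) := by
          rw [pow_succ', ← Matrix.mulVec_mulVec]
        rw [h1, ih, hSb, hc₁S, ← hΦ_mul, pow_succ]
    have h0 : (S ^ N) *ᵥ cb = 0 := by
      rw [hpow, hN, map_zero, Matrix.zero_mulVec]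
    have hSpow : ∀ m g u, (S ^ m) *ᵥ (redHom O A g *ᵥ u) = redHom O A g *ᵥ ((S ^ m) *ᵥ u) := by
      intro m g u
      rw [Matrix.mulVec_mulVec, Matrix.mulVec_mulVec]
      congr 1
      exact (Commute.pow_left (show Commute S (redHom O A g) from hS g) m).eq
    ext i j
    have h1 : (S ^ N) *ᵥ (Pi.single j 1) = 0 := by
      rw [← hτb j, hSpow, h0, Matrix.mulVec_zero]
    have h2 := congrFun h1 i
    simpa using h2
  · right
    let X : Matrix (Fin n) (Fin n) (IsLocalRing.ResidueField O) :=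
      Matrix.of fun i j => (redHom O A (τ j) *ᵥ (Φ d *ᵥ cb)) i
    have hX : S * X = 1 := by
      ext i j
      have h1 : (S * X) i j = (S *ᵥ (redHom O A (τ j) *ᵥ (Φ d *ᵥ cb))) i := by
        simp [X, Matrix.mul_apply, Matrix.mulVec, dotProduct]
      rw [h1, hSA, hSb, hc₁S, ← hΦ_mul, hdc, hΦf_cb, hτb]
      by_cases hij : i = j
      · subst hij; simp
      · simp [Pi.single_apply, hij, Matrix.one_apply]
    exact (Matrix.isUnit_iff_isUnit_det _).2 (Matrix.isUnit_det_of_right_inverse hX)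



end FitEig

section Free

variable {p : ℕ} [hp : Fact p.Prime]

lemma sum_pow_inv {ζ : ℂ} (hζ : IsPrimitiveRoot ζ p) {i : ℕ} (hi : i ∈ Finset.range p) :
    ∑ a ∈ Finset.range p, ((ζ ^ a)⁻¹) ^ i = if i = 0 then (p : ℂ) else 0 := by
  split_ifs with h0
  · subst h0; simp
  · have h1 : ∀ a, ((ζ ^ a)⁻¹) ^ i = ((ζ⁻¹) ^ i) ^ a := by
      intro a
      rw [← inv_pow, ← pow_mul, ← pow_mul, mul_comm]
    simp only [h1]
    set u := (ζ⁻¹) ^ i with hu
    have hu1 : u ≠ 1 := by
      intro h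
      have hζ0 : ζ ≠ 0 := hζ.ne_zero hp.out.ne_zero
      have h2 : ζ ^ i = 1 := by
        rw [hu, inv_pow, inv_eq_one] at h
        exact h
      have h3 := hζ.dvd_of_pow_eq_one i h2
      have hi' := Finset.mem_range.1 hi
      exact h0 (Nat.eq_zero_of_dvd_of_lt h3 hi')
    have hup : u ^ p = 1 := by
      rw [hu, ← pow_mul, mul_comm, pow_mul, inv_pow, hζ.pow_eq_one, inv_one, one_pow]
    have h2 := mul_geom_sum u p
    rw [hup, sub_self] at h2
    exact (mul_eq_zero.1 h2).resolve_left (sub_ne_zero.2 hu1)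

lemma sum_eigP {X : Matrix (Fin n) (Fin n) ℂ} {ζ : ℂ} (hζ : IsPrimitiveRoot ζ p) :
    ∑ a ∈ Finset.range p, eigP p X (ζ ^ a) = 1 := by
  have hp0 : (p : ℂ) ≠ 0 := by exact_mod_cast hp.out.ne_zero
  unfold eigP
  rw [← Finset.smul_sum, Finset.sum_comm]
  simp_rw [← Finset.sum_smul]
  rw [Finset.sum_congr rfl (fun i hi => by rw [sum_pow_inv hζ hi])]
  have h1 : 0 ∈ Finset.range p := Finset.mem_range.2 hp.out.pos
  rw [Finset.sum_eq_single_of_mem 0 h1]
  · simp [smul_smul, inv_mul_cancel₀ hp0]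
  · intro i _ hi
    simp [hi]

theorem trace_zero_of_free (hOint : ∀ z : ℂ, IsIntegral ℤ z → z ∈ O) (hOp : (p : ℂ) ∈ O.nonunits)
    {ζ : ℂ} (hζ : IsPrimitiveRoot ζ p) (X E : Matrix (Fin n) (Fin n) O) (hX : X ^ p = 1)
    (hE : E * E = E) (hXE : X * E = E * X)
    (hrank : n ≤ p * ((∑ i ∈ Finset.range p, X ^ i).map (IsLocalRing.residue O)).rank) :
    ((X.map (Subtype.val : O → ℂ)) * (E.map (Subtype.val : O → ℂ))).trace = 0 := by
  classical
  haveI := charP_residue O p hOp
  let φ : O →+* ℂ := O.subtype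
  let res := IsLocalRing.residue O
  let Φ : Matrix (Fin n) (Fin n) O →+* Matrix (Fin n) (Fin n) ℂ := φ.mapMatrix
  let Ψ : Matrix (Fin n) (Fin n) O →+* Matrix (Fin n) (Fin n) kk := res.mapMatrix
  have hΦ : ∀ Y, Y.map (Subtype.val : O → ℂ) = Φ Y := fun _ => rfl
  have hΨ : ∀ Y, Y.map res = Ψ Y := fun _ => rfl
  have hp0 : (p : ℂ) ≠ 0 := by exact_mod_cast hp.out.ne_zero
  set Xc := Φ X with hXc
  have hXcp : Xc ^ p = 1 := by rw [hXc, ← map_pow, hX, map_one]
  have hzpow : ∀ a : ℕ, (ζ ^ a) ^ p = 1 := fun a => by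
    rw [← pow_mul, mul_comm, pow_mul, hζ.pow_eq_one, one_pow]
  have hzinv : ∀ a : ℕ, ((ζ ^ a)⁻¹) ^ p = 1 := fun a => by rw [inv_pow, hzpow, inv_one]
  -- the reduction bound
  set Nb := Ψ (∑ i ∈ Finset.range p, X ^ i) with hNb
  have hstep : ∀ (Q : Matrix (Fin n) (Fin n) O) (a : ℕ), (Nb * Ψ Q).rank ≤ (eigP p Xc (ζ ^ a) * Φ Q).rank := by
    intro Q a
    have hw : (ζ ^ a)⁻¹ ∈ O := mem_of_pow_eq_one O hOint hp.out.pos (hzinv a)
    let w' : O := ⟨_, hw⟩
    have hw'p : w' ^ p = 1 := Subtype.ext (by simpa [w'] using hzinv a)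
    have hres : res w' = 1 := res_eq_one O hOp hw'p
    let TO : Matrix (Fin n) (Fin n) O := (∑ i ∈ Finset.range p, w' ^ i • X ^ i) * Q
    have h1 := rank_red_le O TO
    have h2 : TO.map (Subtype.val : O → ℂ) = (p : ℂ) • (eigP p Xc (ζ ^ a) * Φ Q) := by
      rw [hΦ]
      show Φ ((∑ i ∈ Finset.range p, w' ^ i • X ^ i) * Q) = _
      rw [map_mul, map_sum]
      unfold eigP
      rw [Matrix.smul_mul, smul_smul, mul_inv_cancel₀ hp0, one_smul]
      congr 1
      refine Finset.sum_congr rfl fun i _ => ?_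
      have h7 : ∀ (r : O) (M : Matrix (Fin n) (Fin n) O), Φ (r • M) = (r : ℂ) • Φ M := by
        intro r M
        ext a b
        simp [Φ, φ]
      rw [h7, map_pow]
      simp [w', hXc]
    have h3 : TO.map res = Nb * Ψ Q := by
      rw [hΨ]
      show Ψ ((∑ i ∈ Finset.range p, w' ^ i • X ^ i) * Q) = _
      rw [map_mul, hNb]
      congr 1
      rw [map_sum, map_sum]
      refine Finset.sum_congr rfl fun i _ => ?_
      have h7 : ∀ (r : O) (M : Matrix (Fin n) (Fin n) O), Ψ (r • M) = (res r) • Ψ M := by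
        intro r M
        ext a b
        simp [Ψ]
      rw [h7, map_pow, hres, one_pow, one_smul, map_pow]
    rw [h2, rank_smul_ne_zero hp0] at h1
    change _ ≤ _ at h1
    rwa [h3] at h1
  -- the trace computation
  have hsum : ∀ Q : Matrix (Fin n) (Fin n) O, Q * Q = Q → X * Q = Q * X →
      (∑ a ∈ Finset.range p, (eigP p Xc (ζ ^ a) * Φ Q).rank = (Φ Q).rank) ∧
      ∀ a, (((eigP p Xc (ζ ^ a) * Φ Q).rank : ℕ) : ℂ) = (eigP p Xc (ζ ^ a) * Φ Q).trace := by
    intro Q hQ hXQ
    have hQc : Φ Q * Φ Q = Φ Q := by rw [← map_mul, hQ]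
    have hXQc : Xc * Φ Q = Φ Q * Xc := by rw [hXc, ← map_mul, ← map_mul, hXQ]
    have hid : ∀ a, (eigP p Xc (ζ ^ a) * Φ Q) * (eigP p Xc (ζ ^ a) * Φ Q) = eigP p Xc (ζ ^ a) * Φ Q := by
      intro a
      have hc : Φ Q * eigP p Xc (ζ ^ a) = eigP p Xc (ζ ^ a) * Φ Q := comm_eigP hXQc
      calc (eigP p Xc (ζ ^ a) * Φ Q) * (eigP p Xc (ζ ^ a) * Φ Q)
          = eigP p Xc (ζ ^ a) * (Φ Q * eigP p Xc (ζ ^ a)) * Φ Q := by simp only [mul_assoc]
        _ = (eigP p Xc (ζ ^ a) * eigP p Xc (ζ ^ a)) * (Φ Q * Φ Q) := by rw [hc]; simp only [mul_assoc]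
        _ = _ := by rw [eigP_mul_self hXcp (hzpow a), hQc]
    refine ⟨?_, fun a => rank_eq_trace (hid a)⟩
    have h1 : ((∑ a ∈ Finset.range p, (eigP p Xc (ζ ^ a) * Φ Q).rank : ℕ) : ℂ) = ((Φ Q).rank : ℂ) := by
      rw [rank_eq_trace hQc]
      push_cast
      simp_rw [rank_eq_trace (hid _)]
      rw [← Matrix.trace_sum, ← Finset.sum_mul, sum_eigP hζ, one_mul]
    exact_mod_cast h1
  -- bounds
  set r := (Nb * Ψ E).rank with hr
  set r' := (Nb * Ψ (1 - E)).rank with hr'
  have hE' : (1 - E) * (1 - E) = 1 - E := by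
    rw [sub_mul, mul_sub, mul_sub, one_mul, mul_one, one_mul, hE]; abel
  have hXE' : X * (1 - E) = (1 - E) * X := by
    rw [mul_sub, sub_mul, mul_one, one_mul, hXE]
  obtain ⟨h1E, h2E⟩ := hsum E hE hXE
  obtain ⟨h1E', h2E'⟩ := hsum (1 - E) hE' hXE'
  have hpr : p * r ≤ (Φ E).rank := by
    rw [← h1E]
    calc p * r = ∑ a ∈ Finset.range p, r := by simp
      _ ≤ _ := Finset.sum_le_sum fun a _ => hstep E a
  have hpr' : p * r' ≤ (Φ (1 - E)).rank := by
    rw [← h1E']
    calc p * r' = ∑ a ∈ Finset.range p, r' := by simp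
      _ ≤ _ := Finset.sum_le_sum fun a _ => hstep (1 - E) a
  have hEc : Φ E * Φ E = Φ E := by rw [← map_mul, hE]
  have hadd : (Φ (1 - E)).rank + (Φ E).rank = n := by
    have := rank_one_sub_add hEc
    rwa [← map_one Φ, ← map_sub] at this
  have hNr : Nb.rank ≤ r + r' := by
    have h1 : Nb = Nb * Ψ E + Nb * Ψ (1 - E) := by
      rw [← mul_add, ← map_add]
      simp
    have h2 : LinearMap.range Nb.mulVecLin ≤ LinearMap.range (Nb * Ψ E).mulVecLin ⊔ LinearMap.range (Nb * Ψ (1 - E)).mulVecLin := by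
      rintro _ ⟨v, rfl⟩
      have h3 : Nb.mulVecLin v = (Nb * Ψ E).mulVecLin v + (Nb * Ψ (1 - E)).mulVecLin v := by
        simp only [Matrix.mulVecLin_apply]
        rw [← Matrix.add_mulVec, ← h1]
      rw [h3]
      exact Submodule.add_mem_sup (LinearMap.mem_range_self _ _) (LinearMap.mem_range_self _ _)
    have h3 := Submodule.finrank_mono h2
    have h4 := Submodule.finrank_add_le_finrank_add_finrank (LinearMap.range (Nb * Ψ E).mulVecLin) (LinearMap.range (Nb * Ψ (1 - E)).mulVecLin)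
    show finrank _ _ ≤ finrank _ _ + finrank _ _
    omega
  have hrank' : n ≤ p * Nb.rank := hrank
  have hprE : p * r = (Φ E).rank := by
    have h1 : p * Nb.rank ≤ p * (r + r') := Nat.mul_le_mul_left _ hNr
    rw [mul_add] at h1
    omega
  have hm : ∀ a ∈ Finset.range p, (eigP p Xc (ζ ^ a) * Φ E).rank = r := by
    intro a ha
    by_contra hne
    have hlt : r < (eigP p Xc (ζ ^ a) * Φ E).rank := lt_of_le_of_ne (hstep E a) (Ne.symm hne)
    have h1 : ∑ b ∈ Finset.range p, r < ∑ b ∈ Finset.range p, (eigP p Xc (ζ ^ b) * Φ E).rank :=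
      Finset.sum_lt_sum (fun b _ => hstep E b) ⟨a, ha, hlt⟩
    rw [h1E, ← hprE] at h1
    simp at h1
  -- the trace
  have hdec : Xc * Φ E = ∑ a ∈ Finset.range p, (ζ ^ a) • (eigP p Xc (ζ ^ a) * Φ E) := by
    calc Xc * Φ E = Xc * (∑ a ∈ Finset.range p, eigP p Xc (ζ ^ a)) * Φ E := by rw [sum_eigP hζ, mul_one]
      _ = _ := by
        rw [Finset.mul_sum, Finset.sum_mul]
        refine Finset.sum_congr rfl fun a _ => ?_
        rw [mul_eigP hXcp (hzpow a), Matrix.smul_mul]
  rw [hΦ, hΦ, hdec, Matrix.trace_sum]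
  have h1 : ∀ a ∈ Finset.range p, ((ζ ^ a) • (eigP p Xc (ζ ^ a) * Φ E)).trace = (r : ℂ) * ζ ^ a := by
    intro a ha
    rw [Matrix.trace_smul, ← h2E a, hm a ha, smul_eq_mul, mul_comm]
  rw [Finset.sum_congr rfl h1, ← Finset.mul_sum]
  have h2 := mul_geom_sum ζ p
  rw [hζ.pow_eq_one, sub_self] at h2
  have h3 : ζ - 1 ≠ 0 := sub_ne_zero.2 (hζ.ne_one hp.out.one_lt)
  rw [(mul_eq_zero.1 h2).resolve_left h3, mul_zero]

end Free

section Regular

variable [Fintype G] {p : ℕ} [hp : Fact p.Prime]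

/-- Regular representation matrices. -/
noncomputable def regM [DecidableEq G] (e : G ≃ Fin n) (g : G) : Matrix (Fin n) (Fin n) O :=
  Matrix.of fun i j => if e.symm j = e.symm i * g then 1 else 0

lemma regM_mul [DecidableEq G] (e : G ≃ Fin n) (g h : G) : regM O e g * regM O e h = regM O e (g * h) := by
  classical
  ext i j
  rw [Matrix.mul_apply]
  simp only [regM, Matrix.of_apply]
  rw [← Equiv.sum_comp e (fun l => (if e.symm l = e.symm i * g then (1 : O) else 0) * (if e.symm j = e.symm l * h then (1 : O) else 0))]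
  simp only [Equiv.symm_apply_apply]
  simp only [ite_mul, one_mul, zero_mul, mul_ite, mul_one, mul_zero]
  rw [Finset.sum_eq_single (e.symm i * g)]
  · simp [mul_assoc]
  · intro b _ hb
    simp [hb]
  · simp

lemma regM_one [DecidableEq G] (e : G ≃ Fin n) : regM O e (1 : G) = 1 := by
  classical
  ext i j
  simp only [regM, Matrix.of_apply, mul_one, Matrix.one_apply]
  by_cases h : i = j
  · subst h; simp
  · have : ¬ e.symm j = e.symm i := fun h2 => h (e.symm.injective h2.symm)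
    simp [h, this]

lemma regM_pow [DecidableEq G] (e : G ≃ Fin n) (g : G) (l : ℕ) : regM O e g ^ l = regM O e (g ^ l) := by
  induction l with
  | zero => simp [regM_one]
  | succ l ih => rw [pow_succ, ih, regM_mul, pow_succ]

/-- The matrix of an element of the group algebra acting by right convolution. -/
noncomputable def convM (e : G ≃ Fin n) (c : G → O) : Matrix (Fin n) (Fin n) O :=
  Matrix.of fun i j => c (e.symm i * (e.symm j)⁻¹)

lemma convM_mul [DecidableEq G] (e : G ≃ Fin n) {c : G → O} (hc : ∀ g, ∑ s, c (g * s⁻¹) * c s = c g) :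
    convM O e c * convM O e c = convM O e c := by
  ext i j
  rw [Matrix.mul_apply]
  simp only [convM, Matrix.of_apply]
  rw [← hc (e.symm i * (e.symm j)⁻¹)]
  have key1 : ∑ l : Fin n, c (e.symm i * (e.symm l)⁻¹) * c (e.symm l * (e.symm j)⁻¹) =
      ∑ l : G, c (e.symm i * l⁻¹) * c (l * (e.symm j)⁻¹) :=
    Equiv.sum_comp e.symm (fun l : G => c (e.symm i * l⁻¹) * c (l * (e.symm j)⁻¹))
  have key : ∑ s : G, c (e.symm i * (e.symm j)⁻¹ * s⁻¹) * c s =
      ∑ l : G, c (e.symm i * l⁻¹) * c (l * (e.symm j)⁻¹) := by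
    refine Fintype.sum_equiv (Equiv.mulRight (e.symm j)) _ _ fun s => ?_
    simp [mul_assoc]
  rw [key1, key]

lemma regM_mul_convM [DecidableEq G] (e : G ≃ Fin n) (c : G → O) (g : G) (i j : Fin n) :
    (regM O e g * convM O e c) i j = c (e.symm i * g * (e.symm j)⁻¹) := by
  rw [Matrix.mul_apply]
  simp only [regM, convM, Matrix.of_apply]
  rw [← Equiv.sum_comp e (fun l => (if e.symm l = e.symm i * g then (1 : O) else 0) * c (e.symm l * (e.symm j)⁻¹))]
  simp only [Equiv.symm_apply_apply, ite_mul, one_mul, zero_mul]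
  rw [Finset.sum_eq_single (e.symm i * g)]
  · simp
  · intro b _ hb
    simp [hb]
  · simp

lemma convM_mul_regM [DecidableEq G] (e : G ≃ Fin n) (c : G → O) (g : G) (i j : Fin n) :
    (convM O e c * regM O e g) i j = c (e.symm i * g * (e.symm j)⁻¹) := by
  rw [Matrix.mul_apply]
  simp only [regM, convM, Matrix.of_apply]
  rw [← Equiv.sum_comp e (fun l => c (e.symm i * (e.symm l)⁻¹) * (if e.symm j = e.symm l * g then (1 : O) else 0))]
  simp only [Equiv.symm_apply_apply, mul_ite, mul_one, mul_zero]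
  rw [Finset.sum_eq_single (e.symm j * g⁻¹)]
  · simp [mul_assoc]
  · intro b _ hb
    have : ¬ e.symm j = b * g := fun h => hb (by rw [h]; simp)
    simp [this]
  · simp

lemma rank_regM_sum [DecidableEq G] (hOp : (p : ℂ) ∈ O.nonunits) (e : G ≃ Fin n) {x : G} (hx : orderOf x = p) :
    n ≤ p * ((∑ i ∈ Finset.range p, regM O e x ^ i).map (IsLocalRing.residue O)).rank := by
  classical
  let H : Subgroup G := Subgroup.zpowers x
  letI : Fintype (G ⧸ H) := Fintype.ofFinite _
  let s : G ⧸ H → G := Quotient.out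
  have hs : ∀ q : G ⧸ H, ((s q : G) : G ⧸ H) = q := fun q => QuotientGroup.out_eq' q
  set Nb := (∑ i ∈ Finset.range p, regM O e x ^ i).map (IsLocalRing.residue O) with hNb
  have hsub : Nb.submatrix (fun q => e (s q)) (fun q => e (s q)) = 1 := by
    ext q₀ q
    simp only [Matrix.submatrix_apply, hNb, Matrix.map_apply, Matrix.sum_apply, regM_pow]
    rw [map_sum]
    simp only [regM, Matrix.of_apply, Equiv.symm_apply_apply, Matrix.one_apply]
    by_cases hq : q₀ = q
    · subst hq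
      rw [Finset.sum_eq_single_of_mem 0 (Finset.mem_range.2 hp.out.pos)]
      · simp
      · intro l hl hl0
        have h1 : ¬ s q₀ = s q₀ * x ^ l := by
          intro h
          have h2 : x ^ l = 1 := by simpa using h.symm
          have h3 := orderOf_dvd_of_pow_eq_one h2
          rw [hx] at h3
          exact hl0 (Nat.eq_zero_of_dvd_of_lt h3 (Finset.mem_range.1 hl))
        simp [h1]
    · rw [Finset.sum_eq_zero]
      · simp [hq]
      · intro l _
        have h1 : ¬ s q = s q₀ * x ^ l := by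
          intro h
          apply hq
          rw [← hs q₀, ← hs q, QuotientGroup.eq]
          rw [h]
          have : (s q₀)⁻¹ * (s q₀ * x ^ l) = x ^ l := by group
          rw [this]
          exact Subgroup.npow_mem_zpowers x l
        simp [h1]
  have h1 : Fintype.card (G ⧸ H) ≤ Nb.rank := by
    have h2 := Matrix.rank_submatrix_le Nb (fun q => e (s q)) (fun q => e (s q))
    rw [hsub, Matrix.rank_one] at h2
    exact h2
  have h2 : n = p * Fintype.card (G ⧸ H) := by
    have h3 := Subgroup.card_mul_index H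
    have h4 : Nat.card H = p := by
      show Nat.card (Subgroup.zpowers x) = p
      rw [Nat.card_zpowers, hx]
    have h5 : Nat.card G = n := by
      rw [Nat.card_congr e]; simp
    rw [h4, h5] at h3
    rw [← h3]
    congr 1
    rw [Subgroup.index, Nat.card_eq_fintype_card]
  calc n = p * Fintype.card (G ⧸ H) := h2
    _ ≤ _ := Nat.mul_le_mul_left _ h1

/-- A lift of an idempotent has vanishing class sums at elements of order `p`. -/
theorem sum_conj_eq_zero (hOint : ∀ z : ℂ, IsIntegral ℤ z → z ∈ O) (hOp : (p : ℂ) ∈ O.nonunits)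
    (c : G → O) (hc : ∀ g, ∑ s, c (g * s⁻¹) * c s = c g) {x : G} (hx : orderOf x = p) :
    ∑ g, ((c (g * x * g⁻¹) : O) : ℂ) = 0 := by
  classical
  let e := Fintype.equivFin G
  have hζ : IsPrimitiveRoot (Complex.exp (2 * Real.pi * Complex.I / p)) p :=
    Complex.isPrimitiveRoot_exp p hp.out.ne_zero
  have hXp : regM O e x ^ p = 1 := by
    rw [regM_pow, ← hx, pow_orderOf_eq_one, regM_one]
  have hcomm : regM O e x * convM O e c = convM O e c * regM O e x := by
    ext i j
    rw [regM_mul_convM, convM_mul_regM]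
  have h := trace_zero_of_free O hOint hOp hζ (regM O e x) (convM O e c) hXp (convM_mul O e hc) hcomm
    (rank_regM_sum O hOp e hx)
  have h1 : ((regM O e x).map (Subtype.val : O → ℂ)) * ((convM O e c).map (Subtype.val : O → ℂ)) =
      (regM O e x * convM O e c).map (Subtype.val : O → ℂ) := by
    exact (Matrix.map_mul (f := O.subtype) (L := regM O e x) (M := convM O e c)).symm
  rw [h1] at h
  rw [← h, Matrix.trace]
  rw [← Equiv.sum_comp e.symm]
  refine Finset.sum_congr rfl fun i _ => ?_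
  simp only [Matrix.diag_apply, Matrix.map_apply, regM_mul_convM]

end Regular


end Cfsg.Agent.Lib.DefectOne.ExcFit
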