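import Mathlib
import Cfsg.Agent.Lib.DefectOne.ExcFit
import Cfsg.Agent.Lib.DefectOne.SimpleDim

/-!
# Fitting forms for the sum of exceptional characters
-/

set_option autoImplicit false
set_option linter.unusedSectionVars false

namespace Cfsg.Agent.Lib.DefectOne.ExcFit

open Module Matrix Cfsg Cfsg.Agent.Lib.DefectOne
open scoped ComplexConjugate

section Schur

variable {G : Type*} [Group G] {d : ℕ}

/-- Schur's lemma for matrix representations with all vectors cyclic. -/
lemma schur_matrix (R : G →* Matrix (Fin d) (Fin d) ℂ)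
    (hirr : ∀ v : Fin d → ℂ, v ≠ 0 → Submodule.span ℂ (Set.range fun g => R g *ᵥ v) = ⊤) (hd : 0 < d)
    (C : Matrix (Fin d) (Fin d) ℂ) (hC : ∀ g, C * R g = R g * C) :
    C = (C.trace / d) • 1 := by
  classical
  haveI : Nonempty (Fin d) := ⟨⟨0, hd⟩⟩
  obtain ⟨lam, hlam⟩ := Module.End.exists_eigenvalue (Matrix.toLin' C)
  obtain ⟨u, hu⟩ := hlam.exists_hasEigenvector
  have hu' : C *ᵥ u = lam • u := by
    have := hu.apply_eq_smul
    rwa [Matrix.toLin'_apply] at this
  have hall : ∀ y : Fin d → ℂ, C *ᵥ y = lam • y := by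
    intro y
    have hy : y ∈ Submodule.span ℂ (Set.range fun g => R g *ᵥ u) := by
      rw [hirr u hu.2]; trivial
    induction hy using Submodule.span_induction with
    | mem y hy =>
      obtain ⟨g, rfl⟩ := hy
      simp only
      rw [Matrix.mulVec_mulVec, hC, ← Matrix.mulVec_mulVec, hu', Matrix.mulVec_smul]
    | zero => simp
    | add a b _ _ ha hb => rw [Matrix.mulVec_add, ha, hb, smul_add]
    | smul c a _ ha => rw [Matrix.mulVec_smul, ha, smul_comm]
  have h1 : C = lam • 1 := by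
    ext i j
    have h2 := congrFun (hall (Pi.single j 1)) i
    rw [Matrix.mulVec_single_one] at h2
    simp only [Matrix.col_apply, Pi.smul_apply, smul_eq_mul] at h2
    rw [h2]
    simp [Matrix.one_apply, Pi.single_apply]
  have hd0 : (d : ℂ) ≠ 0 := by exact_mod_cast hd.ne'
  have h2 : C.trace = lam * d := by
    rw [h1, Matrix.trace_smul, Matrix.trace_one]
    simp
  conv_lhs => rw [h1]
  congr 1
  rw [h2]
  field_simp

variable [Fintype G]

/-- Idempotent laws in a representation. -/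
lemma sum_smul_mul_self {R : G →* Matrix (Fin d) (Fin d) ℂ} (c : G → ℂ)
    (hc : ∀ g, ∑ s, c (g * s⁻¹) * c s = c g) :
    (∑ g, c g • R g) * (∑ g, c g • R g) = ∑ g, c g • R g := by
  rw [Finset.sum_mul]
  simp_rw [Finset.mul_sum, Matrix.smul_mul, Matrix.mul_smul, smul_smul, ← map_mul]
  have h1 : ∀ a, ∑ b, (c a * c b) • R (a * b) = ∑ g, (c (g * (a⁻¹ * g)⁻¹) * c (a⁻¹ * g)) • R g := by
    intro a
    refine Fintype.sum_equiv (Equiv.mulLeft a) _ _ fun b => ?_
    simp
  simp_rw [h1]
  rw [Finset.sum_comm]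
  refine Finset.sum_congr rfl fun g _ => ?_
  rw [← Finset.sum_smul, ← hc g]
  congr 1
  refine Fintype.sum_equiv ((Equiv.inv G).trans (Equiv.mulRight g)) _ _ fun s => ?_
  simp

end Schur

section Main

variable (O : ValuationSubring ℂ) {G : Type*} [Group G] [Fintype G] {p : ℕ} [hp : Fact p.Prime]

local notation "kk" => IsLocalRing.ResidueField O

/-- Block diagonal matrices acting on a vector. -/
lemma bd_mulVec {ι : Type*} [Fintype ι] [DecidableEq ι] {d : ℕ} (M : ι → Matrix (Fin d) (Fin d) ℂ)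
    (w : Fin d × ι → ℂ) (a : Fin d) (i : ι) :
    (Matrix.blockDiagonal M *ᵥ w) (a, i) = (M i *ᵥ fun b => w (b, i)) a := by
  simp only [Matrix.mulVec, dotProduct, Fintype.sum_prod_type, Matrix.blockDiagonal_apply]
  rw [Finset.sum_comm]
  rw [Finset.sum_eq_single i]
  · simp
  · intro j _ hj
    simp [Ne.symm hj]
  · simp

/-- The vector with one nonzero block. -/
def injB {ι : Type*} [DecidableEq ι] {d : ℕ} (i : ι) : (Fin d → ℂ) →ₗ[ℂ] (Fin d × ι → ℂ) where
  toFun u := fun q => if q.2 = i then u q.1 else 0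
  map_add' u v := by
    ext q
    by_cases h : q.2 = i <;> simp [h]
  map_smul' c u := by
    ext q
    by_cases h : q.2 = i <;> simp [h]

lemma bd_injB {ι : Type*} [Fintype ι] [DecidableEq ι] {d : ℕ} (M : ι → Matrix (Fin d) (Fin d) ℂ)
    (i : ι) (u : Fin d → ℂ) : Matrix.blockDiagonal M *ᵥ injB i u = injB i (M i *ᵥ u) := by
  ext ⟨a, j⟩
  rw [bd_mulVec]
  by_cases h : j = i
  · subst h
    simp [injB]
  · simp [injB, h, Matrix.mulVec, dotProduct]

/-- **Spanning** for a sum of pairwise different irreducible matrix representations. -/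
lemma span_sum {ι : Type*} [Fintype ι] [DecidableEq ι] {d : ℕ} (hd : 0 < d) (θ : ι → G → ℂ)
    (hθ : ∀ i, IsIrrCharacter G (θ i)) (hinj : Function.Injective θ)
    (R : ι → G →* Matrix (Fin d) (Fin d) ℂ) (htr : ∀ i g, (R i g).trace = θ i g)
    (hirr : ∀ i, ∀ v : Fin d → ℂ, v ≠ 0 → Submodule.span ℂ (Set.range fun g => R i g *ᵥ v) = ⊤)
    (v : ι → Fin d → ℂ) (hv : ∀ i, v i ≠ 0) :
    Submodule.span ℂ (Set.range fun g => Matrix.blockDiagonal (fun i => R i g) *ᵥ
      (fun q : Fin d × ι => v q.2 q.1)) = ⊤ := by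
  classical
  set w : Fin d × ι → ℂ := fun q => v q.2 q.1 with hw
  set U := Submodule.span ℂ (Set.range fun g => Matrix.blockDiagonal (fun i => R i g) *ᵥ w) with hU
  have hG0 : (Nat.card G : ℂ) ≠ 0 := by exact_mod_cast Nat.card_pos.ne'
  have hd0 : (d : ℂ) ≠ 0 := by exact_mod_cast hd.ne'
  -- stability
  have hstab : ∀ h : G, ∀ y ∈ U, Matrix.blockDiagonal (fun i => R i h) *ᵥ y ∈ U := by
    intro h y hy
    induction hy using Submodule.span_induction with
    | mem y hy =>
      obtain ⟨g, rfl⟩ := hy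
      refine Submodule.subset_span ⟨h * g, ?_⟩
      simp only
      rw [Matrix.mulVec_mulVec, ← Matrix.blockDiagonal_mul]
      simp only [map_mul]
    | zero => simp
    | add a b _ _ ha hb => rw [Matrix.mulVec_add]; exact add_mem ha hb
    | smul c a _ ha => rw [Matrix.mulVec_smul]; exact Submodule.smul_mem _ _ ha
  -- Schur
  have hD : ∀ i j, (∑ g, conj (θ i g) • R j g) = if i = j then ((Nat.card G : ℂ) / d) • (1 : Matrix (Fin d) (Fin d) ℂ) else 0 := by
    intro i j
    have hcl : IsClassFunction G (θ i) := Cfsg.Agent.Lib.Char.Basic.isClassFunction_of_isCharacter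
      (Cfsg.Agent.Lib.Char.Basic.isCharacter_of_isIrrCharacter (hθ i))
    have hcomm : ∀ h, (∑ g, conj (θ i g) • R j g) * R j h = R j h * (∑ g, conj (θ i g) • R j g) := by
      intro h
      rw [Finset.sum_mul, Finset.mul_sum]
      refine (Fintype.sum_equiv (MulAut.conj h).toEquiv _ _ fun g => ?_).symm
      simp only [MulEquiv.toEquiv_eq_coe, EquivLike.coe_coe, MulAut.conj_apply, hcl g h]
      rw [Matrix.mul_smul, Matrix.smul_mul, ← map_mul, ← map_mul]
      simp [mul_assoc]
    have h1 := schur_matrix (R j) (hirr j) hd _ hcomm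
    have htrace : (∑ g, conj (θ i g) • R j g).trace = (Nat.card G : ℂ) * (if i = j then 1 else 0) := by
      have h2 := Cfsg.Agent.Lib.Char.OrthoBasic.classInner_irr_irr (hθ j) (hθ i)
      unfold classInner at h2
      rw [Matrix.trace_sum]
      simp only [Matrix.trace_smul, htr, smul_eq_mul]
      have h3 : ∑ g, conj (θ i g) * θ j g = ∑ g, θ j g * conj (θ i g) :=
        Finset.sum_congr rfl fun g _ => mul_comm _ _
      rw [h3]
      have h4 : ((θ j = θ i) ↔ (i = j)) := ⟨fun h => (hinj h).symm, fun h => by rw [h]⟩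
      simp only [h4] at h2
      rw [← h2]
      field_simp
    rw [h1, htrace]
    split_ifs with h
    · simp
    · simp
  -- single blocks of `w`
  have hblock : ∀ i, injB i (v i) ∈ U := by
    intro i
    have h1 : (∑ g, conj (θ i g) • (Matrix.blockDiagonal (fun j => R j g) *ᵥ w)) =
        injB i (((Nat.card G : ℂ) / d) • v i) := by
      ext ⟨a, j⟩
      simp only [Finset.sum_apply, Pi.smul_apply, smul_eq_mul, bd_mulVec]
      have h2 : (fun b => w (b, j)) = v j := rfl
      simp only [h2]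
      have h3 : ∑ g, conj (θ i g) * (R j g *ᵥ v j) a = ((∑ g, conj (θ i g) • R j g) *ᵥ v j) a := by
        rw [Matrix.sum_mulVec, Finset.sum_apply]
        refine Finset.sum_congr rfl fun g _ => ?_
        rw [Matrix.smul_mulVec, Pi.smul_apply, smul_eq_mul]
      rw [h3, hD]
      by_cases h : i = j
      · subst h
        simp [injB, Matrix.smul_mulVec]
      · simp [injB, h, Ne.symm h]
    have h2 : injB i (((Nat.card G : ℂ) / d) • v i) ∈ U := by
      rw [← h1]
      exact Submodule.sum_mem _ fun g _ => Submodule.smul_mem _ _ (Submodule.subset_span ⟨g, rfl⟩)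
    rw [map_smul] at h2
    have h3 : ((Nat.card G : ℂ) / d) ≠ 0 := div_ne_zero hG0 hd0
    exact (Submodule.smul_mem_iff _ h3).1 h2
  have hblocks : ∀ i (u : Fin d → ℂ), injB i u ∈ U := by
    intro i u
    have hu : u ∈ Submodule.span ℂ (Set.range fun g => R i g *ᵥ v i) := by
      rw [hirr i _ (hv i)]; trivial
    have h1 : (Submodule.span ℂ (Set.range fun g => R i g *ᵥ v i)).map (injB i) ≤ U := by
      rw [Submodule.map_span, Submodule.span_le]
      rintro _ ⟨_, ⟨g, rfl⟩, rfl⟩
      have h2 := hstab g _ (hblock i)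
      rw [bd_injB] at h2
      exact h2
    exact h1 (Submodule.mem_map_of_mem hu)
  rw [eq_top_iff]
  intro y _
  have hy : y = ∑ i, injB i (fun a => y (a, i)) := by
    ext ⟨a, j⟩
    rw [Finset.sum_apply]
    rw [Finset.sum_eq_single j]
    · simp [injB]
    · intro i _ hi
      simp [injB, Ne.symm hi]
    · simp
  rw [hy]
  exact Submodule.sum_mem _ fun i _ => hblocks i _

lemma eq_zero_of_trace_eq_zero {n : ℕ} {Q : Matrix (Fin n) (Fin n) ℂ} (hQ : Q * Q = Q) (h : Q.trace = 0) : Q = 0 := by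
  have h1 := rank_eq_trace hQ
  rw [h] at h1
  have h2 : Q.rank = 0 := by exact_mod_cast h1
  have h3 : LinearMap.range Q.mulVecLin = ⊥ := Submodule.finrank_eq_zero.1 h2
  ext i j
  have h4 : Q.mulVecLin (Pi.single j 1) = 0 := by
    have : Q.mulVecLin (Pi.single j 1) ∈ LinearMap.range Q.mulVecLin := LinearMap.mem_range_self _ _
    rw [h3] at this
    exact this
  have h5 := congrFun h4 i
  simpa [Matrix.mulVecLin_apply] using h5

/-- **The Fitting form of the sum of the exceptional characters.** -/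
theorem exists_fit_sum (hOint : ∀ z : ℂ, IsIntegral ℤ z → z ∈ O) (hOp : (p : ℂ) ∈ O.nonunits)
    {ι : Type*} [Fintype ι] [DecidableEq ι] [Nonempty ι] (θ : ι → G → ℂ)
    (hθ : ∀ i, IsIrrCharacter G (θ i)) (hinj : Function.Injective θ)
    (hreg : ∀ i j g, ¬ p ∣ orderOf g → θ i g = θ j g)
    (hsing : ∀ g : G, p ∣ orderOf g → orderOf g = p) {d : ℕ} (hd : 0 < d) (hdeg : ∀ i, θ i 1 = d) :
    ∃ A : G →* Matrix (Fin (d * Fintype.card ι)) (Fin (d * Fintype.card ι)) O,
      (∀ g, ((A g).map (Subtype.val : O → ℂ)).trace = ∑ i, θ i g) ∧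
      ∀ S : Matrix (Fin (d * Fintype.card ι)) (Fin (d * Fintype.card ι)) kk,
        (∀ g, S * redHom O A g = redHom O A g * S) → IsNilpotent S ∨ IsUnit S := by
  classical
  haveI : Nonempty (Fin d) := ⟨⟨0, hd⟩⟩
  have hex : ∀ i, ∃ R : G →* Matrix (Fin d) (Fin d) ℂ, (∀ g, (R g).trace = θ i g) ∧
      ∀ v : Fin d → ℂ, v ≠ 0 → Submodule.span ℂ (Set.range fun g => R g *ᵥ v) = ⊤ := by
    intro i
    obtain ⟨d', R, hpos, h1, htr, hirr⟩ := exists_irr_matrix (hθ i)
    have h2 : d' = d := by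
      have := hdeg i
      rw [h1] at this
      exact_mod_cast this
    subst h2
    exact ⟨R, htr, hirr⟩
  choose R htr hirr using hex
  let i₀ : ι := Classical.arbitrary ι
  let v₀ : Fin d → ℂ := Pi.single ⟨0, hd⟩ 1
  have hv₀ : v₀ ≠ 0 := by
    intro h
    have := congrFun h ⟨0, hd⟩
    simp [v₀] at this
  obtain ⟨B₀, A₀, -, -, hdet₀, hA₀, -, -⟩ := exists_int_form O (R i₀) v₀ (hirr i₀ v₀ hv₀)
  let Φ₀ := MonoidAlgebra.lift kk (Matrix (Fin d) (Fin d) kk) G (redHom O A₀)
  obtain ⟨f, hff, hΦf', hprim⟩ := exists_primitive kk Φ₀.toRingHom one_ne_zero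
  have hΦf : Φ₀ f ≠ 0 := hΦf'
  obtain ⟨e, hee, hres⟩ := IdemLift.exists_idem_lift O f hff
  let c : G → O := fun g => e.coeff g
  have hlaw : ∀ g, ∑ s, c (g * s⁻¹) * c s = c g := fun g => IdemLift.coeff_law hee g
  let c' : G → ℂ := fun g => (c g : ℂ)
  have hlaw' : ∀ g, ∑ s, c' (g * s⁻¹) * c' s = c' g := by
    intro g
    have := congrArg (Subtype.val : O → ℂ) (hlaw g)
    simpa [c'] using this
  let Q : ι → Matrix (Fin d) (Fin d) ℂ := fun i => ∑ g, c' g • R i g
  have hQQ : ∀ i, Q i * Q i = Q i := fun i => sum_smul_mul_self c' hlaw'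
  have hQtr : ∀ i, (Q i).trace = ∑ g, c' g * θ i g := by
    intro i
    simp only [Q, Matrix.trace_sum, Matrix.trace_smul, htr, smul_eq_mul]
  -- equality of the traces
  have hcl : ∀ i, IsClassFunction G (θ i) := fun i => Cfsg.Agent.Lib.Char.Basic.isClassFunction_of_isCharacter
      (Cfsg.Agent.Lib.Char.Basic.isCharacter_of_isIrrCharacter (hθ i))
  have hG0 : (Nat.card G : ℂ) ≠ 0 := by exact_mod_cast Nat.card_pos.ne'
  have hQeq : ∀ i j, (Q i).trace = (Q j).trace := by
    intro i j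
    rw [hQtr, hQtr, ← sub_eq_zero, ← Finset.sum_sub_distrib]
    simp only [← mul_sub]
    have h1 : ∀ u : G, ∑ g, c' (u * g * u⁻¹) * (θ i g - θ j g) = ∑ g, c' g * (θ i g - θ j g) := by
      intro u
      refine Fintype.sum_equiv (MulAut.conj u).toEquiv _ _ fun g => ?_
      simp only [MulEquiv.toEquiv_eq_coe, EquivLike.coe_coe, MulAut.conj_apply]
      rw [hcl i g u, hcl j g u]
    have h2 : (Nat.card G : ℂ) * ∑ g, c' g * (θ i g - θ j g) = 0 := by
      have h3 : (Nat.card G : ℂ) * ∑ g, c' g * (θ i g - θ j g) =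
          ∑ u : G, ∑ g, c' (u * g * u⁻¹) * (θ i g - θ j g) := by
        simp only [h1, Finset.sum_const, Finset.card_univ, nsmul_eq_mul, Nat.card_eq_fintype_card]
      rw [h3, Finset.sum_comm]
      refine Finset.sum_eq_zero fun g _ => ?_
      by_cases hg : p ∣ orderOf g
      · rw [← Finset.sum_mul]
        have h4 := sum_conj_eq_zero O hOint hOp c hlaw (hsing g hg)
        have h5 : ∑ u, c' (u * g * u⁻¹) = ∑ u, ((c (u * g * u⁻¹) : O) : ℂ) := rfl
        rw [h5, h4, zero_mul]
      · have : θ i g - θ j g = 0 := sub_eq_zero.2 (hreg i j g hg)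
        simp [this]
    exact (mul_eq_zero.1 h2).resolve_left hG0
  -- `Q i₀ ≠ 0`
  have hQ0 : Q i₀ ≠ 0 := by
    intro h0
    apply hΦf
    have h1 : (∑ g, c g • A₀ g) = 0 := by
      ext a b
      have h2 : (∑ g, c g • A₀ g).map (Subtype.val : O → ℂ) = B₀⁻¹ * Q i₀ * B₀ := by
        have h3 : (∑ g, c g • A₀ g).map (Subtype.val : O → ℂ) = O.subtype.mapMatrix (∑ g, c g • A₀ g) := rfl
        rw [h3, map_sum]
        simp only [Q, Finset.mul_sum, Finset.sum_mul]
        refine Finset.sum_congr rfl fun g _ => ?_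
        have h4 : O.subtype.mapMatrix (c g • A₀ g) = c' g • (A₀ g).map (Subtype.val : O → ℂ) := by
          ext i j
          simp [c']
        rw [h4, hA₀ g]
        simp [Matrix.mul_smul, Matrix.smul_mul]
      have h3 := congrFun (congrFun h2 a) b
      rw [h0] at h3
      simpa using h3
    have h2 := lin_red O A₀ c f hres
    rw [h1] at h2
    have h3 : Φ₀ f = 0 := by
      show MonoidAlgebra.lift kk (Matrix (Fin d) (Fin d) kk) G (redHom O A₀) f = 0
      rw [← h2]
      ext a b
      simp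
    exact h3
  have htr0 : (Q i₀).trace ≠ 0 := fun h => hQ0 (eq_zero_of_trace_eq_zero (hQQ i₀) h)
  have hQne : ∀ i, Q i ≠ 0 := by
    intro i h0
    apply htr0
    rw [hQeq i₀ i, h0, Matrix.trace_zero]
  have hvex : ∀ i, ∃ v : Fin d → ℂ, v ≠ 0 ∧ Q i *ᵥ v = v := by
    intro i
    have : ∃ u, Q i *ᵥ u ≠ 0 := by
      by_contra hcon
      push Not at hcon
      apply hQne i
      ext a b
      have := congrFun (hcon (Pi.single b 1)) a
      simpa using this
    obtain ⟨u, hu⟩ := this
    refine ⟨_, hu, ?_⟩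
    rw [Matrix.mulVec_mulVec, hQQ]
  choose v hv0 hQv using hvex
  -- the sum representation
  set n := d * Fintype.card ι with hn
  have hcard : Fintype.card (Fin d × ι) = n := by simp [hn]
  let e₁ : Fin d × ι ≃ Fin n := Fintype.equivFinOfCardEq hcard
  let BD : G → Matrix (Fin d × ι) (Fin d × ι) ℂ := fun g => Matrix.blockDiagonal fun i => R i g
  have hBDmul : ∀ g h, BD (g * h) = BD g * BD h := by
    intro g h
    simp only [BD, map_mul]
    exact Matrix.blockDiagonal_mul _ _
  have hBDone : BD 1 = 1 := by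
    simp only [BD, map_one]
    exact Matrix.blockDiagonal_one
  let R' : G →* Matrix (Fin n) (Fin n) ℂ :=
    { toFun := fun g => (BD g).submatrix e₁.symm e₁.symm
      map_one' := by
        rw [hBDone]
        exact Matrix.submatrix_one_equiv _
      map_mul' := fun g h => by
        rw [hBDmul]
        exact (Matrix.submatrix_mul_equiv _ _ _ _ _).symm }
  have hR' : ∀ g, R' g = (BD g).submatrix e₁.symm e₁.symm := fun _ => rfl
  let w : Fin d × ι → ℂ := fun q => v q.2 q.1
  let v' : Fin n → ℂ := w ∘ e₁.symm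
  have hR'v : ∀ g, R' g *ᵥ v' = (BD g *ᵥ w) ∘ e₁.symm := by
    intro g
    rw [hR', Matrix.submatrix_mulVec_equiv]
    congr 2
    funext q
    simp [v']
  have hspan : Submodule.span ℂ (Set.range fun g => R' g *ᵥ v') = ⊤ := by
    have h1 := span_sum hd θ hθ hinj R htr hirr v hv0
    have h2 : (Set.range fun g => R' g *ᵥ v') = (LinearMap.funLeft ℂ ℂ e₁.symm) '' (Set.range fun g => BD g *ᵥ w) := by
      ext y
      constructor
      · rintro ⟨g, rfl⟩
        exact ⟨_, ⟨g, rfl⟩, (hR'v g).symm⟩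
      · rintro ⟨_, ⟨g, rfl⟩, rfl⟩
        exact ⟨g, hR'v g⟩
    rw [h2, ← Submodule.map_span]
    have h3 : Submodule.span ℂ (Set.range fun g => BD g *ᵥ w) = ⊤ := h1
    rw [h3, Submodule.map_top, LinearMap.range_eq_top]
    exact LinearMap.funLeft_surjective_of_injective _ _ _ e₁.symm.injective
  have hev : (∑ g, (c g : ℂ) • R' g) *ᵥ v' = v' := by
    ext m
    rw [Matrix.sum_mulVec, Finset.sum_apply]
    obtain ⟨⟨a, i⟩, rfl⟩ := e₁.surjective m
    have h1 : ∀ g, (((c g : ℂ) • R' g) *ᵥ v') (e₁ (a, i)) = c' g * (R i g *ᵥ v i) a := by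
      intro g
      rw [Matrix.smul_mulVec, hR'v, Pi.smul_apply, Function.comp_apply, Equiv.symm_apply_apply, bd_mulVec]
      rfl
    simp only [h1]
    have h2 : ∑ g, c' g * (R i g *ᵥ v i) a = (Q i *ᵥ v i) a := by
      simp only [Q]
      rw [Matrix.sum_mulVec, Finset.sum_apply]
      refine Finset.sum_congr rfl fun g _ => ?_
      rw [Matrix.smul_mulVec, Pi.smul_apply, smul_eq_mul]
    rw [h2, hQv]
    simp [v', w]
  obtain ⟨B, A, hdet, hA, hFit⟩ := exists_fit_of_eig O R' f hff hprim c hres v' hspan hev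
  refine ⟨A, fun g => ?_, hFit⟩
  rw [hA g]
  have h1 : (B⁻¹ * R' g * B).trace = (R' g).trace := by
    rw [Matrix.trace_mul_comm, ← mul_assoc, Matrix.mul_nonsing_inv B (isUnit_iff_ne_zero.2 hdet), one_mul]
  rw [h1, hR']
  have h2 : ((BD g).submatrix e₁.symm e₁.symm).trace = (BD g).trace := by
    simp only [Matrix.trace, Matrix.diag_apply, Matrix.submatrix_apply]
    exact Equiv.sum_comp e₁.symm (fun q => BD g q q)
  rw [h2]
  simp only [BD, Matrix.trace_blockDiagonal, htr]

end Main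

end Cfsg.Agent.Lib.DefectOne.ExcFit
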