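import Mathlib
import Cfsg.Agent.Lib.PSL2.Dickson
import Cfsg.Agent.S0265

/-!
# Subgroups of index `p` in `PSL(2, p)`
-/

set_option autoImplicit false
set_option linter.unusedSectionVars false

namespace Cfsg.Agent.Lib.DefectOne.FinalIndex

open Subgroup Cfsg.Agent.Lib.PSL2.Basic
open scoped MatrixGroups

lemma card_alt4 : Nat.card (alternatingGroup (Fin 4)) = 12 := by
  have h := two_mul_nat_card_alternatingGroup (α := Fin 4)
  have h2 : Nat.card (Equiv.Perm (Fin 4)) = 24 := by
    rw [Nat.card_perm, Nat.card_eq_fintype_card, Fintype.card_fin]; rfl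
  omega

lemma card_perm4 : Nat.card (Equiv.Perm (Fin 4)) = 24 := by
  rw [Nat.card_perm, Nat.card_eq_fintype_card, Fintype.card_fin]; rfl

lemma card_alt5 : Nat.card (alternatingGroup (Fin 5)) = 60 := by
  have h := two_mul_nat_card_alternatingGroup (α := Fin 5)
  have h2 : Nat.card (Equiv.Perm (Fin 5)) = 120 := by
    rw [Nat.card_perm, Nat.card_eq_fintype_card, Fintype.card_fin]; rfl
  omega

theorem psl_index_p {F : Type} [Field F] [Fintype F] {p : ℕ} [hp : Fact p.Prime]
    (hcardF : Fintype.card F = p) (hp5 : 5 ≤ p) (H : Subgroup PSL(2, F)) (hH : H.index = p) :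
    p = 5 ∨ p = 7 ∨ p = 11 := by
  classical
  have hp' := hp.out
  haveI hchar : CharP F p := by
    obtain ⟨r, hr⟩ := CharP.exists F
    have h0 : ((p : ℕ) : F) = 0 := by
      rw [← hcardF]
      exact Nat.cast_card_eq_zero F
    have h1 : r ∣ p := (CharP.cast_eq_zero_iff F r p).1 h0
    rcases (Nat.dvd_prime hp').1 h1 with h2 | h2
    · subst h2
      exact absurd hr (fun h => CharP.char_ne_one F 1 rfl)
    · rwa [h2] at hr
  have h2ne : (2 : F) ≠ 0 := by
    intro h
    have h1 : ((2 : ℕ) : F) = 0 := by exact_mod_cast h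
    rw [CharP.cast_eq_zero_iff F p] at h1
    have := Nat.le_of_dvd two_pos h1
    omega
  have hG : 2 * Nat.card PSL(2, F) = p * (p ^ 2 - 1) := by
    rw [card_PSL2_of_two_ne_zero h2ne, hcardF]
  have hcard : Nat.card H * p = Nat.card PSL(2, F) := by
    have h := Subgroup.card_mul_index H
    rwa [hH] at h
  have hp2 : 1 ≤ p ^ 2 := Nat.one_le_pow _ _ hp'.pos
  have hH2 : 2 * Nat.card H + 1 = p ^ 2 := by
    have h1 : p * (2 * Nat.card H) = p * (p ^ 2 - 1) := by
      rw [← hG, ← hcard]
      ring
    have h2 := Nat.eq_of_mul_eq_mul_left hp'.pos h1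
    omega
  have hndvd : ¬ p ∣ Nat.card H := by
    intro h
    have h1 : p ∣ 2 * Nat.card H := Dvd.dvd.mul_left h 2
    have h2 : p ∣ p ^ 2 := dvd_pow_self p two_ne_zero
    rw [← hH2] at h2
    have h3 : p ∣ 1 := (Nat.dvd_add_right h1).1 h2
    exact hp'.one_lt.ne' (Nat.dvd_one.1 h3)
  have hodd : Nat.gcd 2 (p - 1) = 2 := by
    apply Nat.gcd_eq_left
    have := hp'.eq_two_or_odd
    omega
  have hbig : ∀ m : ℕ, m ≤ p + 1 → Nat.card H ≠ m := by
    intro m hm h
    rw [h] at hH2
    nlinarith
  have hbigK : ∀ (K : Type) [Field K] [Fintype K] (m : ℕ), Fintype.card K ^ m = Fintype.card F →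
      Fintype.card K = p := by
    intro K _ _ m hm
    rw [hcardF] at hm
    have hm0 : m ≠ 0 := by
      rintro rfl
      simp at hm
      exact hp'.one_lt.ne hm
    have h1 : Fintype.card K ∣ p := by
      rw [← hm]
      exact dvd_pow_self _ hm0
    exact ((Nat.dvd_prime hp').1 h1).resolve_left (Fintype.one_lt_card (α := K)).ne'
  have hlarge : ¬ (p * (p ^ 2 - 1) ≤ 2 * Nat.card H) := by
    intro h
    have h3 : 2 * (p ^ 2 - 1) ≤ p * (p ^ 2 - 1) := Nat.mul_le_mul_right _ hp'.two_le
    have h4 : 24 ≤ p ^ 2 - 1 := by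
      have : 25 ≤ p ^ 2 := by nlinarith
      omega
    omega
  rcases Cfsg.Agent.Lib.PSL2.Dickson.dickson (F := F) (p := p) H with
    ⟨k, hk, h⟩ | ⟨Q, hQ⟩ | ⟨h⟩ | ⟨h⟩ | ⟨h⟩ | ⟨K, _, _, m, hm, h⟩
  · exfalso
    rw [hcardF, hodd] at hk
    have hkle : 2 * k ≤ p + 1 := by
      rcases hk with hk | hk
      · have hpos : 0 < (p + 1) / 2 := Nat.div_pos (by omega) two_pos
        have := Nat.le_of_dvd hpos hk
        have h2 : 2 * ((p + 1) / 2) ≤ p + 1 := Nat.mul_div_le _ _
        omega
      · have hpos : 0 < (p - 1) / 2 := Nat.div_pos (by omega) two_pos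
        have := Nat.le_of_dvd hpos hk
        have h2 : 2 * ((p - 1) / 2) ≤ p - 1 := Nat.mul_div_le _ _
        omega
    rcases h with ⟨-, h⟩ | ⟨h⟩
    · exact hbig k (by omega) h
    · obtain ⟨h⟩ := h
      have h1 := Nat.card_congr h.toEquiv
      have hk0 : k ≠ 0 := by
        rintro rfl
        rcases hk with hk | hk
        · have := Nat.div_pos (show 2 ≤ p + 1 by omega) two_pos
          rw [zero_dvd_iff] at hk
          omega
        · have := Nat.div_pos (show 2 ≤ p - 1 by omega) two_pos
          rw [zero_dvd_iff] at hk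
          omega
      haveI : NeZero k := ⟨hk0⟩
      rw [DihedralGroup.nat_card] at h1
      exact hbig (2 * k) hkle h1
  · exfalso
    -- `Q` would be normal
    have hQN : Nat.card (Q : Subgroup PSL(2, F)) * Nat.card H ∣
        Nat.card (normalizer ((Q : Subgroup PSL(2, F)) : Set PSL(2, F))) := by
      obtain ⟨n, hn⟩ := IsPGroup.iff_card.1 Q.isPGroup'
      apply Nat.Coprime.mul_dvd_of_dvd_of_dvd
      · rw [hn]
        exact Nat.Coprime.pow_left _ ((Nat.Prime.coprime_iff_not_dvd hp').2 hndvd)
      · exact Subgroup.card_dvd_of_le (Subgroup.le_normalizer)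
      · exact Subgroup.card_dvd_of_le hQ
    have hpdvd : p ∣ Nat.card PSL(2, F) := by
      rw [← hcard]
      exact Dvd.intro_left _ rfl
    have hQne : (Q : Subgroup PSL(2, F)) ≠ ⊥ := Q.ne_bot_of_dvd_card hpdvd
    have hQcard : p ≤ Nat.card (Q : Subgroup PSL(2, F)) := by
      obtain ⟨n, hn⟩ := IsPGroup.iff_card.1 Q.isPGroup'
      rcases Nat.eq_zero_or_pos n with h | h
      · exfalso
        rw [h, pow_zero] at hn
        exact hQne ((Subgroup.card_eq_one).1 hn)
      · rw [hn]
        exact Nat.le_self_pow h.ne' p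
    have hNtop : normalizer ((Q : Subgroup PSL(2, F)) : Set PSL(2, F)) = ⊤ := by
      apply Subgroup.eq_top_of_card_eq
      apply le_antisymm
      · exact Subgroup.card_le_card_group _
      · rw [← hcard]
        have hH0 : 0 < Nat.card H := Nat.card_pos
        calc Nat.card H * p ≤ Nat.card (Q : Subgroup PSL(2, F)) * Nat.card H := by
              rw [mul_comm]
              exact Nat.mul_le_mul_right _ hQcard
          _ ≤ _ := Nat.le_of_dvd Nat.card_pos hQN
    have hnorm : (Q : Subgroup PSL(2, F)).Normal := Subgroup.normalizer_eq_top_iff.1 hNtop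
    haveI hs : IsSimpleGroup PSL(2, F) := Matrix.ProjectiveSpecialLinearGroup.rank_two_simple (by
      rw [Nat.card_eq_fintype_card, hcardF]
      omega)
    rcases hnorm.eq_bot_or_eq_top with h | h
    · exact hQne h
    · -- `Q = ⊤` is impossible: `H` is then a `p`-group
      have h1 : IsPGroup p PSL(2, F) := by
        have := Q.isPGroup'
        rw [h] at this
        exact this.of_equiv Subgroup.topEquiv
      have h2 := h1.to_subgroup H
      obtain ⟨n, hn⟩ := IsPGroup.iff_card.1 h2
      rcases Nat.eq_zero_or_pos n with h3 | h3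
      · rw [h3, pow_zero] at hn
        exact hbig 1 (by omega) hn
      · apply hndvd
        rw [hn]
        exact dvd_pow_self _ h3.ne'
  · obtain ⟨h⟩ := h
    have h1 := Nat.card_congr h.toEquiv
    rw [card_alt4] at h1
    left
    rw [h1] at hH2
    nlinarith
  · obtain ⟨h⟩ := h
    have h1 := Nat.card_congr h.toEquiv
    rw [card_perm4] at h1
    right; left
    rw [h1] at hH2
    nlinarith
  · obtain ⟨h⟩ := h
    have h1 := Nat.card_congr h.toEquiv
    rw [card_alt5] at h1
    right; right
    rw [h1] at hH2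
    nlinarith
  · exfalso
    have hK := hbigK K m hm
    apply hlarge
    rcases h with h | h
    · obtain ⟨h⟩ := h
      have h1 := Nat.card_congr h.toEquiv
      rw [h1]
      by_cases h2 : (2 : K) = 0
      · have h3 := card_PSL2_of_two_eq_zero (F := K) h2
        rw [hK] at h3
        omega
      · have h3 := card_PSL2_of_two_ne_zero (F := K) h2
        rw [hK] at h3
        omega
    · obtain ⟨h⟩ := h
      have h1 := Nat.card_congr h.toEquiv
      rw [h1, Cfsg.Agent.S0265.result, card_SL2, hK]
      omega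

end Cfsg.Agent.Lib.DefectOne.FinalIndex
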