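import Mathlib
import Cfsg.Agent.Lib.Char.CyclicTI

/-!
# A cyclic TI subgroup of odd order in a simple group is inverted in its normalizer
-/

set_option autoImplicit false
set_option linter.unusedSectionVars false

namespace Cfsg.Agent.Lib.DefectOne.Inversion

open Subgroup

section FPF
variable {S : Type*} [Group S] [Finite S]

theorem inv_of_fpf (σ : S →* S) (hσ : ∀ x, σ (σ x) = x) (hfix : ∀ x, σ x = x → x = 1) (x : S) :
    σ x = x⁻¹ := by
  let f : S → S := fun a => a⁻¹ * σ a
  have hf : Function.Injective f := by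
    intro a b hab
    have h1 : σ (b * a⁻¹) = b * a⁻¹ := by
      have h2 : b * a⁻¹ = σ b * (σ a)⁻¹ := by
        have h3 : a⁻¹ * σ a = b⁻¹ * σ b := hab
        calc b * a⁻¹ = b * (a⁻¹ * σ a) * (σ a)⁻¹ := by group
          _ = b * (b⁻¹ * σ b) * (σ a)⁻¹ := by rw [h3]
          _ = _ := by group
      rw [map_mul, map_inv]; exact h2.symm
    have h3 := hfix _ h1
    exact (mul_inv_eq_one.1 h3).symm
  have hs := Finite.injective_iff_surjective.1 hf
  obtain ⟨a, rfl⟩ := hs x
  simp only [f, map_mul, map_inv, hσ, mul_inv_rev, inv_inv]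

end FPF

variable {G : Type*} [Group G] [Finite G]

theorem inverts [IsSimpleGroup G] (E : Subgroup G) (hcyc : IsCyclic E) (hodd : Odd (Nat.card E))
    (hNE : Nat.card (normalizer (E : Set G)) = 2 * Nat.card E)
    (hTI : ∀ g : G, g ∉ normalizer (E : Set G) → E ⊓ E.map (MulAut.conj g).toMonoidHom = ⊥) :
    ∀ g ∈ normalizer (E : Set G), g ∉ E → ∀ y ∈ E, g⁻¹ * y * g = y⁻¹ := by
  classical
  set N := normalizer (E : Set G) with hN
  have hEN : E ≤ N := Subgroup.le_normalizer
  have hcomm : ∀ a ∈ E, ∀ b ∈ E, a * b = b * a := by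
    intro a ha b hb
    letI : CommGroup E := IsCyclic.commGroup
    have := mul_comm (⟨a, ha⟩ : E) ⟨b, hb⟩
    exact congrArg Subtype.val this
  have hEcard : 0 < Nat.card E := Nat.card_pos
  -- index two
  have hidx : (E.subgroupOf N).index = 2 := by
    have h1 := Subgroup.card_mul_index (E.subgroupOf N)
    have h2 : Nat.card (E.subgroupOf N) = Nat.card E := Nat.card_congr (Subgroup.subgroupOfEquivOfLe hEN).toEquiv
    rw [h2, hNE] at h1
    have h3 : Nat.card E * (E.subgroupOf N).index = Nat.card E * 2 := by rw [h1]; ring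
    exact Nat.eq_of_mul_eq_mul_left hEcard h3
  have hmulmem : ∀ a ∈ N, ∀ b ∈ N, a * b ∈ E ↔ (a ∈ E ↔ b ∈ E) := by
    intro a ha b hb
    have := Subgroup.mul_mem_iff_of_index_two hidx (a := ⟨a, ha⟩) (b := ⟨b, hb⟩)
    simpa [Subgroup.mem_subgroupOf] using this
  intro g hgN hgE
  have hg2 : g * g ∈ E := (hmulmem g hgN g hgN).2 Iff.rfl
  have hconj : ∀ y ∈ E, g⁻¹ * y * g ∈ E := by
    intro y hy
    have h1 := (Subgroup.mem_normalizer_iff.1 (inv_mem hgN) y).1 hy
    simpa using h1
  have hconj' : ∀ y ∈ E, ∀ h ∈ N, h⁻¹ * y * h ∈ E := by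
    intro y hy h hh
    have h1 := (Subgroup.mem_normalizer_iff.1 (inv_mem hh) y).1 hy
    simpa using h1
  let σ : E →* E :=
    { toFun := fun y => ⟨g⁻¹ * y * g, hconj y y.2⟩
      map_one' := by
        apply Subtype.ext
        simp
      map_mul' := fun a b => by
        apply Subtype.ext
        simp only [Subgroup.coe_mul]
        group }
  have hσv : ∀ y : E, ((σ y : E) : G) = g⁻¹ * y * g := fun _ => rfl
  have hσσ : ∀ y : E, σ (σ y) = y := by
    intro y
    apply Subtype.ext
    rw [hσv, hσv]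
    have h1 := hcomm (g * g) hg2 y y.2
    calc g⁻¹ * (g⁻¹ * (y : G) * g) * g = (g * g)⁻¹ * ((y : G) * (g * g)) := by group
      _ = (g * g)⁻¹ * ((g * g) * (y : G)) := by rw [hcomm y y.2 (g * g) hg2]
      _ = y := by group
  have hfix : ∀ y : E, σ y = y → y = 1 := by
    intro y hy
    by_contra hy1
    -- a fixed element of prime order
    have hord1 : orderOf y ≠ 1 := fun h => hy1 (orderOf_eq_one_iff.1 h)
    obtain ⟨q, hq, hqd⟩ := Nat.exists_prime_and_dvd hord1
    haveI : Fact q.Prime := ⟨hq⟩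
    set y₁ : E := y ^ (orderOf y / q) with hy₁
    have hy₁o : orderOf y₁ = q := orderOf_pow_orderOf_div (orderOf_ne_zero_iff.2 (isOfFinOrder_of_finite y)) hqd
    have hσy₁ : σ y₁ = y₁ := by rw [hy₁, map_pow, hy]
    have hqE : q ∣ Nat.card E := by
      rw [← hy₁o]
      exact orderOf_dvd_natCard y₁
    have hq2 : q ≠ 2 := by
      rintro rfl
      exact (Nat.not_even_iff_odd.2 hodd) (even_iff_two_dvd.2 hqE)
    -- all `q`-elements of `E` are fixed
    have hfixq : ∀ z : E, (∃ n : ℕ, z ^ (q ^ n) = 1) → σ z = z := by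
      rintro z ⟨n, hn⟩
      set v : E := z * (σ z)⁻¹ with hv
      have hzc : ∀ a b : E, a * b = b * a := fun a b => Subtype.ext (hcomm a a.2 b b.2)
      have hσv' : σ v = v⁻¹ := by
        rw [hv, map_mul, map_inv, hσσ, mul_inv_rev, inv_inv]
      by_contra hne
      have hv1 : v ≠ 1 := by
        intro h0
        apply hne
        exact (mul_inv_eq_one.1 h0).symm
      have hvq : v ^ (q ^ n) = 1 := by
        have hcm : Commute z (σ z)⁻¹ := hzc _ _
        rw [hv, hcm.mul_pow, inv_pow, ← map_pow, hn, map_one, inv_one, mul_one]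
      obtain ⟨k, hk, hko⟩ := (Nat.dvd_prime_pow hq).1 (orderOf_dvd_of_pow_eq_one hvq)
      have hk0 : k ≠ 0 := by
        rintro rfl
        rw [pow_zero, orderOf_eq_one_iff] at hko
        exact hv1 hko
      obtain ⟨k', rfl⟩ := Nat.exists_eq_succ_of_ne_zero hk0
      set v' : E := v ^ (q ^ k') with hv'
      have hv'o : orderOf v' = q := by
        have h1 : orderOf v' = orderOf v / Nat.gcd (orderOf v) (q ^ k') := orderOf_pow' _ (pow_ne_zero _ hq.ne_zero)
        rw [hko, Nat.gcd_eq_right (pow_dvd_pow q (Nat.le_succ k')), pow_succ] at h1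
        rw [h1]
        exact Nat.mul_div_cancel_left _ (pow_pos hq.pos _)
      have hσv'' : σ v' = v'⁻¹ := by
        rw [hv', map_pow, hσv', inv_pow]
      have hz : zpowers v' = zpowers y₁ := by
        apply Cfsg.Agent.Lib.Char.CyclicTI.eq_of_card_eq_cyclic
        rw [Nat.card_zpowers, Nat.card_zpowers, hv'o, hy₁o]
      have hmem : v' ∈ zpowers y₁ := by
        rw [← hz]
        exact mem_zpowers v'
      obtain ⟨t, ht⟩ := Subgroup.mem_zpowers_iff.1 hmem
      have h3 : σ v' = v' := by
        rw [← ht, map_zpow, hσy₁]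
      rw [h3] at hσv''
      have h4 : v' ^ 2 = 1 := by
        rw [pow_two]
        nth_rewrite 1 [hσv'']
        exact inv_mul_cancel _
      have h5 := orderOf_dvd_of_pow_eq_one h4
      rw [hv'o] at h5
      exact hq2 ((Nat.prime_dvd_prime_iff_eq hq Nat.prime_two).1 h5)
    -- the Sylow subgroup of `E`
    obtain ⟨Q₀⟩ : Nonempty (Sylow q E) := inferInstance
    set S : Subgroup G := (Q₀ : Subgroup E).map E.subtype with hS
    have hSE : S ≤ E := by
      rintro _ ⟨a, -, rfl⟩
      exact a.2
    have hSq : ∀ a ∈ (Q₀ : Subgroup E), ∃ n : ℕ, a ^ (q ^ n) = 1 := by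
      intro a ha
      obtain ⟨n, hn⟩ := Q₀.isPGroup' ⟨a, ha⟩
      refine ⟨n, ?_⟩
      have := congrArg Subtype.val hn
      simpa using this
    have hQ₀ne : (Q₀ : Subgroup E) ≠ ⊥ := Q₀.ne_bot_of_dvd_card hqE
    obtain ⟨a₀, ha₀, ha₀1⟩ : ∃ a ∈ (Q₀ : Subgroup E), a ≠ 1 := by
      obtain ⟨a, ha⟩ := Subgroup.ne_bot_iff_exists_ne_one.1 hQ₀ne
      exact ⟨a, a.2, by simpa using ha⟩
    have hSne : S ≠ ⊥ := by
      intro h
      have : (a₀ : G) ∈ S := ⟨a₀, ha₀, rfl⟩
      rw [h, Subgroup.mem_bot] at this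
      exact ha₀1 (Subtype.ext this)
    -- the normalizer of `S` lies in `N`
    have hNS : ∀ h ∈ normalizer (S : Set G), h ∈ N := by
      intro h hh
      by_contra hn
      have h1 := hTI h hn
      have h2 : (a₀ : G) ∈ E ⊓ E.map (MulAut.conj h).toMonoidHom := by
        refine Subgroup.mem_inf.2 ⟨a₀.2, ?_⟩
        have hS0 : (a₀ : G) ∈ S := ⟨a₀, ha₀, rfl⟩
        have h3 : h⁻¹ * (a₀ : G) * h ∈ S := by
          have := (Subgroup.mem_normalizer_iff.1 (inv_mem hh) (a₀ : G)).1 hS0
          simpa using this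
        refine ⟨h⁻¹ * (a₀ : G) * h, hSE h3, ?_⟩
        simp only [MulEquiv.coe_toMonoidHom, MulAut.conj_apply]
        group
      rw [h1, Subgroup.mem_bot] at h2
      exact ha₀1 (Subtype.ext h2)
    -- `S` is central in its normalizer
    have hcen : ∀ h ∈ N, ∀ z ∈ S, h⁻¹ * z * h = z := by
      intro h hh z hz
      obtain ⟨a, ha, rfl⟩ := hz
      by_cases hhE : h ∈ E
      · have := hcomm h hhE a a.2
        simp only [Subgroup.coe_subtype]
        rw [mul_assoc, ← this]
        group
      · have h1 : h * g⁻¹ ∈ E := (hmulmem h hh g⁻¹ (inv_mem hgN)).2 (by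
          constructor
          · intro h2; exact absurd h2 hhE
          · intro h2; exact absurd (by simpa using inv_mem h2) hgE)
        have h2 := hfixq a (hSq a ha)
        have h3 : g⁻¹ * (a : G) * g = a := congrArg Subtype.val h2
        simp only [Subgroup.coe_subtype]
        have h4 := hcomm (h * g⁻¹) h1 a a.2
        calc h⁻¹ * (a : G) * h = g⁻¹ * ((h * g⁻¹)⁻¹ * (a : G) * (h * g⁻¹)) * g := by group
          _ = g⁻¹ * ((h * g⁻¹)⁻¹ * ((h * g⁻¹) * (a : G))) * g := by rw [mul_assoc ((h * g⁻¹)⁻¹), ← h4]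
          _ = g⁻¹ * (a : G) * g := by group
          _ = a := h3
    -- `S` is a Sylow subgroup of `G`
    have hSp : IsPGroup q S := Q₀.isPGroup'.map _
    obtain ⟨Q, hQ⟩ := hSp.exists_le_sylow
    have hQS : (Q : Subgroup G) = S := by
      by_contra hne
      have hlt : S < (Q : Subgroup G) := lt_of_le_of_ne hQ (Ne.symm hne)
      haveI : Group.IsNilpotent (Q : Subgroup G) := Q.isPGroup'.isNilpotent
      have hNC := Group.normalizerCondition_of_isNilpotent (G := (Q : Subgroup G))
      have hS'lt : S.subgroupOf (Q : Subgroup G) < ⊤ := by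
        rw [lt_top_iff_ne_top]
        intro h
        apply hne
        apply le_antisymm _ hQ
        exact Subgroup.subgroupOf_eq_top.1 h
      have h2 := hNC _ hS'lt
      obtain ⟨u, hu, hun⟩ := SetLike.exists_of_lt h2
      have huS : (u : G) ∉ S := fun h => hun (Subgroup.mem_subgroupOf.2 h)
      -- `u` normalizes `S`
      have huN : (u : G) ∈ normalizer (S : Set G) := by
        rw [Subgroup.mem_normalizer_iff]
        intro z
        constructor
        · intro hz
          have hzQ : z ∈ (Q : Subgroup G) := hQ hz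
          have h3 := (Subgroup.mem_normalizer_iff.1 hu ⟨z, hzQ⟩).1 (Subgroup.mem_subgroupOf.2 hz)
          exact Subgroup.mem_subgroupOf.1 h3
        · intro hz
          have h4 : (u : G) * z * (u : G)⁻¹ ∈ (Q : Subgroup G) := hQ hz
          have hzQ : z ∈ (Q : Subgroup G) := by
            have := mul_mem (mul_mem (inv_mem u.2) h4) u.2
            simpa [mul_assoc] using this
          have h3 := (Subgroup.mem_normalizer_iff.1 hu ⟨z, hzQ⟩).2 (Subgroup.mem_subgroupOf.2 hz)
          exact Subgroup.mem_subgroupOf.1 h3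
      have huNN := hNS _ huN
      -- `u` has `q`-power order
      obtain ⟨n, hn⟩ := Q.isPGroup' u
      have hn' : (u : G) ^ (q ^ n) = 1 := by
        have := congrArg Subtype.val hn
        simpa using this
      have huE : (u : G) ∈ E := by
        obtain ⟨m, hm⟩ := (hq.eq_two_or_odd'.resolve_left hq2).pow (n := n)
        have h5 : (u : G) * (u : G) ∈ E := (hmulmem _ huNN _ huNN).2 Iff.rfl
        have h6 : (u : G) ^ (q ^ n) = ((u : G) * (u : G)) ^ m * u := by
          rw [hm, pow_succ, pow_mul, pow_two]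
        have h7 : ((u : G) * (u : G)) ^ m * u ∈ E := by
          rw [← h6, hn']
          exact one_mem _
        have h8 := mul_mem (inv_mem (pow_mem h5 m)) h7
        simpa using h8
      -- and so lies in `S`
      have hup : IsPGroup q (zpowers (⟨u, huE⟩ : E)) := by
        rw [IsPGroup.iff_card, Nat.card_zpowers]
        have : orderOf (⟨u, huE⟩ : E) ∣ q ^ n := by
          apply orderOf_dvd_of_pow_eq_one
          apply Subtype.ext
          simpa using hn'
        obtain ⟨k, -, hk⟩ := (Nat.dvd_prime_pow hq).1 this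
        exact ⟨k, hk⟩
      obtain ⟨Q₁, hQ₁⟩ := hup.exists_le_sylow
      obtain ⟨c, hc⟩ := MulAction.exists_smul_eq E Q₁ Q₀
      have h9 : (⟨u, huE⟩ : E) ∈ (Q₁ : Subgroup E) := hQ₁ (mem_zpowers _)
      have h10 : c * (⟨u, huE⟩ : E) * c⁻¹ ∈ (Q₀ : Subgroup E) := by
        rw [← hc, Sylow.coe_subgroup_smul]
        exact Subgroup.smul_mem_pointwise_smul _ (MulAut.conj c) _ h9
      have h11 : c * (⟨u, huE⟩ : E) * c⁻¹ = ⟨u, huE⟩ := by
        have hzc : (c : E) * ⟨u, huE⟩ = ⟨u, huE⟩ * c := Subtype.ext (hcomm c c.2 _ huE)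
        rw [hzc]
        group
      rw [h11] at h10
      exact huS ⟨_, h10, rfl⟩
    -- Burnside's transfer theorem
    have hle : normalizer ((Q : Subgroup G) : Set G) ≤ centralizer ((Q : Subgroup G) : Set G) := by
      rw [hQS]
      intro h hh
      rw [Subgroup.mem_centralizer_iff]
      intro z hz
      have h1 := hcen h (hNS h hh) z hz
      calc z * h = h * (h⁻¹ * z * h) := by group
        _ = h * z := by rw [h1]
    have hC := MonoidHom.ker_transferSylow_isComplement' Q hle
    have hkN : (MonoidHom.transferSylow Q hle).ker.Normal := inferInstance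
    rcases hkN.eq_bot_or_eq_top with h | h
    · rw [h] at hC
      have h1 : (Q : Subgroup G) = ⊤ := Subgroup.isComplement'_bot_left.1 hC
      rw [hQS] at h1
      have h2 : E = ⊤ := top_le_iff.1 (h1 ▸ hSE)
      have h3 : Nat.card N ≤ Nat.card E := by
        rw [h2, Subgroup.card_top]
        exact Subgroup.card_le_card_group _
      rw [hNE] at h3
      omega
    · rw [h] at hC
      have h1 : (Q : Subgroup G) = ⊥ := Subgroup.isComplement'_top_left.1 hC
      rw [hQS] at h1
      exact hSne h1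
  intro y hy
  have h1 := inv_of_fpf σ hσσ hfix ⟨y, hy⟩
  exact congrArg Subtype.val h1

end Cfsg.Agent.Lib.DefectOne.Inversion
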