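import Mathlib
import Cfsg.Agent.Lib.Char.Virtual
import Cfsg.Agent.Lib.Char.CyclicTI
import Cfsg.Agent.Lib.Char.IndRep
import Cfsg.Agent.Lib.Char.LinearChars
import Cfsg.Agent.Lib.Blocks.Principal
import Cfsg.Agent.Lib.DefectOne.SimpleDim

/-!
# Exceptional characters from a cyclic TI subgroup of odd order inverted in its normalizer
-/

set_option autoImplicit false
set_option linter.unusedSectionVars false

namespace Cfsg.Agent.Lib.DefectOne.OddChars

open Cfsg Cfsg.Agent.Lib.Char.Virtual Cfsg.Agent.Lib.Char.Induced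
open scoped ComplexConjugate

universe u

section Dual

variable {W : Type*} [Group W] [Fintype W] [IsCyclic W]

lemma card_hom : Nat.card (W →* ℂˣ) = Nat.card W := by
  letI : CommGroup W := IsCyclic.commGroup
  exact CommGroup.card_monoidHom_of_hasEnoughRootsOfUnity W ℂ

lemma finite_hom : Finite (W →* ℂˣ) := by
  apply Nat.finite_of_card_ne_zero
  rw [card_hom]
  exact Nat.card_pos.ne'

lemma sum_hom_apply [Fintype (W →* ℂˣ)] {y : W} (hy : y ≠ 1) : ∑ l : W →* ℂˣ, ((l y : ℂˣ) : ℂ) = 0 := by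
  classical
  letI : CommGroup W := IsCyclic.commGroup
  have hy' : y ∉ (⊥ : Subgroup W) := by simpa using hy
  obtain ⟨φ₀, -, h1⟩ := Cfsg.Agent.Lib.Char.CyclicTI.exists_trivialOn (⊥ : Subgroup W) hy'
  have hmul : ((φ₀ y : ℂˣ) : ℂ) * ∑ l : W →* ℂˣ, ((l y : ℂˣ) : ℂ) = ∑ l : W →* ℂˣ, ((l y : ℂˣ) : ℂ) := by
    rw [Finset.mul_sum]
    refine Fintype.sum_equiv (Equiv.mulLeft φ₀) _ _ fun l => ?_
    simp
  have h2 : (((φ₀ y : ℂˣ) : ℂ) - 1) * ∑ l : W →* ℂˣ, ((l y : ℂˣ) : ℂ) = 0 := by
    rw [sub_mul, one_mul, hmul, sub_self]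
  have h3 : ((φ₀ y : ℂˣ) : ℂ) - 1 ≠ 0 := by
    rw [sub_ne_zero]
    intro h
    exact h1 (Units.ext h)
  exact (mul_eq_zero.1 h2).resolve_left h3

lemma hom_ne_inv [Fintype (W →* ℂˣ)] (hodd : Odd (Nat.card W)) {l : W →* ℂˣ} (hl : l ≠ 1) : l ≠ l⁻¹ := by
  intro h
  apply hl
  ext y
  have h1 : l y * l y = 1 := by
    have h2 := DFunLike.congr_fun h y
    rw [MonoidHom.inv_apply] at h2
    nth_rewrite 1 [h2]
    exact inv_mul_cancel _
  obtain ⟨k, hk⟩ := hodd
  have h3 : y ^ (2 * k + 1) = 1 := by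
    rw [← hk]
    exact pow_card_eq_one'
  have h4 : (l y) ^ (2 * k + 1) = 1 := by rw [← map_pow, h3, map_one]
  rw [pow_succ, pow_mul, pow_two, h1, one_pow, one_mul] at h4
  simp [h4]

end Dual

variable {G : Type u} [Group G] [Fintype G] (E : Subgroup G) [Fintype E]

/-- A linear character as a function. -/
noncomputable def lin (l : E →* ℂˣ) : E → ℂ := fun y => ((l y : ℂˣ) : ℂ)

lemma lin_inv (l : E →* ℂˣ) (y : E) : lin E l⁻¹ y = lin E l y⁻¹ := by
  simp [lin]

lemma lin_conj (l : E →* ℂˣ) (y : E) : conj (lin E l y) = lin E l y⁻¹ :=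
  Cfsg.Agent.Lib.Char.CyclicTI.unit_conj l y

lemma lin_ip (l m : E →* ℂˣ) : classInner (lin E l) (lin E m) = @ite ℂ (l = m) (Classical.propDecidable _) 1 0 :=
  Cfsg.Agent.Lib.Char.CyclicTI.classInner_unit l m

lemma lin_isIrr (l : E →* ℂˣ) : IsIrrCharacter E (lin E l) := Cfsg.Agent.Lib.Char.LinearChars.isIrr_of_hom l

/-- The hypotheses on `E`. -/
structure TIInv : Prop where
  hN : Nat.card (Subgroup.normalizer (E : Set G)) = 2 * Nat.card E
  hinv : ∀ g ∈ Subgroup.normalizer (E : Set G), g ∉ E → ∀ y ∈ E, g⁻¹ * y * g = y⁻¹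
  hti : ∀ g, g ∉ Subgroup.normalizer (E : Set G) → ∀ y ∈ E, y ≠ 1 → g⁻¹ * y * g ∉ E
  hodd : Odd (Nat.card E)
  hcyc : IsCyclic E

variable {E}

lemma card_E_pos : (Nat.card E : ℂ) ≠ 0 := by exact_mod_cast Nat.card_pos.ne'

/-- The induced function on `E`. -/
lemma indFun_lin (h : TIInv E) (l : E →* ℂˣ) (y : E) (hy : y ≠ 1) :
    indFun E (lin E l) y = lin E l y + lin E l y⁻¹ := by
  classical
  have hy1 : (y : G) ≠ 1 := by simpa using hy
  have hterm : ∀ g : G, extendByZero E (lin E l) (g⁻¹ * y * g) =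
      (if g ∈ E then lin E l y else 0) +
        (if g ∈ Subgroup.normalizer (E : Set G) ∧ g ∉ E then lin E l y⁻¹ else 0) := by
    intro g
    by_cases hg : g ∈ E
    · have hm : g⁻¹ * y * g ∈ E := E.mul_mem (E.mul_mem (E.inv_mem hg) y.2) hg
      rw [extendByZero_of_mem _ _ hm, if_pos hg, if_neg (by tauto), add_zero]
      congr 1
      -- commutativity
      haveI := h.hcyc
      letI : CommGroup E := IsCyclic.commGroup
      apply Subtype.ext
      have h1 : (⟨g, hg⟩ : E)⁻¹ * y * ⟨g, hg⟩ = y := by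
        rw [mul_comm (⟨g, hg⟩ : E)⁻¹ y, mul_assoc, inv_mul_cancel, mul_one]
      exact congrArg Subtype.val h1
    · by_cases hgN : g ∈ Subgroup.normalizer (E : Set G)
      · have h1 := h.hinv g hgN hg y y.2
        have hm : g⁻¹ * y * g ∈ E := by
          rw [h1]; exact E.inv_mem y.2
        rw [extendByZero_of_mem _ _ hm, if_neg hg, if_pos ⟨hgN, hg⟩, zero_add]
        congr 1
        apply Subtype.ext
        simpa using h1
      · have h1 := h.hti g hgN y y.2 hy1
        rw [extendByZero_of_notMem _ _ h1, if_neg hg, if_neg (by tauto), add_zero]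
  rw [indFun_apply]
  simp_rw [hterm]
  rw [Finset.sum_add_distrib, Finset.sum_ite, Finset.sum_ite]
  simp only [Finset.sum_const_zero, add_zero, Finset.sum_const, nsmul_eq_mul]
  have hc1 : (Finset.univ.filter fun g : G => g ∈ E).card = Nat.card E := by
    rw [Nat.card_eq_fintype_card, Fintype.card_subtype]
  have hc2 : (Finset.univ.filter fun g : G => g ∈ Subgroup.normalizer (E : Set G) ∧ g ∉ E).card = Nat.card E := by
    have h1 : (Finset.univ.filter fun g : G => g ∈ Subgroup.normalizer (E : Set G)).card = 2 * Nat.card E := by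
      rw [← h.hN, Nat.card_eq_fintype_card (α := Subgroup.normalizer (E : Set G)), Fintype.card_subtype]
    have h2 : (Finset.univ.filter fun g : G => g ∈ Subgroup.normalizer (E : Set G)) =
        (Finset.univ.filter fun g : G => g ∈ E) ∪ (Finset.univ.filter fun g : G => g ∈ Subgroup.normalizer (E : Set G) ∧ g ∉ E) := by
      ext g
      simp only [Finset.mem_filter, Finset.mem_univ, true_and, Finset.mem_union]
      constructor
      · intro hg
        by_cases hgE : g ∈ E
        · exact Or.inl hgE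
        · exact Or.inr ⟨hg, hgE⟩
      · rintro (hg | hg)
        · exact Subgroup.le_normalizer hg
        · exact hg.1
    have h3 : Disjoint (Finset.univ.filter fun g : G => g ∈ E)
        (Finset.univ.filter fun g : G => g ∈ Subgroup.normalizer (E : Set G) ∧ g ∉ E) := by
      rw [Finset.disjoint_left]
      intro g hg hg'
      simp only [Finset.mem_filter, Finset.mem_univ, true_and] at hg hg'
      exact hg'.2 hg
    rw [h2, Finset.card_union_of_disjoint h3, hc1] at h1
    omega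
  rw [hc1, hc2]
  have := card_E_pos (E := E)
  field_simp

lemma indFun_lin_one (l : E →* ℂˣ) : indFun E (lin E l) 1 = (Nat.card G : ℂ) * (Nat.card E : ℂ)⁻¹ := by
  rw [indFun_apply]
  have h1 : ∀ g : G, extendByZero E (lin E l) (g⁻¹ * 1 * g) = 1 := by
    intro g
    have h2 : g⁻¹ * 1 * g = 1 := by group
    rw [h2, extendByZero_of_mem E _ E.one_mem]
    have : (⟨1, E.one_mem⟩ : E) = 1 := rfl
    simp [lin, this]
  rw [Finset.sum_congr rfl (fun g _ => h1 g)]
  simp only [Finset.sum_const, Finset.card_univ, nsmul_eq_mul, mul_one]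
  rw [Nat.card_eq_fintype_card (α := G)]
  ring

/-- The basic virtual character. -/
noncomputable def BB (l : E →* ℂˣ) : G → ℂ := indFun E (lin E l) - indFun E (lin E 1)

lemma BB_on_E (h : TIInv E) (l : E →* ℂˣ) (y : E) : BB l (y : G) = lin E l y + lin E l y⁻¹ - 2 := by
  unfold BB
  simp only [Pi.sub_apply]
  by_cases hy : y = 1
  · subst hy
    have h1 : ((1 : E) : G) = 1 := rfl
    rw [h1, indFun_lin_one, indFun_lin_one]
    simp [lin]
    norm_num
  · rw [indFun_lin h l y hy, indFun_lin h 1 y hy]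
    simp only [lin, MonoidHom.one_apply, Units.val_one]
    ring

lemma BB_fun (h : TIInv E) (l : E →* ℂˣ) :
    (fun y : E => BB l (y : G)) = lin E l + lin E l⁻¹ - (2 : ℂ) • lin E 1 := by
  funext y
  rw [BB_on_E h]
  simp only [Pi.sub_apply, Pi.add_apply, Pi.smul_apply, smul_eq_mul, lin_inv]
  simp [lin]

lemma BB_class (l : E →* ℂˣ) : IsClassFunction G (BB l) := by
  intro g h
  simp only [BB, Pi.sub_apply]
  rw [indFun_isClassFunction, indFun_isClassFunction]

lemma ind_isGen (l : E →* ℂˣ) : IsGeneralizedCharacter G (indFun E (lin E l)) :=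
  isGeneralized_of_isCharacter (Cfsg.Agent.Lib.Char.IndRep.isCharacter_indFun E
    (Cfsg.Agent.Lib.Char.Basic.isCharacter_of_isIrrCharacter (lin_isIrr E l)))

lemma BB_isGen (l : E →* ℂˣ) : IsGeneralizedCharacter G (BB l) :=
  isGeneralized_sub (ind_isGen l) (ind_isGen 1)

lemma BB_ip (φ : G → ℂ) (hφ : IsClassFunction G φ) (l : E →* ℂˣ) :
    classInner (BB l) φ = classInner (lin E l - lin E 1) (fun y : E => φ y) := by
  unfold BB
  rw [classInner_sub_left, classInner_sub_left, frobenius_reciprocity _ _ _ hφ, frobenius_reciprocity _ _ _ hφ]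

lemma BB_BB (h : TIInv E) {l m : E →* ℂˣ} (hl : l ≠ 1) (hm : m ≠ 1) :
    classInner (BB l) (BB m) = (@ite ℂ (l = m) (Classical.propDecidable _) 1 0) +
      (@ite ℂ (l = m⁻¹) (Classical.propDecidable _) 1 0) + 2 := by
  rw [BB_ip _ (BB_class m), BB_fun h]
  rw [classInner_sub_left, classInner_sub_right, classInner_sub_right, classInner_add_right,
    classInner_add_right, classInner_smul_right, classInner_smul_right]
  simp only [lin_ip]
  have h1 : ¬ (l = 1) := hl
  have h2 : ¬ ((1 : E →* ℂˣ) = m) := fun h => hm h.symm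
  have h3 : ¬ ((1 : E →* ℂˣ) = m⁻¹) := fun h => hm (by
    ext y
    have h4 := DFunLike.congr_fun h y
    rw [MonoidHom.one_apply, MonoidHom.inv_apply] at h4
    have h5 : m y = 1 := by rw [← inv_inv (m y), ← h4, inv_one]
    simp [h5])
  have hc2 : (starRingEnd ℂ) (2 : ℂ) = 2 := map_ofNat _ 2
  simp only [h1, h2, h3, if_false, if_true]
  simp [hc2]

lemma BB_one {l : E →* ℂˣ} (hl : l ≠ 1) : classInner (BB l) (fun _ : G => (1 : ℂ)) = -1 := by
  rw [BB_ip _ (fun _ _ => rfl)]
  have h1 : (fun _ : E => (1 : ℂ)) = lin E 1 := by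
    funext y
    simp [lin]
  rw [h1, classInner_sub_left, lin_ip, lin_ip]
  simp [hl]

lemma BB_St {St : G → ℂ} (hcl : IsClassFunction G St) (hSt : ∀ y ∈ E, y ≠ 1 → St y = 1) {l : E →* ℂˣ} (hl : l ≠ 1) :
    classInner (BB l) St = -1 := by
  rw [BB_ip _ hcl]
  have h1 : classInner (lin E l - lin E 1) (fun y : E => St y) = classInner (lin E l - lin E 1) (lin E 1) := by
    unfold classInner
    congr 1
    refine Finset.sum_congr rfl fun y _ => ?_
    by_cases hy : y = 1
    · subst hy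
      simp [lin]
    · have hy1 : (y : G) ≠ 1 := by simpa using hy
      show _ * conj (St (y : G)) = _
      rw [hSt y y.2 hy1]
      simp [lin]
  rw [h1, classInner_sub_left, lin_ip, lin_ip]
  simp [hl]

section Main

variable {St : G → ℂ}

/-- The irreducible characters attached to `l`. -/
noncomputable def XC (St : G → ℂ) (l : E →* ℂˣ) : G → ℂ := BB l + (fun _ => (1 : ℂ)) + St

lemma XC_on_E (h : TIInv E) (l : E →* ℂˣ) (y : E) :
    XC St l (y : G) = lin E l y + lin E l y⁻¹ - 1 + St y := by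
  simp only [XC, Pi.add_apply, BB_on_E h]
  ring

lemma one_isIrr : IsIrrCharacter G (fun _ : G => (1 : ℂ)) :=
  (Cfsg.Agent.Lib.Blocks.Principal.trivChar G).2

lemma XC_ip (h : TIInv E) (hStirr : IsIrrCharacter G St) (hSt1 : St 1 ≠ 1)
    (hSt : ∀ y ∈ E, y ≠ 1 → St y = 1) {l m : E →* ℂˣ} (hl : l ≠ 1) (hm : m ≠ 1) :
    classInner (XC St l) (XC St m) = (@ite ℂ (l = m) (Classical.propDecidable _) 1 0) +
      (@ite ℂ (l = m⁻¹) (Classical.propDecidable _) 1 0) := by
  have hcl : IsClassFunction G St := Cfsg.Agent.Lib.Char.Basic.isClassFunction_of_isCharacter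
    (Cfsg.Agent.Lib.Char.Basic.isCharacter_of_isIrrCharacter hStirr)
  have hne : (fun _ : G => (1 : ℂ)) ≠ St := fun h => hSt1 (by rw [← h])
  simp only [XC]
  rw [classInner_add_left, classInner_add_left, classInner_add_right, classInner_add_right,
    classInner_add_right, classInner_add_right, classInner_add_right, classInner_add_right]
  have h1 : classInner (fun _ : G => (1 : ℂ)) (BB m) = -1 := by
    rw [← classInner_conj_symm, BB_one hm]
    simp
  have h2 : classInner St (BB m) = -1 := by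
    rw [← classInner_conj_symm, BB_St hcl hSt hm]
    simp
  have h3 : classInner St (fun _ : G => (1 : ℂ)) = 0 := classInner_irr_of_ne hStirr one_isIrr (Ne.symm hne)
  have h4 : classInner (fun _ : G => (1 : ℂ)) St = 0 := classInner_irr_of_ne one_isIrr hStirr hne
  rw [BB_BB h hl hm, BB_one hl, BB_St hcl hSt hl, h1, h2, h3, h4, classInner_irr_self hStirr, classInner_irr_self one_isIrr]
  ring

lemma XC_isGen (hStirr : IsIrrCharacter G St) (l : E →* ℂˣ) : IsGeneralizedCharacter G (XC St l) :=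
  isGeneralized_add (isGeneralized_add (BB_isGen l) (isGeneralized_of_isIrr one_isIrr)) (isGeneralized_of_isIrr hStirr)

lemma XC_one (h : TIInv E) {p : ℕ} (hSt1 : St 1 = p) (l : E →* ℂˣ) : XC St l 1 = p + 1 := by
  have h1 := XC_on_E (St := St) h l 1
  have h2 : ((1 : E) : G) = 1 := rfl
  rw [h2, hSt1] at h1
  rw [h1]
  simp [lin]
  ring

lemma XC_irr (h : TIInv E) {p : ℕ} (hStirr : IsIrrCharacter G St) (hSt1 : St 1 = p) (hp1 : p ≠ 1)
    (hSt : ∀ y ∈ E, y ≠ 1 → St y = 1) {l : E →* ℂˣ} (hl : l ≠ 1) : IsIrrCharacter G (XC St l) := by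
  haveI := h.hcyc
  have hSt1' : St 1 ≠ 1 := by
    rw [hSt1]
    exact_mod_cast hp1
  have hnorm : classInner (XC St l) (XC St l) = 1 := by
    rw [XC_ip h hStirr hSt1' hSt hl hl]
    letI : Fintype (E →* ℂˣ) := @Fintype.ofFinite _ finite_hom
    have := hom_ne_inv h.hodd hl
    simp [this]
  rcases isSignedIrr_of_norm_one (XC_isGen hStirr l) hnorm with h1 | h1
  · exact h1
  · exfalso
    obtain ⟨n, hn, h2⟩ := exists_degree_of_isIrr h1
    rw [Pi.neg_apply, XC_one h hSt1] at h2
    have h3 : ((n + p + 1 : ℕ) : ℂ) = 0 := by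
      push_cast
      linear_combination -h2
    have h4 : n + p + 1 = 0 := by exact_mod_cast h3
    omega

lemma XC_eq_iff (h : TIInv E) {p : ℕ} (hStirr : IsIrrCharacter G St) (hSt1 : St 1 = p) (hp1 : p ≠ 1)
    (hSt : ∀ y ∈ E, y ≠ 1 → St y = 1) {l m : E →* ℂˣ} (hl : l ≠ 1) (hm : m ≠ 1) :
    XC St l = XC St m ↔ l = m ∨ l = m⁻¹ := by
  have hSt1' : St 1 ≠ 1 := by
    rw [hSt1]
    exact_mod_cast hp1
  have h1 := XC_ip h hStirr hSt1' hSt hl hm
  constructor
  · intro heq
    rw [← heq, classInner_irr_self (XC_irr h hStirr hSt1 hp1 hSt hl)] at h1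
    by_contra hcon
    push Not at hcon
    rw [if_neg hcon.1, if_neg hcon.2] at h1
    simp at h1
  · intro hor
    by_contra hne
    rw [classInner_irr_of_ne (XC_irr h hStirr hSt1 hp1 hSt hl) (XC_irr h hStirr hSt1 hp1 hSt hm) hne] at h1
    rcases hor with h2 | h2
    · rw [if_pos h2] at h1
      by_cases h3 : l = m⁻¹
      · rw [if_pos h3] at h1
        norm_num at h1
      · rw [if_neg h3] at h1
        norm_num at h1
    · rw [if_pos h2] at h1
      by_cases h3 : l = m
      · rw [if_pos h3] at h1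
        norm_num at h1
      · rw [if_neg h3] at h1
        norm_num at h1

/-- **The exceptional characters.** -/
theorem exists_Z (h : TIInv E) {p : ℕ} [hp : Fact p.Prime] (hStirr : IsIrrCharacter G St) (hSt1 : St 1 = p)
    (hSt : ∀ y ∈ E, y ≠ 1 → St y = 1) (O : ValuationSubring ℂ)
    (hOint : ∀ z : ℂ, IsIntegral ℤ z → z ∈ O) (hOp : (p : ℂ) ∈ O.nonunits) (hpe : ¬ p ∣ Nat.card E) :
    ∃ Z : Finset (G → ℂ), 1 + 2 * Z.card = Nat.card E ∧
      (∀ χ ∈ Z, IsIrrCharacter G χ) ∧
      (∀ χ ∈ Z, χ 1 = p + 1) ∧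
      (∀ χ ∈ Z, ∀ g : G, (∀ a : G, a⁻¹ * g * a ∉ E) → St g = 0 → χ g = 1) ∧
      (∀ χ ∈ Z, ∀ w ∈ E, χ w⁻¹ = χ w) ∧
      (∀ χ ∈ Z, ∀ χ' ∈ Z, χ ≠ χ' → ∃ w ∈ E, χ w - χ' w ∉ O.nonunits) ∧
      (∀ c : G → ℂ, IsIrrCharacter G c → c ≠ (fun _ => 1) → c ≠ St → c ∉ Z → ∃ a : ℤ, c 1 = Nat.card E * a) := by
  classical
  have hp1 : p ≠ 1 := hp.out.ne_one
  haveI := h.hcyc
  haveI : Finite (E →* ℂˣ) := finite_hom
  letI : Fintype (E →* ℂˣ) := Fintype.ofFinite _
  let Λ : Finset (E →* ℂˣ) := Finset.univ.filter (fun l => l ≠ 1)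
  let Z : Finset (G → ℂ) := Λ.image (XC St)
  have hSt1' : St 1 ≠ 1 := by
    rw [hSt1]
    exact_mod_cast hp1
  have hZ : ∀ χ, χ ∈ Z ↔ ∃ l : E →* ℂˣ, l ≠ 1 ∧ XC St l = χ := by
    intro χ
    simp [Z, Λ]
  have hlinv : ∀ {l : E →* ℂˣ}, l ≠ 1 → l⁻¹ ≠ 1 := by
    intro l hl h0
    apply hl
    ext y
    have h4 := DFunLike.congr_fun h0 y
    rw [MonoidHom.one_apply, MonoidHom.inv_apply] at h4
    have h5 : l y = 1 := by rw [← inv_inv (l y), h4, inv_one]
    simp [h5]
  have hcl : IsClassFunction G St := Cfsg.Agent.Lib.Char.Basic.isClassFunction_of_isCharacter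
    (Cfsg.Agent.Lib.Char.Basic.isCharacter_of_isIrrCharacter hStirr)
  refine ⟨Z, ?_, ?_, ?_, ?_, ?_, ?_, ?_⟩
  · -- the count
    have h1 : Λ.card + 1 = Nat.card E := by
      have h2 : (Finset.univ : Finset (E →* ℂˣ)).card = Nat.card E := by
        rw [Finset.card_univ, ← Nat.card_eq_fintype_card, card_hom]
      rw [← h2]
      have h3 : Λ = Finset.univ.erase 1 := by
        ext l
        simp [Λ]
      rw [h3, Finset.card_erase_of_mem (Finset.mem_univ _)]
      have : 0 < (Finset.univ : Finset (E →* ℂˣ)).card := Finset.card_pos.2 ⟨1, Finset.mem_univ _⟩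
      omega
    have h2 : Λ.card = ∑ b ∈ Z, (Λ.filter (fun l => XC St l = b)).card := Finset.card_eq_sum_card_image _ _
    have h3 : ∀ b ∈ Z, (Λ.filter (fun l => XC St l = b)).card = 2 := by
      intro b hb
      obtain ⟨l₀, hl₀, rfl⟩ := (hZ b).1 hb
      have h4 : Λ.filter (fun l => XC St l = XC St l₀) = {l₀, l₀⁻¹} := by
        ext l
        simp only [Finset.mem_filter, Finset.mem_insert, Finset.mem_singleton, Λ, Finset.mem_univ, true_and]
        constructor
        · rintro ⟨hl, heq⟩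
          exact (XC_eq_iff h hStirr hSt1 hp1 hSt hl hl₀).1 heq
        · rintro (rfl | rfl)
          · exact ⟨hl₀, rfl⟩
          · refine ⟨hlinv hl₀, ?_⟩
            rw [XC_eq_iff h hStirr hSt1 hp1 hSt (hlinv hl₀) hl₀]
            exact Or.inr rfl
      rw [h4, Finset.card_pair (hom_ne_inv h.hodd hl₀)]
    rw [Finset.sum_congr rfl h3, Finset.sum_const, smul_eq_mul] at h2
    omega
  · intro χ hχ
    obtain ⟨l, hl, rfl⟩ := (hZ χ).1 hχ
    exact XC_irr h hStirr hSt1 hp1 hSt hl
  · intro χ hχ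
    obtain ⟨l, hl, rfl⟩ := (hZ χ).1 hχ
    exact XC_one h hSt1 l
  · intro χ hχ g hg hg0
    obtain ⟨l, hl, rfl⟩ := (hZ χ).1 hχ
    simp only [XC, Pi.add_apply, hg0, add_zero]
    have h1 : ∀ m : E →* ℂˣ, indFun E (lin E m) g = 0 := by
      intro m
      rw [indFun_apply]
      simp [extendByZero_of_notMem, hg]
    simp [BB, h1]
  · intro χ hχ w hw
    obtain ⟨l, hl, rfl⟩ := (hZ χ).1 hχ
    have h1 := XC_on_E (St := St) h l ⟨w, hw⟩
    have h2 := XC_on_E (St := St) h l ⟨w, hw⟩⁻¹
    have h3 : ((⟨w, hw⟩⁻¹ : E) : G) = w⁻¹ := rfl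
    rw [h3] at h2
    rw [h2]
    have h4 : (⟨w, hw⟩ : E)⁻¹⁻¹ = ⟨w, hw⟩ := inv_inv _
    rw [h4]
    simp only at h1
    rw [h1]
    by_cases hw1 : w = 1
    · subst hw1
      simp
      ring
    · have hw2 : w⁻¹ ≠ 1 := by simpa using hw1
      rw [hSt w hw hw1, hSt w⁻¹ (E.inv_mem hw) hw2]
      ring
  · intro χ hχ χ' hχ' hne
    obtain ⟨l, hl, rfl⟩ := (hZ χ).1 hχ
    obtain ⟨m, hm, rfl⟩ := (hZ χ').1 hχ'
    by_contra hcon
    push Not at hcon
    have hlm : ¬ (l = m ∨ l = m⁻¹) := fun h2 => hne ((XC_eq_iff h hStirr hSt1 hp1 hSt hl hm).2 h2)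
    push Not at hlm
    -- the sum
    have hsum : ∑ w : E, (XC St l (w : G) - XC St m (w : G)) * conj (lin E l w) = (Nat.card E : ℂ) := by
      have h1 : ∀ w : E, XC St l (w : G) - XC St m (w : G) = (lin E l + lin E l⁻¹ - lin E m - lin E m⁻¹) w := by
        intro w
        rw [XC_on_E h, XC_on_E h]
        simp only [Pi.sub_apply, Pi.add_apply, lin_inv]
        ring
      simp only [h1]
      have h2 : classInner (lin E l + lin E l⁻¹ - lin E m - lin E m⁻¹) (lin E l) = 1 := by
        rw [classInner_sub_left, classInner_sub_left, classInner_add_left, lin_ip, lin_ip, lin_ip, lin_ip]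
        have h3 : ¬ (l⁻¹ = l) := fun h4 => hom_ne_inv h.hodd hl h4.symm
        have h4 : ¬ (m = l) := fun h5 => hlm.1 h5.symm
        have h5 : ¬ (m⁻¹ = l) := fun h6 => hlm.2 h6.symm
        simp [h3, h4, h5]
      unfold classInner at h2
      have h3 := card_E_pos (E := E)
      field_simp at h2
      exact h2
    have hlt : O.valuation (Nat.card E : ℂ) < 1 := by
      rw [← hsum]
      refine Valuation.map_sum_lt _ one_ne_zero fun w _ => ?_
      rw [map_mul]
      have h1 : O.valuation (XC St l (w : G) - XC St m (w : G)) < 1 :=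
        (ValuationSubring.mem_nonunits_iff O).1 (hcon w w.2)
      have h2 : conj (lin E l w) ∈ O := by
        rw [lin_conj]
        refine mem_of_pow_eq_one O hOint (orderOf_pos (w⁻¹)) ?_
        simp only [lin]
        have h3 : (l w⁻¹) ^ orderOf w⁻¹ = 1 := by
          rw [← map_pow, pow_orderOf_eq_one, map_one]
        have := congrArg Units.val h3
        simpa using this
      have h3 := (ValuationSubring.valuation_le_one_iff O _).2 h2
      exact lt_of_le_of_lt (mul_le_of_le_one_right' h3) h1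
    have h1 := inv_natCast_mem O hOp hpe
    have h2 := (ValuationSubring.valuation_le_one_iff O _).2 h1
    have h3 : O.valuation (Nat.card E : ℂ) * O.valuation ((Nat.card E : ℂ))⁻¹ = 1 := by
      rw [← map_mul, mul_inv_cancel₀ card_E_pos, map_one]
    have h4 := lt_of_le_of_lt (mul_le_of_le_one_right' h2) hlt
    rw [h3] at h4
    exact lt_irrefl _ h4
  · intro c hc hc1 hcSt hcZ
    have hone_c : classInner (fun _ : G => (1 : ℂ)) c = 0 := classInner_irr_of_ne one_isIrr hc (Ne.symm hc1)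
    have hSt_c : classInner St c = 0 := classInner_irr_of_ne hStirr hc (Ne.symm hcSt)
    have hclc : IsClassFunction G c := Cfsg.Agent.Lib.Char.Basic.isClassFunction_of_isCharacter
      (Cfsg.Agent.Lib.Char.Basic.isCharacter_of_isIrrCharacter hc)
    have hB : ∀ l : E →* ℂˣ, l ≠ 1 → classInner (BB l) c = 0 := by
      intro l hl
      have h1 : XC St l ≠ c := by
        intro h2
        apply hcZ
        rw [← h2]
        exact (hZ _).2 ⟨l, hl, rfl⟩
      have h2 := classInner_irr_of_ne (XC_irr h hStirr hSt1 hp1 hSt hl) hc h1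
      simp only [XC] at h2
      rw [classInner_add_left, classInner_add_left, hone_c, hSt_c] at h2
      simpa using h2
    set a := classInner (lin E 1) (fun y : E => c y) with ha
    have hall : ∀ l : E →* ℂˣ, classInner (lin E l) (fun y : E => c y) = a := by
      intro l
      by_cases hl : l = 1
      · rw [hl]
      · have h1 := hB l hl
        rw [BB_ip _ hclc, classInner_sub_left] at h1
        exact sub_eq_zero.1 h1
    have hsum1 : ∑ l : E →* ℂˣ, classInner (lin E l) (fun y : E => c y) = (Nat.card E : ℂ) * a := by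
      simp only [hall, Finset.sum_const, Finset.card_univ, nsmul_eq_mul]
      rw [← Nat.card_eq_fintype_card, card_hom]
    have hsum2 : ∑ l : E →* ℂˣ, classInner (lin E l) (fun y : E => c y) = conj (c 1) := by
      unfold classInner
      rw [← Finset.mul_sum, Finset.sum_comm]
      simp_rw [← Finset.sum_mul]
      rw [Finset.sum_eq_single (1 : E)]
      · have h1 : ∑ l : E →* ℂˣ, lin E l 1 = (Nat.card E : ℂ) := by
          simp only [lin, map_one, Units.val_one, Finset.sum_const, Finset.card_univ, nsmul_eq_mul, mul_one]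
          rw [← Nat.card_eq_fintype_card, card_hom]
        rw [h1]
        have h2 := card_E_pos (E := E)
        field_simp
        rfl
      · intro y _ hy
        have h1 : ∑ l : E →* ℂˣ, lin E l y = 0 := sum_hom_apply hy
        rw [h1, zero_mul]
      · simp
    obtain ⟨n, hn, hn1⟩ := exists_degree_of_isIrr hc
    have h1 : c 1 = (Nat.card E : ℂ) * a := by
      rw [← hsum1, hsum2, hn1]
      simp
    have hgen : IsGeneralizedCharacter G (indFun E (lin E 1)) := ind_isGen 1
    obtain ⟨k, hk⟩ := exists_int_classInner hgen (isGeneralized_of_isIrr hc)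
    rw [frobenius_reciprocity _ _ _ hclc] at hk
    refine ⟨k, ?_⟩
    rw [h1, ha, hk]

end Main

end Cfsg.Agent.Lib.DefectOne.OddChars
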