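import Mathlib
import Cfsg.Agent.Lib.DefectOne.OddChars
import Cfsg.Agent.Lib.DefectOne.DimThm
import Cfsg.Agent.Lib.DefectOne.ExcFitSum
import Cfsg.Agent.Lib.DefectOne.SelfCent

/-!
# The odd case: a character of degree `|E|`
-/

set_option autoImplicit false
set_option linter.unusedSectionVars false

namespace Cfsg.Agent.Lib.DefectOne.OddCase

open Cfsg Subgroup Cfsg.Agent.Lib.DefectOne Cfsg.Agent.Lib.DefectOne.OddChars

universe u

variable {G : Type u} [Group G] [Fintype G] {p : ℕ} [hp : Fact p.Prime] {x w₀ : G}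

theorem odd_main (hord : orderOf x = p) (hcen : ∀ c : G, c * x = x * c → c ∈ zpowers x)
    (P : Sylow p G) (hz : zpowers x = (P : Subgroup G))
    (E : Subgroup G) [Fintype E] (hE : TIInv E) (hE3 : 3 ≤ Nat.card E)
    (hw₀ : w₀ ∈ E) (hgen : ∀ w ∈ E, ∃ n : ℕ, w = w₀ ^ n)
    (hEn : ∀ w ∈ E, ∀ u ∈ zpowers x, w⁻¹ * u * w ∈ zpowers x)
    (hT : ∀ t ∈ normalizer (zpowers x : Set G), ∃ a b : ℕ, t = x ^ a * w₀ ^ b)
    (hET : E ≤ normalizer (zpowers x : Set G))
    (hfix : ∀ g : G, (∀ u ∈ zpowers x, g⁻¹ * u * g ∈ normalizer (zpowers x : Set G)) →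
      g ∈ normalizer (zpowers x : Set G))
    (hEp : ¬ p ∣ Nat.card E) (hNT : Nat.card (normalizer (zpowers x : Set G)) = p * Nat.card E)
    (hlin : ∀ c : G → ℂ, IsIrrCharacter G c → c 1 = 1 → c = fun _ => 1)
    {St : G → ℂ} (hStirr : IsIrrCharacter G St) (hSt1 : St 1 = p) (hStE : ∀ y ∈ E, y ≠ 1 → St y = 1)
    (hStx : ∀ i : ZMod p, i ≠ 0 → St (x ^ i.val) = 0)
    (hsing : ∀ g : G, p ∣ orderOf g → orderOf g = p) :
    ∃ θ : G → ℂ, IsIrrCharacter G θ ∧ θ 1 = Nat.card E := by
  classical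
  have hζ : IsPrimitiveRoot (Complex.exp (2 * Real.pi * Complex.I / p)) p :=
    Complex.isPrimitiveRoot_exp p hp.out.ne_zero
  obtain ⟨e', t, X, Y, δ, ε, b, htab⟩ := exists_scTable hord hcen P hz hζ
  have hp' := hp.out
  have hee : e' = Nat.card E := by
    have h1 := htab.cardN
    rw [hNT] at h1
    exact (Nat.eq_of_mul_eq_mul_left hp'.pos h1).symm
  subst hee
  set e := Nat.card E with he
  obtain ⟨O, hOint, hOp⟩ := exists_val p
  obtain ⟨Z, hZcard, hZirr, hZ1, hZval, hZreal, hZdist, hZdvd⟩ :=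
    exists_Z hE hStirr hSt1 hStE O hOint hOp hEp
  have het := htab.het
  have hodd : Odd e := hE.hodd
  have hp3 : 4 ≤ p := by
    have h1 : 0 < e * t := by
      rcases Nat.eq_zero_or_pos t with h | h
      · subst h
        have : p - 1 = 0 := by simpa using het
        have := hp'.two_le
        omega
      · positivity
    have h2 : e ≤ e * t := Nat.le_mul_of_pos_right _ (Nat.pos_of_mul_pos_left h1 |> fun h => by
      rcases Nat.eq_zero_or_pos t with h' | h'
      · subst h'; simp at h1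
      · exact h')
    omega
  have hpodd : p % 2 = 1 := (hp'.eq_two_or_odd).resolve_left (by omega)
  have ht2 : 2 ≤ t := by
    have h1 : Even (e * t) := by
      rw [← het, Nat.even_iff]
      omega
    have h2 : Even t := (Nat.even_mul.1 h1).resolve_left (Nat.not_even_iff_odd.2 hodd)
    have h3 : t ≠ 0 := by
      rintro rfl
      simp at het
      omega
    obtain ⟨k, hk⟩ := h2
    omega
  have h2e : 2 * e ≤ p - 1 := by
    rw [het, mul_comm]
    exact Nat.mul_le_mul_left _ ht2
  have hdvdp : e ∣ p - 1 := ⟨t, het⟩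
  obtain ⟨htr, htrδ⟩ := htab.triv (by omega)
  -- degrees
  have hdegc : ∀ χ : IrrCharacter G, ((charDegree χ.1 : ℕ) : ℂ) = χ.1 1 := fun χ =>
    Cfsg.Agent.Lib.Char.Values.IsCharacter.charDegree_cast
      (Cfsg.Agent.Lib.Char.Values.IsIrrCharacter.isCharacter χ.2)
  have hdege : ∀ (χ : IrrCharacter G) {n : ℕ}, χ.1 1 = n → charDegree χ.1 = n := fun χ n hn =>
    Cfsg.Agent.Lib.Char.Values.IsCharacter.charDegree_eq
      (Cfsg.Agent.Lib.Char.Values.IsIrrCharacter.isCharacter χ.2) hn
  have hp1 : (p : ℤ) ≠ 1 := by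
    have := hp'.two_le
    omega
  have hndvd1 : ¬ (p : ℤ) ∣ 1 := by
    intro h
    have := Int.le_of_dvd one_pos h
    have := hp'.two_le
    omega
  -- the Steinberg character is outside the table
  let st : IrrCharacter G := ⟨St, hStirr⟩
  have hstX : st ∉ X := by
    intro hm
    have h1 := htab.degX st hm
    rw [hdege st hSt1] at h1
    have h2 := h1.dvd
    have h3 : (p : ℤ) ∣ δ st := by
      have := dvd_add h2 (dvd_refl (p : ℤ))
      simpa using this
    rcases htab.signX st hm with h4 | h4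
    · rw [h4] at h3
      exact hndvd1 h3
    · rw [h4] at h3
      exact hndvd1 ((dvd_neg).1 h3)
  have hstY : st ∉ Y := by
    intro hm
    obtain ⟨m, hm1, -⟩ := htab.degY st hm
    rw [hdege st hSt1] at hm1
    have h3 : (p : ℤ) ∣ ε * e := by
      refine ⟨1 - m, ?_⟩
      linear_combination -hm1
    have h4 : (p : ℤ) ∣ (e : ℤ) := by
      rcases htab.sign with h | h
      · rw [h] at h3
        simpa using h3
      · rw [h] at h3
        simpa using h3
    exact hEp (Int.natCast_dvd_natCast.1 h4)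
  -- elements of the Sylow subgroup are not conjugate into `E`
  have hconj : ∀ i : ZMod p, i ≠ 0 → ∀ a : G, a⁻¹ * x ^ i.val * a ∉ E := by
    intro i hi a ham
    have hne : x ^ i.val ≠ 1 := by
      intro h0
      have h1 := orderOf_dvd_of_pow_eq_one h0
      rw [hord] at h1
      have h2 : i.val < p := ZMod.val_lt i
      have h3 : i.val = 0 := Nat.eq_zero_of_dvd_of_lt h1 h2
      exact hi ((ZMod.val_eq_zero i).1 h3)
    have h1 : (a⁻¹ * x ^ i.val * a) ^ p = 1 := by
      have h2 : a⁻¹ * x ^ i.val * a = (MulAut.conj a⁻¹) (x ^ i.val) := by simp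
      have hxp : x ^ p = 1 := hord ▸ pow_orderOf_eq_one x
      rw [h2, ← map_pow, ← pow_mul, mul_comm, pow_mul, hxp, one_pow, map_one]
    have h2 : a⁻¹ * x ^ i.val * a ≠ 1 := by
      intro h0
      apply hne
      have : x ^ i.val = a * (a⁻¹ * x ^ i.val * a) * a⁻¹ := by group
      rw [this, h0]
      simp
    have h3 : orderOf (a⁻¹ * x ^ i.val * a) = p := orderOf_eq_prime h1 h2
    have h4 : orderOf (⟨_, ham⟩ : E) = p := by
      rw [Subgroup.orderOf_mk]
      exact h3
    apply hEp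
    rw [← h4]
    exact orderOf_dvd_natCard _
  have hzero : (1 : ZMod p) ≠ 0 := by
    haveI : Fact (1 < p) := ⟨hp'.one_lt⟩
    exact one_ne_zero
  -- the characters in `Z` lie in `X`
  have hZX : ∀ (χ : G → ℂ) (hχ : χ ∈ Z), (⟨χ, hZirr χ hχ⟩ : IrrCharacter G) ∈ X ∧ δ ⟨χ, hZirr χ hχ⟩ = 1 := by
    intro χ hχ
    set c : IrrCharacter G := ⟨χ, hZirr χ hχ⟩ with hc
    have hval : χ (XX x (1 : ZMod p)) = 1 := hZval χ hχ _ (hconj 1 hzero) (hStx 1 hzero)
    have hdc : charDegree c.1 = p + 1 := hdege c (n := p + 1) (by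
      show χ 1 = _
      rw [hZ1 χ hχ]
      push_cast
      rfl)
    have hX : c ∈ X := by
      by_contra hn
      by_cases hY : c ∈ Y
      · exfalso
        obtain ⟨m, hm1, -⟩ := htab.degY c hY
        rw [hdc] at hm1
        push_cast at hm1
        rcases htab.sign with h | h
        · rw [h] at hm1
          have h3 : (p : ℤ) ∣ (e : ℤ) - 1 := ⟨1 - m, by linear_combination -hm1⟩
          have h4 := Int.le_of_dvd (by omega) h3
          omega
        · rw [h] at hm1
          have h3 : (p : ℤ) ∣ (e : ℤ) + 1 := ⟨m - 1, by linear_combination hm1⟩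
          have h4 := Int.le_of_dvd (by omega) h3
          omega
      · have h1 := htab.out c (by
          simp only [Finset.mem_union, not_or]
          exact ⟨hn, hY⟩) 1 hzero
        have h2 : χ (XX x (1 : ZMod p)) = 0 := h1
        rw [hval] at h2
        exact one_ne_zero h2
    refine ⟨hX, ?_⟩
    have h1 := htab.valX c hX 1 hzero
    have h2 : χ (XX x (1 : ZMod p)) = (δ c : ℂ) := h1
    rw [hval] at h2
    exact_mod_cast h2.symm
  -- the dimension theorem
  have hwe : w₀ ^ e = 1 := by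
    have h1 : (⟨w₀, hw₀⟩ : E) ^ Nat.card E = 1 := pow_card_eq_one'
    have h2 : ((⟨w₀, hw₀⟩ : E) : G) ^ Nat.card E = 1 := by
      rw [← Subgroup.coe_pow, h1]
      rfl
    exact h2
  have hdim : ∀ {n : ℕ} (A : G →* Matrix (Fin n) (Fin n) O),
      (∀ S : Matrix (Fin n) (Fin n) (IsLocalRing.ResidueField O),
        (∀ g, S * redHom O A g = redHom O A g * S) → IsNilpotent S ∨ IsUnit S) →
      n % p = 1 % p → n = 1 ∨ ∃ χ ∈ Z, χ 1 = n := by
    intro n A hF hn
    refine DimThm.dim_theorem O (T := normalizer (zpowers x : Set G)) (K := E) hOint hOp hord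
      (Subgroup.le_normalizer) ?_ hET hEn hEp hw₀ hgen hT hfix Z hZirr ?_ hZreal hZdist hZcard hwe A hF hn
    · intro t ht
      obtain ⟨a, b, rfl⟩ := hT t ht
      exact ⟨x ^ a, Subgroup.npow_mem_zpowers x a, w₀ ^ b, E.pow_mem hw₀ b, rfl⟩
    · intro χ hχ
      refine ⟨p + 1, ?_, by omega, ?_⟩
      · rw [hZ1 χ hχ]
        push_cast
        rfl
      · rw [Nat.add_mod_left]
  have hcontra : ∀ n : ℕ, (e : ℤ) ∣ n → ¬ (n = 1 ∨ ∃ χ ∈ Z, χ 1 = n) := by
    intro n hen hor
    have hen' : e ∣ n := Int.natCast_dvd_natCast.1 hen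
    rcases hor with rfl | ⟨χ, hχ, h1⟩
    · have := Nat.le_of_dvd one_pos hen'
      omega
    · rw [hZ1 χ hχ] at h1
      have h2 : n = p + 1 := by
        have h3 : ((p + 1 : ℕ) : ℂ) = n := by
          push_cast
          exact h1
        exact_mod_cast h3.symm
      rw [h2] at hen'
      have h3 : e ∣ (p + 1) - (p - 1) := Nat.dvd_sub hen' hdvdp
      have h4 : (p + 1) - (p - 1) = 2 := by omega
      rw [h4] at h3
      have := Nat.le_of_dvd two_pos h3
      omega
  -- the divisibility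
  have hdvd : ∀ c : IrrCharacter G, c ≠ Cfsg.Agent.Lib.Blocks.Principal.trivChar G → c ≠ st → c.1 ∉ Z →
      (e : ℤ) ∣ (charDegree c.1 : ℕ) := by
    intro c h1 h2 h3
    obtain ⟨a, ha⟩ := hZdvd c.1 c.2 (fun h => h1 (Subtype.ext h)) (fun h => h2 (Subtype.ext h)) h3
    rw [← hdegc c] at ha
    refine ⟨a, ?_⟩
    exact_mod_cast ha
  -- the other characters in `X`
  have hOth : ∀ c ∈ X, c ≠ Cfsg.Agent.Lib.Blocks.Principal.trivChar G → c.1 ∉ Z →
      δ c = -1 ∧ (p : ℤ) - 1 ≤ (charDegree c.1 : ℕ) := by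
    intro c hc h1 h2
    have hcst : c ≠ st := fun h => hstX (h ▸ hc)
    have hd := hdvd c h1 hcst h2
    have hδ : δ c = -1 := by
      rcases htab.signX c hc with h3 | h3
      · exfalso
        have h4 := htab.degX c hc
        rw [h3] at h4
        obtain ⟨d', R, hpos, hd1, htr', hirr⟩ := exists_irr_matrix c.2
        obtain ⟨B, A, hdet, hA, hF⟩ := exists_fit_form O R hirr hpos
        have hcd := hdege c hd1
        rw [hcd] at h4 hd
        have hn : d' % p = 1 % p := by
          have := (Int.natCast_modEq_iff (a := d') (b := 1) (n := p)).1 (by simpa using h4)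
          exact this
        apply hcontra d' hd
        rcases hdim A hF hn with h5 | h5
        · exact Or.inl h5
        · exact Or.inr h5
      · exact h3
    refine ⟨hδ, ?_⟩
    have h4 := htab.degX c hc
    rw [hδ] at h4
    have h5 := h4.dvd
    obtain ⟨k, hk⟩ := h5
    obtain ⟨n, hn, hn1⟩ := Cfsg.Agent.Lib.Char.Virtual.exists_degree_of_isIrr c.2
    have hcn := hdege c hn1
    rw [hcn] at hk ⊢
    have h6 : (p : ℤ) ∣ (n : ℤ) + 1 := ⟨-k, by linear_combination -hk⟩
    have h7 := Int.le_of_dvd (by omega) h6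
    omega
  -- the characters of `Y`
  have hYne : Y.Nonempty := by
    rw [← Finset.card_pos, htab.cardY]
    omega
  obtain ⟨θ₀, hθ₀⟩ := hYne
  have hone : ¬ p ∣ orderOf (1 : G) := by
    rw [orderOf_one]
    intro h
    exact hp'.one_lt.ne' (Nat.dvd_one.1 h)
  -- the relation at `1`
  let f : IrrCharacter G → ℤ := fun χ => δ χ * (charDegree χ.1 : ℕ)
  have hrel : ε * (charDegree θ₀.1 : ℕ) = ∑ χ ∈ X, f χ := by
    have h1 := htab.rel 1 hone θ₀ hθ₀
    simp only [← hdegc] at h1
    simp only [f]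
    exact_mod_cast h1
  let Zi : Finset (IrrCharacter G) := Z.subtype (IsIrrCharacter G)
  have hZi : ∀ c : IrrCharacter G, c ∈ Zi ↔ c.1 ∈ Z := fun c => Finset.mem_subtype
  have hZicard : Zi.card = Z.card := by
    simp only [Zi]
    rw [Finset.card_subtype, Finset.filter_true_of_mem hZirr]
  let triv := Cfsg.Agent.Lib.Blocks.Principal.trivChar G
  have htrivdeg : charDegree triv.1 = 1 := Cfsg.Agent.Lib.Blocks.Principal.charDegree_trivChar
  have hZdeg : ∀ c ∈ Zi, charDegree c.1 = p + 1 := by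
    intro c hc
    refine hdege c ?_
    rw [hZ1 c.1 ((hZi c).1 hc)]
    push_cast
    rfl
  have htrivZ : triv ∉ Zi := by
    intro h
    have := hZdeg triv h
    rw [htrivdeg] at this
    omega
  have hsubX : insert triv Zi ⊆ X := by
    intro c hc
    rcases Finset.mem_insert.1 hc with rfl | hc
    · exact htr
    · exact (hZX c.1 ((hZi c).1 hc)).1
  have hOthcard : (X \ insert triv Zi).card = Z.card := by
    rw [Finset.card_sdiff_of_subset hsubX, Finset.card_insert_of_notMem htrivZ, hZicard, htab.cardX]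
    omega
  have hsplit : ∑ χ ∈ X, f χ = ∑ χ ∈ X \ insert triv Zi, f χ + ∑ χ ∈ insert triv Zi, f χ :=
    (Finset.sum_sdiff hsubX).symm
  have hins : ∑ χ ∈ insert triv Zi, f χ = 1 + Z.card * ((p : ℤ) + 1) := by
    rw [Finset.sum_insert htrivZ]
    have h1 : f triv = 1 := by
      simp only [f]
      rw [htrivdeg, htrδ]
      norm_num
    have h2 : ∀ c ∈ Zi, f c = (p : ℤ) + 1 := by
      intro c hc
      simp only [f]
      have h3 := (hZX c.1 ((hZi c).1 hc)).2
      have h4 : (⟨c.1, hZirr c.1 ((hZi c).1 hc)⟩ : IrrCharacter G) = c := Subtype.ext rfl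
      rw [h4] at h3
      rw [h3, hZdeg c hc]
      push_cast
      ring
    rw [h1, Finset.sum_congr rfl h2, Finset.sum_const, hZicard]
    simp
  have hoth : ∑ χ ∈ X \ insert triv Zi, f χ ≤ Z.card * (-((p : ℤ) - 1)) := by
    have h1 : ∀ c ∈ X \ insert triv Zi, f c ≤ -((p : ℤ) - 1) := by
      intro c hc
      obtain ⟨hcX, hcn⟩ := Finset.mem_sdiff.1 hc
      have hc1 : c ≠ Cfsg.Agent.Lib.Blocks.Principal.trivChar G := fun h => hcn (h ▸ Finset.mem_insert_self _ _)
      have hc2 : c.1 ∉ Z := fun h => hcn (Finset.mem_insert_of_mem ((hZi c).2 h))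
      obtain ⟨h2, h3⟩ := hOth c hcX hc1 hc2
      simp only [f]
      rw [h2]
      linarith
    have h2 := Finset.sum_le_card_nsmul _ _ _ h1
    rw [hOthcard] at h2
    simpa using h2
  have hbound : ε * (charDegree θ₀.1 : ℕ) ≤ e := by
    rw [hrel, hsplit, hins]
    have h1 : (e : ℤ) = 1 + 2 * Z.card := by
      rw [he, ← hZcard]
      push_cast
      ring
    rw [h1]
    nlinarith
  obtain ⟨m, hm1, hm2⟩ := htab.degY θ₀ hθ₀
  rcases htab.sign with hε | hε
  · -- the sign `+`
    rw [hε] at hbound hm1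
    refine ⟨θ₀.1, θ₀.2, ?_⟩
    have h1 : (charDegree θ₀.1 : ℤ) = e := by
      have hm0 : (0 : ℤ) ≤ m := by positivity
      have hp0 : (0 : ℤ) < p := by exact_mod_cast hp'.pos
      have h2 : (p : ℤ) * m = 0 := by
        have h3 : (0 : ℤ) ≤ p * m := by positivity
        linarith
      linarith
    rw [← hdegc θ₀]
    have h2 : charDegree θ₀.1 = e := by exact_mod_cast h1
    rw [h2]
  · -- the sign `-`: impossible
    exfalso
    rw [hε] at hm1
    have hreg : ∀ (θ θ' : IrrCharacter G), θ ∈ Y → θ' ∈ Y → ∀ g : G, ¬ p ∣ orderOf g → θ.1 g = θ'.1 g := by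
      intro θ θ' hθ hθ' g hg
      have h1 := htab.rel g hg θ hθ
      have h2 := htab.rel g hg θ' hθ'
      rw [← h2, hε] at h1
      have h3 : (((-1 : ℤ) : ℂ)) ≠ 0 := by norm_num
      exact mul_left_cancel₀ h3 h1
    let ι := {θ // θ ∈ Y}
    have hιcard : Fintype.card ι = t := by
      rw [Fintype.card_coe, htab.cardY]
    haveI : Nonempty ι := ⟨⟨θ₀, hθ₀⟩⟩
    obtain ⟨d, hd0, hd1⟩ := Cfsg.Agent.Lib.Char.Virtual.exists_degree_of_isIrr θ₀.2
    have hcd := hdege θ₀ hd1
    obtain ⟨A, -, hF⟩ := ExcFit.exists_fit_sum O hOint hOp (p := p) (ι := ι) (fun i => i.1.1) (fun i => i.1.2)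
      (fun i j h => Subtype.ext (Subtype.ext h))
      (fun i j g hg => hreg i.1 j.1 i.2 j.2 g hg) hsing hd0
      (fun i => by
        show i.1.1 1 = _
        rw [hreg i.1 θ₀ i.2 hθ₀ 1 hone, hd1])
    rw [hcd] at hm1
    have hn : (d * Fintype.card ι) % p = 1 % p := by
      rw [hιcard]
      have h1 : ((d * t : ℕ) : ℤ) ≡ ((1 : ℕ) : ℤ) [ZMOD p] := by
        apply Int.ModEq.symm
        apply Int.modEq_of_dvd
        refine ⟨m * t - 1, ?_⟩
        have h2 : ((p : ℤ) - 1) = e * t := by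
          have h3 : ((p - 1 : ℕ) : ℤ) = (e * t : ℕ) := by rw [het]
          push_cast [Nat.cast_sub hp'.pos] at h3
          exact h3
        push_cast
        rw [hm1]
        linear_combination h2
      exact (Int.natCast_modEq_iff).1 h1
    have hen : (e : ℤ) ∣ ((d * Fintype.card ι : ℕ) : ℤ) := by
      have h1 := hdvd θ₀ (fun h => Finset.disjoint_left.1 htab.disj htr (h ▸ hθ₀))
        (fun h => hstY (h ▸ hθ₀))
        (fun h => Finset.disjoint_left.1 htab.disj (hZX θ₀.1 h).1 hθ₀)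
      rw [hcd] at h1
      push_cast
      exact Dvd.dvd.mul_right h1 _
    exact hcontra _ hen (hdim A hF hn)

end Cfsg.Agent.Lib.DefectOne.OddCase
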