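import Mathlib
import Cfsg.Agent.Lib.DefectOne.ExcFitSum
import Cfsg.Agent.Lib.DefectOne.ThmAGroup
import Cfsg.Agent.Lib.Char.LinearChars
import Cfsg.Agent.Lib.Char.Values
import Cfsg.Agent.Lib.CycSylow.Residual
import Cfsg.Agent.Lib.Char.PrimeIndex
import Cfsg.Agent.Lib.Perm.PrimeDeg

/-!
# A Sylow subgroup of prime order with a complement: the local part
-/

set_option autoImplicit false
set_option linter.unusedSectionVars false

namespace Cfsg.Agent.Lib.DefectOne.PermSt

open Cfsg Subgroup Cfsg.Agent.Lib.DefectOne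
open scoped commutatorElement Pointwise

universe u

variable {G : Type u} [Group G] {p : ℕ} [hp : Fact p.Prime] {x : G}

section Local

variable [Finite G]

lemma isCyclic_E (hord : orderOf x = p) (hcen : ∀ c : G, c * x = x * c → c ∈ zpowers x) (E : Subgroup G)
    (hEN : E ≤ normalizer (zpowers x : Set G)) (hPE' : zpowers x ⊓ E = ⊥) : IsCyclic E := by
  have hcard : Nat.card (zpowers x) = p := by rw [Nat.card_zpowers, hord]
  haveI hauto := (Cfsg.Agent.Lib.CycSylow.mulAut_of_card_prime hcard).1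
  let φ : E →* MulAut (zpowers x) := (zpowers x).normalizerMonoidHom.comp (Subgroup.inclusion hEN)
  have hinj : Function.Injective φ := by
    rw [injective_iff_map_eq_one]
    intro t ht
    have h3 : φ t ⟨x, mem_zpowers x⟩ = ⟨x, mem_zpowers x⟩ := by
      rw [ht]
      rfl
    have h4 := congrArg Subtype.val h3
    have h5 : (t : G) * x * (t : G)⁻¹ = x := h4
    have h1 : (t : G) * x = x * (t : G) := by
      calc (t : G) * x = ((t : G) * x * (t : G)⁻¹) * (t : G) := by group
        _ = x * (t : G) := by rw [h5]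
    have h2 := hcen _ h1
    have h6 : (t : G) ∈ zpowers x ⊓ E := ⟨h2, t.2⟩
    rw [hPE', Subgroup.mem_bot] at h6
    exact Subtype.ext h6
  exact isCyclic_of_injective φ hinj

lemma mem_T {E : Subgroup G} (hEN : E ≤ normalizer (zpowers x : Set G))
    (hPE : zpowers x ⊔ E = normalizer (zpowers x : Set G)) {t : G} (ht : t ∈ normalizer (zpowers x : Set G)) :
    ∃ u ∈ zpowers x, ∃ w ∈ E, t = u * w := by
  have h1 := coe_mul_of_right_le_normalizer_left (zpowers x) E hEN
  rw [← hPE] at ht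
  have h2 : t ∈ (↑(zpowers x ⊔ E) : Set G) := ht
  rw [h1] at h2
  obtain ⟨u, hu, w, hw, rfl⟩ := Set.mem_mul.1 h2
  exact ⟨u, hu, w, hw, rfl⟩

lemma card_T (hord : orderOf x = p) {E : Subgroup G} (hEN : E ≤ normalizer (zpowers x : Set G))
    (hPE : zpowers x ⊔ E = normalizer (zpowers x : Set G)) (hPE' : zpowers x ⊓ E = ⊥) :
    Nat.card (normalizer (zpowers x : Set G)) = p * Nat.card E := by
  have hcard : Nat.card (zpowers x) = p := by rw [Nat.card_zpowers, hord]
  rw [← hcard, ← Nat.card_prod]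
  symm
  refine Nat.card_congr (Equiv.ofBijective
    (fun a : zpowers x × E => (⟨(a.1 : G) * (a.2 : G), ?_⟩ : normalizer (zpowers x : Set G))) ⟨?_, ?_⟩)
  · exact mul_mem (Subgroup.le_normalizer a.1.2) (hEN a.2.2)
  · rintro ⟨u, w⟩ ⟨u', w'⟩ h
    have h1 : (u : G) * (w : G) = (u' : G) * (w' : G) := congrArg Subtype.val h
    have h2 : ((u' : G))⁻¹ * (u : G) = (w' : G) * ((w : G))⁻¹ := by
      calc ((u' : G))⁻¹ * (u : G) = ((u' : G))⁻¹ * ((u : G) * (w : G)) * ((w : G))⁻¹ := by group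
        _ = ((u' : G))⁻¹ * ((u' : G) * (w' : G)) * ((w : G))⁻¹ := by rw [h1]
        _ = _ := by group
    have h3 : ((u' : G))⁻¹ * (u : G) ∈ zpowers x ⊓ E := by
      refine Subgroup.mem_inf.2 ⟨mul_mem (inv_mem u'.2) u.2, ?_⟩
      rw [h2]
      exact mul_mem w'.2 (inv_mem w.2)
    rw [hPE', Subgroup.mem_bot] at h3
    have h4 : (u : G) = (u' : G) := by
      have := inv_mul_eq_one.1 h3
      exact this.symm
    have h5 : (w : G) = (w' : G) := by
      rw [h4] at h1
      exact mul_left_cancel h1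
    exact Prod.ext (Subtype.ext h4) (Subtype.ext h5)
  · rintro ⟨t, ht⟩
    obtain ⟨u, hu, w, hw, rfl⟩ := mem_T hEN hPE ht
    exact ⟨(⟨u, hu⟩, ⟨w, hw⟩), rfl⟩

/-- `y ∈ E#` acts without fixed points on `⟨x⟩`. -/
lemma fpf_comm (hord : orderOf x = p) (hcen : ∀ c : G, c * x = x * c → c ∈ zpowers x) {E : Subgroup G}
    (hEN : E ≤ normalizer (zpowers x : Set G)) (hPE' : zpowers x ⊓ E = ⊥) {y : G} (hy : y ∈ E) (hy1 : y ≠ 1)
    {v : G} (hv : v ∈ zpowers x) : ∃ u ∈ zpowers x, u⁻¹ * y * u = v * y := by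
  haveI : Finite (zpowers x) := inferInstance
  have hn : ∀ u ∈ zpowers x, u⁻¹ * (y * u * y⁻¹) ∈ zpowers x := by
    intro u hu
    exact mul_mem (inv_mem hu) ((Subgroup.mem_normalizer_iff.1 (hEN hy) u).1 hu)
  let f : zpowers x → zpowers x := fun u => ⟨(u : G)⁻¹ * (y * u * y⁻¹), hn u u.2⟩
  have hinj : Function.Injective f := by
    intro a b hab
    have h1 : (a : G)⁻¹ * (y * a * y⁻¹) = (b : G)⁻¹ * (y * b * y⁻¹) := congrArg Subtype.val hab
    set c : G := (b : G) * (a : G)⁻¹ with hc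
    have hcm : c ∈ zpowers x := mul_mem b.2 (inv_mem a.2)
    have h2 : y * c * y⁻¹ = c := by
      calc y * c * y⁻¹ = (y * b * y⁻¹) * (y * a * y⁻¹)⁻¹ := by rw [hc]; group
        _ = (b : G) * ((b : G)⁻¹ * (y * b * y⁻¹)) * (y * a * y⁻¹)⁻¹ := by group
        _ = (b : G) * ((a : G)⁻¹ * (y * a * y⁻¹)) * (y * a * y⁻¹)⁻¹ := by rw [h1]
        _ = c := by rw [hc]; group
    have h8 : y * c = c * y := by
      calc y * c = (y * c * y⁻¹) * y := by group
        _ = c * y := by rw [h2]
    by_contra hne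
    have hc1 : c ≠ 1 := by
      intro h0
      apply hne
      have : (b : G) = (a : G) := by
        rw [hc] at h0
        exact mul_inv_eq_one.1 h0
      exact Subtype.ext this.symm
    have hcard : Nat.card (zpowers x) = p := by rw [Nat.card_zpowers, hord]
    have h9 : zpowers c = zpowers x := by
      have hle : zpowers c ≤ zpowers x := (zpowers_le).2 hcm
      have h10 : Nat.card (zpowers c) ∣ Nat.card (zpowers x) := Subgroup.card_dvd_of_le hle
      rw [hcard] at h10
      rcases (Nat.dvd_prime hp.out).1 h10 with h11 | h11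
      · exfalso
        rw [Nat.card_zpowers, orderOf_eq_one_iff] at h11
        exact hc1 h11
      · exact Subgroup.eq_of_le_of_card_ge hle (by rw [hcard, h11])
    have hxc : x ∈ zpowers c := by
      rw [h9]
      exact mem_zpowers x
    obtain ⟨k, hk⟩ := Subgroup.mem_zpowers_iff.1 hxc
    have hyx : y * x = x * y := by
      rw [← hk]
      exact (Commute.zpow_right (show Commute y c from h8) k).eq
    have hym : y ∈ zpowers x ⊓ E := Subgroup.mem_inf.2 ⟨hcen y hyx, hy⟩
    rw [hPE', Subgroup.mem_bot] at hym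
    exact hy1 hym
  have hsurj : Function.Surjective f := Finite.injective_iff_surjective.1 hinj
  obtain ⟨u, hu⟩ := hsurj ⟨v, hv⟩
  refine ⟨u, u.2, ?_⟩
  have h1 : (u : G)⁻¹ * (y * u * y⁻¹) = v := congrArg Subtype.val hu
  rw [← h1]
  group

end Local

section Char

variable [Fintype G]

open Cfsg.Agent.Lib.Char.Values Cfsg.Agent.Lib.Char.LinearChars

/-- The values of `St` on `E#` form a linear character. -/
theorem exists_lin (hord : orderOf x = p) (hcen : ∀ c : G, c * x = x * c → c ∈ zpowers x) {E : Subgroup G}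
    (hEN : E ≤ normalizer (zpowers x : Set G)) (hPE' : zpowers x ⊓ E = ⊥)
    {St : G → ℂ} (hStirr : IsIrrCharacter G St) (hSt1 : St 1 = p)
    (hStx : ∀ u ∈ zpowers x, u ≠ 1 → St u = 0) :
    ∃ c : E →* ℂˣ, ∀ y : E, y ≠ 1 → St y = ((c y : ℂˣ) : ℂ) := by
  classical
  obtain ⟨d, R, hpos, h1, htr, hirr⟩ := exists_irr_matrix hStirr
  have hcl : IsClassFunction G St := Cfsg.Agent.Lib.Char.Basic.isClassFunction_of_isCharacter
    (IsIrrCharacter.isCharacter hStirr)
  letI : Fintype (zpowers x) := Fintype.ofFinite _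
  have hcard : Nat.card (zpowers x) = p := by rw [Nat.card_zpowers, hord]
  have hcard' : Fintype.card (zpowers x) = p := by rw [← Nat.card_eq_fintype_card, hcard]
  have hp0 : (p : ℂ) ≠ 0 := by exact_mod_cast hp.out.ne_zero
  let RP : zpowers x →* Matrix (Fin d) (Fin d) ℂ := R.comp (zpowers x).subtype
  let Q : Matrix (Fin d) (Fin d) ℂ := ∑ u : zpowers x, (p : ℂ)⁻¹ • R u
  have hQ : Q * Q = Q := by
    have := ExcFit.sum_smul_mul_self (G := zpowers x) (R := RP) (fun _ => (p : ℂ)⁻¹) (fun g => by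
      simp only [Finset.sum_const, Finset.card_univ, hcard', nsmul_eq_mul]
      field_simp)
    exact this
  have hc : ∀ y : E, R y * Q = Q * R y := by
    intro y
    simp only [Q, Finset.mul_sum, Finset.sum_mul, Matrix.mul_smul, Matrix.smul_mul, ← map_mul]
    have hy : (y : G) ∈ normalizer (zpowers x : Set G) := hEN y.2
    let σ : zpowers x ≃ zpowers x := ((zpowers x).normalizerMonoidHom ⟨y, hy⟩).toEquiv
    have hσ : ∀ u : zpowers x, ((σ u : zpowers x) : G) = (y : G) * u * (y : G)⁻¹ := fun u => rfl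
    refine Fintype.sum_equiv σ _ _ fun u => ?_
    rw [hσ]
    congr 2
    group
  have hχ := isCharacter_trace_idem (R.comp E.subtype) Q hQ hc
  have htrace : ∀ y : G, (R y * Q).trace = ∑ u : zpowers x, (p : ℂ)⁻¹ * St (y * u) := by
    intro y
    simp only [Q, Finset.mul_sum, Matrix.mul_smul, ← map_mul, Matrix.trace_sum, Matrix.trace_smul, htr, smul_eq_mul]
  have hone : (R 1 * Q).trace = 1 := by
    rw [htrace]
    simp only [one_mul]
    rw [Finset.sum_eq_single (1 : zpowers x)]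
    · simp [hSt1, hp0]
    · intro u _ hu
      rw [hStx u u.2 (by simpa using hu)]
      simp
    · simp
  obtain ⟨c, hc'⟩ := exists_hom_of_isCharacter_one hχ (by simpa using hone)
  refine ⟨c, fun y hy => ?_⟩
  have h2 := congrFun hc' y
  simp only [MonoidHom.comp_apply, Subgroup.coe_subtype] at h2
  rw [← h2, htrace]
  have hy1 : (y : G) ≠ 1 := by simpa using hy
  have h3 : ∀ u : zpowers x, St ((y : G) * u) = St y := by
    intro u
    have hv : (y : G) * u * (y : G)⁻¹ ∈ zpowers x := (Subgroup.mem_normalizer_iff.1 (hEN y.2) u).1 u.2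
    obtain ⟨w, hw, hw1⟩ := fpf_comm hord hcen hEN hPE' y.2 hy1 hv
    have h4 : (y : G) * u = w⁻¹ * y * w := by
      rw [hw1]
      group
    rw [h4]
    have h5 := hcl y w⁻¹
    simpa using h5
  simp only [h3, Finset.sum_const, Finset.card_univ, hcard', nsmul_eq_mul]
  field_simp

/-- All linear characters are trivial on `E` and `G` is perfect. -/
theorem perfect_of (hord : orderOf x = p) (hcen : ∀ c : G, c * x = x * c → c ∈ zpowers x)
    (P : Sylow p G) (hz : zpowers x = (P : Subgroup G)) {E : Subgroup G}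
    (hEN : E ≤ normalizer (zpowers x : Set G)) (hPE : zpowers x ⊔ E = normalizer (zpowers x : Set G))
    (hPE' : zpowers x ⊓ E = ⊥) (hE1 : E ≠ ⊥)
    (huniq : ∃! χ : IrrCharacter G, charDegree (χ : G → ℂ) = p)
    {St : G → ℂ} (hStirr : IsIrrCharacter G St) (hSt1 : St 1 = p)
    (hStx : ∀ u ∈ zpowers x, u ≠ 1 → St u = 0) : commutator G = ⊤ := by
  classical
  obtain ⟨c, hc⟩ := exists_lin hord hcen hEN hPE' hStirr hSt1 hStx
  obtain ⟨y₀, hy₀, hy₀1⟩ := (Subgroup.ne_bot_iff_exists_ne_one.1 hE1) |> fun ⟨a, ha⟩ => (⟨a, a.2, by simpa using ha⟩ : ∃ y : G, y ∈ E ∧ y ≠ 1)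
  have hxG : x ∈ commutator G := by
    obtain ⟨u, hu, h1⟩ := fpf_comm hord hcen hEN hPE' hy₀ hy₀1 (mem_zpowers x)
    have h2 : x = ⁅u⁻¹, y₀⁆ := by
      rw [commutatorElement_def, inv_inv]
      calc x = x * y₀ * y₀⁻¹ := by group
        _ = u⁻¹ * y₀ * u * y₀⁻¹ := by rw [h1]
    rw [h2, _root_.commutator_def]
    exact Subgroup.commutator_mem_commutator (Subgroup.mem_top _) (Subgroup.mem_top _)
  have hEG : ∀ y ∈ E, y ∈ commutator G := by
    intro y hy
    by_contra hn
    have hy1 : y ≠ 1 := fun h => hn (h ▸ one_mem _)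
    have hne : (Abelianization.of y : Abelianization G) ≠ 1 := by
      intro h
      exact hn ((QuotientGroup.eq_one_iff y).1 h)
    have hexp : NeZero ((Monoid.exponent (Abelianization G) : ℕ) : ℂ) :=
      ⟨Nat.cast_ne_zero.2 Monoid.exponent_ne_zero_of_finite⟩
    obtain ⟨ε, hε⟩ := CommGroup.exists_apply_ne_one_of_hasEnoughRootsOfUnity (Abelianization G) ℂ hne
    let l : G →* ℂˣ := ε.comp Abelianization.of
    have hl : l y ≠ 1 := hε
    have hirr := Cfsg.Agent.Lib.Char.PrimeIndex.isIrr_mul_hom hStirr l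
    have hdeg1 : charDegree St = p := IsCharacter.charDegree_eq (IsIrrCharacter.isCharacter hStirr) hSt1
    have hdeg2 : charDegree (fun g => St g * ((l g : ℂˣ) : ℂ)) = p :=
      IsCharacter.charDegree_eq (IsIrrCharacter.isCharacter hirr) (by simp [hSt1])
    have heq := huniq.unique (y₁ := ⟨St, hStirr⟩) (y₂ := ⟨_, hirr⟩) hdeg1 hdeg2
    have heq' : St = fun g => St g * ((l g : ℂˣ) : ℂ) := congrArg Subtype.val heq
    have h1 := congrFun heq' y
    have hval : St y = ((c ⟨y, hy⟩ : ℂˣ) : ℂ) := hc ⟨y, hy⟩ (fun h => hy1 (congrArg Subtype.val h))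
    have hne0 : St y ≠ 0 := by
      rw [hval]
      exact Units.ne_zero _
    have h2 : ((l y : ℂˣ) : ℂ) = 1 := by
      have h3 : St y * ((l y : ℂˣ) : ℂ) = St y * 1 := by
        rw [mul_one]
        exact h1.symm
      exact mul_left_cancel₀ hne0 h3
    exact hl (Units.ext h2)
  have hPG : (P : Subgroup G) ≤ commutator G := by
    rw [← hz]
    exact (zpowers_le).2 hxG
  have htop : normalizer ((P : Subgroup G) : Set G) ⊔ commutator G = ⊤ := Sylow.normalizer_sup_eq_top' (N := commutator G) P hPG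
  have hN : normalizer ((P : Subgroup G) : Set G) ≤ commutator G := by
    rw [← hz, ← hPE]
    exact sup_le ((zpowers_le).2 hxG) hEG
  rw [sup_eq_right.2 hN] at htop
  exact htop

lemma mem_zpowers_of_ne_one (hord : orderOf x = p) {c : G} (hc : c ∈ zpowers x) (hc1 : c ≠ 1) : x ∈ zpowers c := by
  have hcard : Nat.card (zpowers x) = p := by rw [Nat.card_zpowers, hord]
  have hle : zpowers c ≤ zpowers x := (zpowers_le).2 hc
  have h10 : Nat.card (zpowers c) ∣ Nat.card (zpowers x) := Subgroup.card_dvd_of_le hle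
  rw [hcard] at h10
  rcases (Nat.dvd_prime hp.out).1 h10 with h11 | h11
  · exfalso
    rw [Nat.card_zpowers, orderOf_eq_one_iff] at h11
    exact hc1 h11
  · have h9 : zpowers c = zpowers x := Subgroup.eq_of_le_of_card_ge hle (by rw [hcard, h11])
    rw [h9]
    exact mem_zpowers x

/-- A nontrivial normal subgroup acting nontrivially contains the Sylow subgroup and is everything. -/
theorem simple_of {α : Type*} [Finite α] [MulAction G α] [MulAction.IsPretransitive G α] (hα : Nat.card α = p)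
    (hfaith : ∀ g : G, (∀ a : α, g • a = a) → g = 1) (hord : orderOf x = p)
    (P : Sylow p G) (hz : zpowers x = (P : Subgroup G)) {E : Subgroup G}
    (hEcomm : ∀ a ∈ E, ∀ b ∈ E, a * b = b * a)
    (hPE : zpowers x ⊔ E = normalizer (zpowers x : Set G))
    (hperf : commutator G = ⊤) : IsSimpleGroup G := by
  classical
  have hx1 : x ≠ 1 := by
    rintro rfl
    rw [orderOf_one] at hord
    exact hp.out.one_lt.ne hord
  haveI : Nontrivial G := ⟨⟨x, 1, hx1⟩⟩
  refine ⟨fun K hK => ?_⟩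
  by_contra hcon
  push Not at hcon
  obtain ⟨hK0, hKt⟩ := hcon
  haveI : Nonempty α := by
    apply (Nat.card_pos_iff.1 _).1
    rw [hα]
    exact hp.out.pos
  have hprim : MulAction.IsPreprimitive G α := MulAction.IsPreprimitive.of_prime_card (by rw [hα]; exact hp.out)
  have hfix : MulAction.fixedPoints K α ≠ Set.univ := by
    intro h
    apply hK0
    rw [eq_bot_iff]
    intro k hk
    rw [Subgroup.mem_bot]
    apply hfaith
    intro a
    have h1 : a ∈ MulAction.fixedPoints K α := by rw [h]; trivial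
    exact h1 ⟨k, hk⟩
  haveI : MulAction.IsPretransitive K α := MulAction.IsQuasiPreprimitive.isPretransitive_of_normal hfix
  obtain ⟨a⟩ := ‹Nonempty α›
  have h1 := Cfsg.Agent.Lib.Perm.PrimeDeg.natCard_orbit_mul K a
  rw [MulAction.orbit_eq_univ, Nat.card_coe_set_eq, Set.ncard_univ, hα] at h1
  have hdvd : p ∣ Nat.card K := Dvd.intro _ h1
  obtain ⟨k, hk⟩ := exists_prime_orderOf_dvd_card' p hdvd
  have hk' : orderOf (k : G) = p := by rwa [Subgroup.orderOf_coe]
  have hkp : IsPGroup p (zpowers (k : G)) := by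
    rw [IsPGroup.iff_card, Nat.card_zpowers, hk']
    exact ⟨1, by simp⟩
  obtain ⟨Q, hQ⟩ := hkp.exists_le_sylow
  obtain ⟨g, hg⟩ := MulAction.exists_smul_eq G Q P
  have hmem : g * (k : G) * g⁻¹ ∈ (P : Subgroup G) := by
    rw [← hg, Sylow.coe_subgroup_smul]
    have h3 : (k : G) ∈ (Q : Subgroup G) := hQ (mem_zpowers _)
    exact Subgroup.smul_mem_pointwise_smul (k : G) (MulAut.conj g) _ h3
  have hKk : g * (k : G) * g⁻¹ ∈ K := hK.conj_mem _ k.2 g
  have hne : g * (k : G) * g⁻¹ ≠ 1 := by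
    intro h0
    have h5 : (k : G) = 1 := by
      have : (k : G) = g⁻¹ * (g * (k : G) * g⁻¹) * g := by group
      rw [this, h0]
      simp
    rw [h5, orderOf_one] at hk'
    exact hp.out.one_lt.ne hk'
  have hxK : x ∈ K := by
    rw [← hz] at hmem
    have := mem_zpowers_of_ne_one hord hmem hne
    exact ((zpowers_le).2 hKk) this
  have hPK : (P : Subgroup G) ≤ K := by
    rw [← hz]
    exact (zpowers_le).2 hxK
  have htop : normalizer ((P : Subgroup G) : Set G) ⊔ K = ⊤ := Sylow.normalizer_sup_eq_top' (N := K) P hPK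
  rw [← hz, ← hPE] at htop
  apply hKt
  rw [eq_top_iff, ← hperf, _root_.commutator_def, Subgroup.commutator_le]
  -- the quotient is abelian
  have hdec : ∀ g : G, ∃ w ∈ E, (QuotientGroup.mk g : G ⧸ K) = QuotientGroup.mk w := by
    intro g
    have hg : g ∈ zpowers x ⊔ E ⊔ K := by rw [htop]; trivial
    have h4 : zpowers x ⊔ E ⊔ K = E ⊔ K := by
      rw [sup_comm (zpowers x), sup_assoc, sup_eq_right.2 ((zpowers_le).2 hxK)]
    rw [h4] at hg
    have h5 : g ∈ (↑(E ⊔ K) : Set G) := hg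
    rw [Subgroup.mul_normal] at h5
    obtain ⟨w, hw, k', hk', rfl⟩ := Set.mem_mul.1 h5
    refine ⟨w, hw, ?_⟩
    rw [QuotientGroup.eq]
    simpa using hk'
  intro g _ h _
  obtain ⟨w₁, hw₁, h1⟩ := hdec g
  obtain ⟨w₂, hw₂, h2⟩ := hdec h
  rw [← QuotientGroup.eq_one_iff]
  have h3 : (QuotientGroup.mk ⁅g, h⁆ : G ⧸ K) = ⁅(QuotientGroup.mk g : G ⧸ K), (QuotientGroup.mk h : G ⧸ K)⁆ := rfl
  rw [h3, h1, h2]
  have h4 : ⁅(QuotientGroup.mk w₁ : G ⧸ K), (QuotientGroup.mk w₂ : G ⧸ K)⁆ = (QuotientGroup.mk ⁅w₁, w₂⁆ : G ⧸ K) := rfl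
  rw [h4, commutatorElement_eq_one_iff_mul_comm.2 (hEcomm w₁ hw₁ w₂ hw₂)]
  rfl

end Char

end Cfsg.Agent.Lib.DefectOne.PermSt
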