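import Mathlib
import Cfsg.Agent.Lib.DefectOne.PermSt
import Cfsg.Agent.Lib.DefectOne.PrimeDegree
import Cfsg.Agent.Lib.DefectOne.OddCase
import Cfsg.Agent.Lib.DefectOne.Inversion
import Cfsg.Agent.Lib.Char.PRegular
import Cfsg.Agent.Lib.Char.PDerived
import Cfsg.Agent.Lib.Char.SimpleFaithful

/-!
# A transitive group of prime degree with controlled Sylow normalizer: the local facts
-/

set_option autoImplicit false
set_option linter.unusedSectionVars false

namespace Cfsg.Agent.Lib.DefectOne.TopA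

open Cfsg Subgroup Cfsg.Agent.Lib.DefectOne
open scoped commutatorElement Pointwise

universe u v

variable {G : Type u} [Group G] [Finite G] {p : ℕ} [hp : Fact p.Prime] {x : G}

/-- The local data. -/
structure Loc (p : ℕ) [Fact p.Prime] (x : G) (E : Subgroup G) (P : Sylow p G) : Prop where
  hord : orderOf x = p
  hcenall : ∀ y : G, orderOf y = p → ∀ c : G, c * y = y * c → c ∈ zpowers y
  hz : zpowers x = (P : Subgroup G)
  hPE : zpowers x ⊔ E = normalizer (zpowers x : Set G)
  hPE' : zpowers x ⊓ E = ⊥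
  hNE : Nat.card (normalizer (E : Set G)) = 2 * Nat.card E
  hTI : ∀ g : G, g ∉ normalizer (E : Set G) → E ⊓ E.map (MulAut.conj g).toMonoidHom = ⊥

namespace Loc

variable {E : Subgroup G} {P : Sylow p G}

lemma hcen (h : Loc p x E P) : ∀ c : G, c * x = x * c → c ∈ zpowers x := h.hcenall x h.hord

lemma hEN (h : Loc p x E P) : E ≤ normalizer (zpowers x : Set G) := by
  rw [← h.hPE]
  exact le_sup_right

lemma hcardP (h : Loc p x E P) : Nat.card (P : Subgroup G) = p := by
  rw [← h.hz, Nat.card_zpowers, h.hord]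

lemma hsq (h : Loc p x E P) : ¬ p ^ 2 ∣ Nat.card G := by
  intro h2
  have h3 := P.pow_dvd_card_of_pow_dvd_card h2
  rw [h.hcardP] at h3
  have h4 := Nat.le_of_dvd hp.out.pos h3
  have := hp.out.one_lt
  nlinarith

lemma hdvdG (h : Loc p x E P) : p ∣ Nat.card G := by
  rw [← h.hord]
  exact orderOf_dvd_natCard x

lemma hT (h : Loc p x E P) : Nat.card (normalizer (zpowers x : Set G)) = p * Nat.card E :=
  PermSt.card_T h.hord h.hEN h.hPE h.hPE'

lemma hEp (h : Loc p x E P) : ¬ p ∣ Nat.card E := by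
  intro h1
  apply h.hsq
  have h2 : Nat.card (normalizer (zpowers x : Set G)) ∣ Nat.card G := Subgroup.card_subgroup_dvd_card _
  rw [h.hT] at h2
  refine dvd_trans ?_ h2
  rw [pow_two]
  exact Nat.mul_dvd_mul_left p h1

lemma isCyclic_E (h : Loc p x E P) : IsCyclic E :=
  PermSt.isCyclic_E h.hord h.hcen E h.hEN h.hPE'

lemma hEcomm (h : Loc p x E P) : ∀ a ∈ E, ∀ b ∈ E, a * b = b * a := by
  intro a ha b hb
  haveI := h.isCyclic_E
  letI : CommGroup E := IsCyclic.commGroup
  have h1 := mul_comm (⟨a, ha⟩ : E) ⟨b, hb⟩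
  exact congrArg Subtype.val h1

lemma card_E_dvd (h : Loc p x E P) : Nat.card E ∣ p - 1 := by
  have hcard : Nat.card (zpowers x) = p := by rw [Nat.card_zpowers, h.hord]
  obtain ⟨-, h2⟩ := Cfsg.Agent.Lib.CycSylow.mulAut_of_card_prime hcard
  let φ : E →* MulAut (zpowers x) := (zpowers x).normalizerMonoidHom.comp (Subgroup.inclusion h.hEN)
  have hinj : Function.Injective φ := by
    rw [injective_iff_map_eq_one]
    intro t ht
    have h3 : φ t ⟨x, mem_zpowers x⟩ = ⟨x, mem_zpowers x⟩ := by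
      rw [ht]
      rfl
    have h4 := congrArg Subtype.val h3
    have h5 : (t : G) * x * (t : G)⁻¹ = x := h4
    have h1 : (t : G) * x = x * (t : G) := by
      calc (t : G) * x = ((t : G) * x * (t : G)⁻¹) * (t : G) := by group
        _ = x * (t : G) := by rw [h5]
    have h2 := h.hcen _ h1
    have h6 : (t : G) ∈ zpowers x ⊓ E := ⟨h2, t.2⟩
    rw [h.hPE', Subgroup.mem_bot] at h6
    exact Subtype.ext h6
  haveI : Finite (MulAut (zpowers x)) := by
    haveI : Finite (zpowers x) := inferInstance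
    exact inferInstance
  have h3 := Subgroup.card_dvd_of_injective φ hinj
  rwa [h2] at h3

lemma hsing (h : Loc p x E P) : ∀ g : G, p ∣ orderOf g → orderOf g = p := by
  intro g hg
  have h1 : orderOf (g ^ (orderOf g / p)) = p := orderOf_pow_orderOf_div (orderOf_pos g).ne' hg
  have h2 := h.hcenall _ h1 g (by
    have : Commute g (g ^ (orderOf g / p)) := (Commute.refl g).pow_right _
    exact this.eq)
  have h3 : orderOf g ∣ p := by
    rw [← h1]
    exact orderOf_dvd_of_mem_zpowers h2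
  exact Nat.dvd_antisymm h3 hg

lemma mul_pow_T (h : Loc p x E P) {u w : G} (hu : u ∈ zpowers x) (hw : w ∈ E) (n : ℕ) :
    ∃ v ∈ zpowers x, (u * w) ^ n = v * w ^ n := by
  induction n with
  | zero => exact ⟨1, one_mem _, by simp⟩
  | succ n ih =>
    obtain ⟨v, hv, h1⟩ := ih
    refine ⟨v * ((w ^ n) * u * (w ^ n)⁻¹), mul_mem hv ?_, ?_⟩
    · exact (Subgroup.mem_normalizer_iff.1 (h.hEN (pow_mem hw n)) u).1 hu
    · rw [pow_succ, h1, pow_succ]
      group

lemma hcarde_pos (h : Loc p x E P) : 0 < Nat.card E := Nat.card_pos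

/-- An element of order `p` of the Sylow normalizer lies in the Sylow subgroup. -/
lemma mem_of_order (h : Loc p x E P) {t : G} (ht : t ∈ normalizer (zpowers x : Set G)) (hord : orderOf t = p) :
    t ∈ zpowers x := by
  obtain ⟨u, hu, w, hw, rfl⟩ := PermSt.mem_T h.hEN h.hPE ht
  obtain ⟨v, hv, h1⟩ := h.mul_pow_T hu hw p
  have h2 : (u * w) ^ p = 1 := by
    rw [← hord]
    exact pow_orderOf_eq_one _
  rw [h2] at h1
  have h3 : w ^ p = v⁻¹ := by
    have := h1.symm
    exact eq_inv_of_mul_eq_one_right this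
  have h4 : w ^ p ∈ zpowers x ⊓ E := Subgroup.mem_inf.2 ⟨by rw [h3]; exact inv_mem hv, pow_mem hw p⟩
  rw [h.hPE', Subgroup.mem_bot] at h4
  have h5 : orderOf w ∣ p := orderOf_dvd_of_pow_eq_one h4
  have h6 : orderOf w ∣ Nat.card E := by
    have := orderOf_dvd_natCard (⟨w, hw⟩ : E)
    rwa [Subgroup.orderOf_mk] at this
  have h7 : w = 1 := by
    rcases (Nat.dvd_prime hp.out).1 h5 with h8 | h8
    · exact orderOf_eq_one_iff.1 h8
    · exact absurd (h8 ▸ h6) h.hEp
  rw [h7, mul_one]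
  exact hu

lemma hfix (h : Loc p x E P) (g : G) (hg : ∀ u ∈ zpowers x, g⁻¹ * u * g ∈ normalizer (zpowers x : Set G)) :
    g ∈ normalizer (zpowers x : Set G) := by
  cases nonempty_fintype G
  have h1 := hg x (mem_zpowers x)
  have h2 : orderOf (g⁻¹ * x * g) = p := by
    have : g⁻¹ * x * g = (MulAut.conj g⁻¹).toMonoidHom x := by simp
    rw [this, orderOf_injective _ (MulEquiv.injective _), h.hord]
  have h3 := h.mem_of_order h1 h2
  have h4 : g⁻¹ * x * g ≠ 1 := by
    intro h5
    rw [h5, orderOf_one] at h2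
    exact hp.out.one_lt.ne h2
  have h5 : x ∈ zpowers (g⁻¹ * x * g) := PermSt.mem_zpowers_of_ne_one h.hord h3 h4
  apply inv_mem_iff.1
  rw [Subgroup.mem_normalizer_iff]
  intro z
  constructor
  · intro hz
    obtain ⟨k, rfl⟩ := Subgroup.mem_zpowers_iff.1 hz
    have h6 : g⁻¹ * x ^ k * g⁻¹⁻¹ = (g⁻¹ * x * g) ^ k := by
      have := conj_zpow (a := g⁻¹) (b := x) (i := k)
      rw [inv_inv] at this ⊢
      exact this.symm
    rw [h6]
    exact zpow_mem h3 k
  · intro hz
    have h6 : z = g * (g⁻¹ * z * g⁻¹⁻¹) * g⁻¹ := by group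
    have h7 : g⁻¹ * z * g⁻¹⁻¹ ∈ zpowers (g⁻¹ * x * g) := by
      have h8 : zpowers (g⁻¹ * x * g) = zpowers x := by
        apply le_antisymm
        · exact (zpowers_le).2 h3
        · exact (zpowers_le).2 h5
      rw [h8]
      exact hz
    obtain ⟨k, hk⟩ := Subgroup.mem_zpowers_iff.1 h7
    have h9 : g * (g⁻¹ * x * g) ^ k * g⁻¹ = x ^ k := by
      rw [show g * (g⁻¹ * x * g) ^ k * g⁻¹ = g * (g⁻¹ * x * g⁻¹⁻¹) ^ k * g⁻¹ by simp]
      rw [← conj_zpow]
      group
    rw [h6, ← hk, h9]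
    exact zpow_mem_zpowers x k

end Loc

end Cfsg.Agent.Lib.DefectOne.TopA
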