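import Mathlib
import Cfsg.Agent.Lib.DefectOne.TopA
import Cfsg.Agent.S4503
import Cfsg.Agent.S4504

/-!
# The character-theoretic consequences: perfectness, simplicity, the odd branch
-/

set_option autoImplicit false
set_option linter.unusedSectionVars false

namespace Cfsg.Agent.Lib.DefectOne.TopB

open Cfsg Subgroup Cfsg.Agent.Lib.DefectOne Cfsg.Agent.Lib.DefectOne.TopA
open Cfsg.Agent.Lib.DefectOne.OddChars
open Cfsg.Agent.Lib.Char.Values Cfsg.Agent.Lib.Char.LinearChars
open scoped commutatorElement Pointwise MatrixGroups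

universe u v

variable {G : Type u} [Group G] [Fintype G] {p : ℕ} [hp : Fact p.Prime] {x : G}
variable {E : Subgroup G} {P : Sylow p G}

lemma st_data (h : Loc p x E P) (huniq : ∃! χ : IrrCharacter G, charDegree (χ : G → ℂ) = p) :
    ∃ St : G → ℂ, IsIrrCharacter G St ∧ St 1 = p ∧ ∀ g, p ∣ orderOf g → St g = 0 := by
  obtain ⟨⟨St, hSt⟩, hdeg, -⟩ := huniq
  have hdeg' : charDegree St = p := hdeg
  have hSt1 : St 1 = p := by
    rw [← IsCharacter.charDegree_cast (IsIrrCharacter.isCharacter hSt), hdeg']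
  refine ⟨St, hSt, hSt1, ?_⟩
  intro g hg
  obtain ⟨n, ρ, hρ, rfl⟩ := hSt
  haveI := hρ
  have hn : n = p := by
    have h1 : ρ.character 1 = (n : ℂ) := by simp
    rw [h1] at hSt1
    exact_mod_cast hSt1
  have h2 := Cfsg.Agent.Lib.Char.PRegular.character_eq_zero_of_defect_zero ρ p 1 hp.out
    (by rw [pow_one]; exact h.hdvdG) (by
      show ¬ p ^ 2 ∣ _
      exact h.hsq) (by simp [hn]) g hg
  exact h2

lemma sq_le (hSt : ∃ St : G → ℂ, IsIrrCharacter G St ∧ St 1 = p) : p ^ 2 ≤ Nat.card G := by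
  obtain ⟨St, h1, h2⟩ := hSt
  have h3 := Cfsg.Agent.Lib.Char.PDerived.deg_sq_mul_card_center_le h1
  rw [h2] at h3
  have h4 : (1 : ℝ) ≤ Nat.card (center G) := by
    exact_mod_cast Nat.card_pos
  have h5 : ‖(p : ℂ)‖ = p := by simp
  rw [h5] at h3
  have h6 : ((p : ℝ)) ^ 2 ≤ Nat.card G := by
    have h7 : (0 : ℝ) ≤ (p : ℝ) ^ 2 := by positivity
    nlinarith
  exact_mod_cast h6

lemma hE1 (h : Loc p x E P) (hle : p ^ 2 ≤ Nat.card G) : E ≠ ⊥ := by
  rintro rfl
  have h1 := h.hNE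
  have h2 : normalizer ((⊥ : Subgroup G) : Set G) = ⊤ := by
    rw [Subgroup.normalizer_eq_top_iff]
    exact inferInstance
  rw [h2, Subgroup.card_top, Subgroup.card_bot] at h1
  have := hp.out.two_le
  nlinarith

lemma not_normal (h : Loc p x E P) (hle : p ^ 2 ≤ Nat.card G) : ¬ (zpowers x).Normal := by
  intro hn
  have h1 : normalizer (zpowers x : Set G) = ⊤ := Subgroup.normalizer_eq_top_iff.2 hn
  have h2 := h.hT
  rw [h1, Subgroup.card_top] at h2
  have h3 := Nat.le_of_dvd (by have := hp.out.one_lt; omega) h.card_E_dvd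
  have := hp.out.one_lt
  have h4 : Nat.card E < p := by omega
  rw [h2, pow_two] at hle
  have := Nat.le_of_mul_le_mul_left hle hp.out.pos
  omega

lemma hlin_of (hperf : commutator G = ⊤) :
    ∀ c : G → ℂ, IsIrrCharacter G c → c 1 = 1 → c = fun _ => 1 := by
  intro c hc hc1
  obtain ⟨φ, rfl⟩ := exists_hom_of_isCharacter_one (IsIrrCharacter.isCharacter hc) hc1
  have h1 : commutator G ≤ φ.ker := by
    rw [_root_.commutator_def, Subgroup.commutator_le]
    intro g₁ _ g₂ _
    rw [MonoidHom.mem_ker, commutatorElement_def]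
    simp only [map_mul, map_inv]
    rw [mul_comm (φ g₁) (φ g₂)]
    group
  rw [hperf] at h1
  funext g
  have h2 : φ g = 1 := h1 (Subgroup.mem_top g)
  rw [h2]
  rfl

lemma hfaith_of [IsSimpleGroup G] (hlin : ∀ c : G → ℂ, IsIrrCharacter G c → c 1 = 1 → c = fun _ => 1)
    {θ : G → ℂ} (hθ : IsIrrCharacter G θ) (hne : θ ≠ fun _ => 1) : ∀ g : G, θ g = θ 1 → g = 1 := by
  intro g hg
  obtain ⟨n, ρ, hρ, rfl⟩ := hθ
  haveI := hρ
  have hinj := Cfsg.Agent.Lib.Char.SimpleFaithful.injective_of_irr_ne_one ρ hne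
  apply hinj
  have h1 : ρ.character 1 = (Module.finrank ℂ (Fin n → ℂ) : ℂ) := by simp
  rw [h1, character_eq_finrank_iff] at hg
  rw [hg, map_one]
  rfl

lemma hnn_of [IsSimpleGroup G] (hle : p ^ 2 ≤ Nat.card G) : ∀ H : Subgroup G, H.Normal → Nat.card H ≠ p := by
  intro H hH hc
  rcases hH.eq_bot_or_eq_top with h | h
  · rw [h, Subgroup.card_bot] at hc
    exact hp.out.one_lt.ne hc
  · rw [h, Subgroup.card_top] at hc
    have := hp.out.two_le
    rw [hc] at hle
    nlinarith

lemma center_bot [IsSimpleGroup G] (hperf : commutator G = ⊤) : center G = ⊥ := by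
  rcases (inferInstance : (center G).Normal).eq_bot_or_eq_top with h | h
  · exact h
  · exfalso
    have h1 : commutator G = ⊥ := by
      rw [_root_.commutator_def, Subgroup.commutator_eq_bot_iff_le_centralizer]
      intro a _ b _
      have : a ∈ center G := by rw [h]; trivial
      exact (Subgroup.mem_center_iff.1 this b)
    rw [h1] at hperf
    exact bot_ne_top hperf

theorem iso_of_faithful [IsSimpleGroup G] (h : Loc p x E P) (hle : p ^ 2 ≤ Nat.card G) (hperf : commutator G = ⊤)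
    {θ : G → ℂ} (hθ : IsIrrCharacter G θ) (hfaith : ∀ g : G, θ g = θ 1 → g = 1) (hdeg : 2 * charDegree θ + 1 = p) :
    Nonempty (G ≃* PSL(2, ZMod p)) := by
  obtain ⟨f⟩ := Cfsg.Agent.S4504.result p hp.out h.hdvdG h.hsq (hnn_of hle) θ (IsIrrCharacter.isCharacter hθ) hfaith hdeg
  have h1 := center_bot hperf
  exact ⟨((QuotientGroup.quotientBot (G := G)).symm.trans
    (QuotientGroup.quotientMulEquivOfEq h1.symm)).trans f⟩

/-- The odd branch. -/
theorem odd_branch [IsSimpleGroup G] (h : Loc p x E P) (hle : p ^ 2 ≤ Nat.card G) (hperf : commutator G = ⊤)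
    {St : G → ℂ} (hStirr : IsIrrCharacter G St) (hSt1 : St 1 = p)
    (hStx : ∀ g, p ∣ orderOf g → St g = 0) (hodd : Odd (Nat.card E)) (hp5 : 5 ≤ p) :
    Nonempty (G ≃* PSL(2, ZMod p)) := by
  classical
  have hcyc := h.isCyclic_E
  have hinv := Inversion.inverts E hcyc hodd h.hNE h.hTI
  have hE1' := hE1 h hle
  have hStz : ∀ u ∈ zpowers x, u ≠ 1 → St u = 0 := by
    intro u hu hu1
    apply hStx
    have h1 := PermSt.mem_zpowers_of_ne_one h.hord hu hu1
    rw [← h.hord]
    exact orderOf_dvd_of_mem_zpowers h1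
  have hTI' : TIInv E := {
    hN := h.hNE
    hinv := hinv
    hti := by
      intro g hg y hy hy1 hmem
      have hg' : g⁻¹ ∉ normalizer (E : Set G) := fun h2 => hg (by simpa using inv_mem h2)
      have h1 := h.hTI g⁻¹ hg'
      have h2 : g⁻¹ * y * g ∈ E ⊓ E.map (MulAut.conj g⁻¹).toMonoidHom := by
        refine Subgroup.mem_inf.2 ⟨hmem, ?_⟩
        exact ⟨y, hy, by simp⟩
      rw [h1, Subgroup.mem_bot] at h2
      apply hy1
      have h3 : y = g * (g⁻¹ * y * g) * g⁻¹ := by group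
      rw [h3, h2]
      group
    hodd := hodd
    hcyc := hcyc }
  have hE3 : 3 ≤ Nat.card E := by
    obtain ⟨k, hk⟩ := hodd
    have h2 : Nat.card E ≠ 1 := by
      intro h3
      exact hE1' (Subgroup.card_eq_one.1 h3)
    omega
  obtain ⟨w₀, hw₀⟩ := hcyc.exists_generator
  have hgen : ∀ w ∈ E, ∃ n : ℕ, w = (w₀ : G) ^ n := by
    intro w hw
    have h1 := hw₀ ⟨w, hw⟩
    rw [← mem_powers_iff_mem_zpowers] at h1
    obtain ⟨n, hn⟩ := h1
    refine ⟨n, ?_⟩
    have h2 := congrArg Subtype.val hn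
    exact h2.symm
  have hEn : ∀ w ∈ E, ∀ u ∈ zpowers x, w⁻¹ * u * w ∈ zpowers x := by
    intro w hw u hu
    have h1 := (Subgroup.mem_normalizer_iff.1 (h.hEN (inv_mem hw)) u).1 hu
    simpa using h1
  have hT : ∀ t ∈ normalizer (zpowers x : Set G), ∃ a b : ℕ, t = x ^ a * (w₀ : G) ^ b := by
    intro t ht
    obtain ⟨u, hu, w, hw, rfl⟩ := PermSt.mem_T h.hEN h.hPE ht
    obtain ⟨b, rfl⟩ := hgen w hw
    rw [← mem_powers_iff_mem_zpowers] at hu
    obtain ⟨a, rfl⟩ := hu
    exact ⟨a, b, rfl⟩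
  have hStE : ∀ y ∈ E, y ≠ 1 → St y = 1 := by
    intro y hy hy1
    obtain ⟨c, hc⟩ := PermSt.exists_lin h.hord h.hcen h.hEN h.hPE' hStirr hSt1 hStz
    -- an element of the normalizer outside `E`
    obtain ⟨g, hgN, hgE⟩ : ∃ g ∈ normalizer (E : Set G), g ∉ E := by
      by_contra hno
      push Not at hno
      have h1 : normalizer (E : Set G) ≤ E := hno
      have h2 := Subgroup.card_le_card_group (E.subgroupOf (normalizer (E : Set G)))
      have h3 := Subgroup.card_le_of_le h1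
      rw [h.hNE] at h3
      have h4 : 0 < Nat.card E := Nat.card_pos
      omega
    have h1 := hinv g hgN hgE y hy
    have hcl : IsClassFunction G St := Cfsg.Agent.Lib.Char.Basic.isClassFunction_of_isCharacter
      (IsIrrCharacter.isCharacter hStirr)
    have h2 : St y⁻¹ = St y := by
      rw [← h1]
      have := hcl y g⁻¹
      rw [inv_inv] at this
      exact this
    have h3 : ((⟨y, hy⟩ : E)) ≠ 1 := by
      intro h4
      exact hy1 (congrArg Subtype.val h4)
    have h4 : ((⟨y, hy⟩ : E))⁻¹ ≠ 1 := inv_ne_one.2 h3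
    have h5 := hc _ h3
    have h6 := hc _ h4
    simp only [Subgroup.coe_inv] at h6
    rw [h2, h5, map_inv] at h6
    have h7 : ((c ⟨y, hy⟩ : ℂˣ)) = (c ⟨y, hy⟩)⁻¹ := Units.ext h6
    have h8 : (c ⟨y, hy⟩) ^ 2 = 1 := by
      rw [pow_two]
      nth_rewrite 1 [h7]
      exact inv_mul_cancel _
    have h9 : (c ⟨y, hy⟩) ^ Nat.card E = 1 := by
      rw [← map_pow, pow_card_eq_one', map_one]
    obtain ⟨k, hk⟩ := hodd
    have h10 : c ⟨y, hy⟩ = 1 := by
      rw [hk, pow_succ, pow_mul, h8, one_pow, one_mul] at h9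
      exact h9
    show St ((⟨y, hy⟩ : E) : G) = 1
    rw [h5, h10]
    rfl
  have hStx' : ∀ i : ZMod p, i ≠ 0 → St (x ^ i.val) = 0 := by
    intro i hi
    apply hStz
    · exact pow_mem (mem_zpowers x) _
    · intro h1
      have h2 := orderOf_dvd_of_pow_eq_one h1
      rw [h.hord] at h2
      have h3 : i.val ≠ 0 := by
        intro h4
        exact hi ((ZMod.val_eq_zero i).1 h4)
      have h4 := Nat.le_of_dvd (Nat.pos_of_ne_zero h3) h2
      have h5 := ZMod.val_lt i
      omega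
  have hlin := hlin_of hperf
  obtain ⟨θ, hθ, hθ1⟩ := OddCase.odd_main h.hord h.hcen P h.hz E hTI' hE3 w₀.2 hgen hEn hT h.hEN h.hfix h.hEp h.hT
    hlin hStirr hSt1 hStE hStx' h.hsing
  have hdeg : charDegree θ = Nat.card E := IsCharacter.charDegree_eq (IsIrrCharacter.isCharacter hθ) hθ1
  have hne : θ ≠ fun _ => 1 := by
    intro h1
    rw [h1] at hθ1
    have h2 : (1 : ℂ) = (Nat.card E : ℂ) := hθ1
    have h3 : 1 = Nat.card E := by exact_mod_cast h2
    omega
  have hfaith := hfaith_of hlin hθ hne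
  have hbound := Cfsg.Agent.S4503.result p hp.out h.hdvdG h.hsq (hnn_of hle) θ (IsIrrCharacter.isCharacter hθ) hfaith
  rw [hdeg] at hbound
  have hodd_p : Odd p := hp.out.odd_of_ne_two (by omega)
  obtain ⟨t, ht⟩ := h.card_E_dvd
  have h2e : 2 * Nat.card E + 1 = p := by
    obtain ⟨k, hk⟩ := hodd_p
    obtain ⟨l, hl⟩ := hodd
    have h1 : p - 1 = 2 * k := by omega
    rw [h1] at ht
    have ht2 : Even t := by
      have h3 : Even ((2 * l + 1) * t) := by
        rw [← hl, ← ht]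
        exact even_two_mul k
      have h4 : ¬ Even (2 * l + 1) := by
        rw [Nat.not_even_iff_odd]
        exact ⟨l, rfl⟩
      exact (Nat.even_mul.1 h3).resolve_left h4
    obtain ⟨s, rfl⟩ := ht2
    have hs : s ≠ 0 := by
      rintro rfl
      simp at ht
      omega
    have h5 : 1 ≤ s := Nat.pos_of_ne_zero hs
    have h6 : Nat.card E * 2 ≤ Nat.card E * (s + s) := Nat.mul_le_mul_left _ (by omega)
    omega
  exact iso_of_faithful h hle hperf hθ hfaith (by rw [hdeg]; exact h2e)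

end Cfsg.Agent.Lib.DefectOne.TopB
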