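import Mathlib
import Cfsg.Agent.Lib.DefectOne.TopB

/-!
# The element of `E` of order `p - 1` acts as an odd permutation
-/

set_option autoImplicit false
set_option linter.unusedSectionVars false

namespace Cfsg.Agent.Lib.DefectOne.TopC

open Cfsg Subgroup Cfsg.Agent.Lib.DefectOne Cfsg.Agent.Lib.DefectOne.TopA
open scoped commutatorElement Pointwise

universe u v

variable {G : Type u} [Group G] [Finite G] {p : ℕ} [hp : Fact p.Prime] {x : G}
variable {E : Subgroup G} {P : Sylow p G}
variable {α : Type v} [Finite α] [MulAction G α]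

lemma order_of_mem (h : Loc p x E P) {u : G} (hu : u ∈ zpowers x) (hu1 : u ≠ 1) : orderOf u = p := by
  have h1 : orderOf u ∣ orderOf x := orderOf_dvd_of_mem_zpowers hu
  rw [h.hord] at h1
  rcases (Nat.dvd_prime hp.out).1 h1 with h2 | h2
  · exact absurd (orderOf_eq_one_iff.1 h2) hu1
  · exact h2

lemma free_of (h : Loc p x E P) (hα : Nat.card α = p) (hfaith : ∀ g : G, (∀ a : α, g • a = a) → g = 1)
    {u : G} (hu : u ∈ zpowers x) {a : α} (ha : u • a = a) : u = 1 := by
  by_contra hu1
  exact (regular_of_prime hα hfaith (order_of_mem h hu hu1)).1 a ha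

lemma fixed_exists (h : Loc p x E P) (hα : Nat.card α = p) (hfaith : ∀ g : G, (∀ a : α, g • a = a) → g = 1)
    {y : G} (hy : y ∈ E) (hy1 : y ≠ 1) : ∃ a : α, y • a = a := by
  haveI : Nonempty α := by
    apply (Nat.card_pos_iff.1 _).1
    rw [hα]
    exact hp.out.pos
  obtain ⟨a₀⟩ := ‹Nonempty α›
  obtain ⟨k, hk⟩ := (regular_of_prime hα hfaith h.hord).2 a₀ (y • a₀)
  obtain ⟨u, hu, h1⟩ := PermSt.fpf_comm h.hord h.hcen h.hEN h.hPE' hy hy1
    (inv_mem (zpow_mem (mem_zpowers x) k))
  refine ⟨u • a₀, ?_⟩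
  have h2 : y * u = u * ((x ^ k)⁻¹ * y) := by
    rw [← h1]
    group
  rw [smul_smul, h2, mul_smul, mul_smul, ← hk, inv_smul_smul]

lemma fixed_unique (h : Loc p x E P) (hα : Nat.card α = p) (hfaith : ∀ g : G, (∀ a : α, g • a = a) → g = 1)
    {y : G} (hy : y ∈ E) (hy1 : y ≠ 1) {a b : α} (ha : y • a = a) (hb : y • b = b) : a = b := by
  cases nonempty_fintype G
  obtain ⟨k, hk⟩ := (regular_of_prime hα hfaith h.hord).2 a b
  set v : G := x ^ k with hv
  have hvm : v ∈ zpowers x := zpow_mem (mem_zpowers x) k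
  have hc : y * v * y⁻¹ ∈ zpowers x := (Subgroup.mem_normalizer_iff.1 (h.hEN hy) v).1 hvm
  have h1 : (y * v * y⁻¹) • a = v • a := by
    calc (y * v * y⁻¹) • a = (y * v * y⁻¹) • (y • a) := by rw [ha]
      _ = y • (v • a) := by simp only [smul_smul]; congr 1; group
      _ = y • b := by rw [hk]
      _ = b := hb
      _ = v • a := hk.symm
  have h2 : (v⁻¹ * (y * v * y⁻¹)) • a = a := by
    rw [mul_smul, h1, inv_smul_smul]
  have h3 := free_of h hα hfaith (mul_mem (inv_mem hvm) hc) h2
  by_contra hne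
  have hv1 : v ≠ 1 := by
    intro h4
    apply hne
    rw [← hk, h4, one_smul]
  have h4 : y * v = v * y := by
    have h5 : y * v * y⁻¹ = v := by
      have := inv_mul_eq_one.1 h3
      exact this.symm
    calc y * v = (y * v * y⁻¹) * y := by group
      _ = v * y := by rw [h5]
  have h5 := PermSt.mem_zpowers_of_ne_one h.hord hvm hv1
  obtain ⟨l, hl⟩ := Subgroup.mem_zpowers_iff.1 h5
  have h6 : y * x = x * y := by
    rw [← hl]
    exact (Commute.zpow_right (show Commute y v from h4) l).eq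
  have h7 : y ∈ zpowers x ⊓ E := Subgroup.mem_inf.2 ⟨h.hcen y h6, hy⟩
  rw [h.hPE', Subgroup.mem_bot] at h7
  exact hy1 h7

/-- A hom to a commutative group is trivial on a perfect group. -/
lemma perfect_hom {A : Type*} [CommGroup A] (hperf : commutator G = ⊤) (φ : G →* A) (g : G) : φ g = 1 := by
  have h1 : commutator G ≤ φ.ker := by
    rw [_root_.commutator_def, Subgroup.commutator_le]
    intro g₁ _ g₂ _
    rw [MonoidHom.mem_ker, commutatorElement_def]
    simp only [map_mul, map_inv]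
    rw [mul_comm (φ g₁) (φ g₂)]
    group
  rw [hperf] at h1
  exact h1 (Subgroup.mem_top g)

theorem card_E_ne (h : Loc p x E P) (hα : Nat.card α = p) (hfaith : ∀ g : G, (∀ a : α, g • a = a) → g = 1)
    (hperf : commutator G = ⊤) (hp5 : 5 ≤ p) : Nat.card E ≠ p - 1 := by
  classical
  intro hcard
  cases nonempty_fintype α
  haveI := h.isCyclic_E
  obtain ⟨w₀', hw₀⟩ := IsCyclic.exists_generator (α := E)
  set w₀ : G := (w₀' : G) with hw₀def
  have hw₀E : w₀ ∈ E := w₀'.2
  have hgen : ∀ w ∈ E, ∃ n : ℕ, w = w₀ ^ n := by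
    intro w hw
    have h1 := hw₀ ⟨w, hw⟩
    rw [← mem_powers_iff_mem_zpowers] at h1
    obtain ⟨n, hn⟩ := h1
    refine ⟨n, ?_⟩
    have h2 := congrArg Subtype.val hn
    exact h2.symm
  have hE1 : Nat.card E ≠ 1 := by omega
  have hw₁ : w₀ ≠ 1 := by
    intro h1
    apply hE1
    have h2 : E = ⊥ := by
      rw [eq_bot_iff]
      intro w hw
      obtain ⟨n, rfl⟩ := hgen w hw
      rw [h1, one_pow, Subgroup.mem_bot]
    rw [h2, Subgroup.card_bot]
  obtain ⟨a, ha⟩ := fixed_exists (α := α) h hα hfaith hw₀E hw₁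
  have hEa : ∀ w ∈ E, w • a = a := by
    intro w hw
    obtain ⟨n, rfl⟩ := hgen w hw
    have h1 : ∀ n : ℕ, w₀ ^ n • a = a := by
      intro n
      induction n with
      | zero => simp
      | succ n ih => rw [pow_succ, mul_smul, ha, ih]
    exact h1 n
  have hfree : ∀ y ∈ E, y ≠ 1 → ∀ b : α, b ≠ a → y • b ≠ b := by
    intro y hy hy1 b hb hb2
    exact hb (fixed_unique h hα hfaith hy hy1 hb2 (hEa y hy))
  -- orbits of `E` outside `a`
  have hcardα : Fintype.card {b : α // b ≠ a} = p - 1 := by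
    rw [Fintype.card_subtype_compl, Fintype.card_subtype_eq, ← Nat.card_eq_fintype_card, hα]
  have horb : ∀ b c : α, b ≠ a → c ≠ a → ∃ n : ℕ, w₀ ^ n • b = c := by
    intro b c hb hc
    have hne : ∀ w : E, (w : G) • b ≠ a := by
      intro w h1
      apply hb
      have h2 := hEa _ (inv_mem w.2)
      have : ((w : G)⁻¹) • ((w : G) • b) = b := inv_smul_smul _ _
      rw [h1, h2] at this
      exact this.symm
    let f : E → {b : α // b ≠ a} := fun w => ⟨(w : G) • b, hne w⟩
    have hinj : Function.Injective f := by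
      intro w w' hww
      have h1 : (w : G) • b = (w' : G) • b := congrArg Subtype.val hww
      by_contra hn
      have h2 : (w' : G)⁻¹ * (w : G) ≠ 1 := by
        intro h3
        apply hn
        exact Subtype.ext (inv_mul_eq_one.1 h3).symm
      apply hfree _ (mul_mem (inv_mem w'.2) w.2) h2 b hb
      rw [mul_smul, h1, inv_smul_smul]
    haveI : Fintype E := Fintype.ofFinite _
    have hcE : Fintype.card E = Fintype.card {b : α // b ≠ a} := by
      rw [← Nat.card_eq_fintype_card, hcard, hcardα]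
    have hbij : Function.Bijective f := (Fintype.bijective_iff_injective_and_card f).2 ⟨hinj, hcE⟩
    obtain ⟨w, hw⟩ := hbij.2 ⟨c, hc⟩
    obtain ⟨n, hn⟩ := hgen w w.2
    refine ⟨n, ?_⟩
    have h1 : (w : G) • b = c := congrArg Subtype.val hw
    rwa [hn] at h1
  let F : Equiv.Perm α := MulAction.toPermHom G α w₀
  have hF : ∀ b, F b = w₀ • b := fun b => rfl
  have hFpow : ∀ (n : ℕ) b, (F ^ n) b = w₀ ^ n • b := by
    intro n b
    show (MulAction.toPermHom G α w₀ ^ n) b = _
    rw [← map_pow]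
    rfl
  have hnot : ∀ b : α, F b ≠ b ↔ b ≠ a := by
    intro b
    constructor
    · rintro h1 rfl
      exact h1 ha
    · intro h1
      exact hfree w₀ hw₀E hw₁ b h1
  obtain ⟨b₀, hb₀⟩ : ∃ b : α, b ≠ a := by
    have h1 : 1 < Nat.card α := by rw [hα]; exact hp.out.one_lt
    haveI := Finite.one_lt_card_iff_nontrivial.1 h1
    exact exists_ne a
  have hcyc : F.IsCycle := by
    rw [Equiv.Perm.isCycle_iff_sameCycle ((hnot b₀).2 hb₀)]
    intro c
    rw [hnot]
    constructor
    · rintro ⟨i, hi⟩ hca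
      rw [hca] at hi
      apply hb₀
      have h2 : F a = a := ha
      have h1 : (F ^ i) a = a := Equiv.Perm.zpow_apply_eq_self_of_apply_eq_self h2 i
      exact (F ^ i).injective (hi.trans h1.symm)
    · intro hc
      obtain ⟨n, hn⟩ := horb b₀ c hb₀ hc
      refine ⟨n, ?_⟩
      rw [zpow_natCast, hFpow, hn]
  have hsupp : F.support.card = p - 1 := by
    have h1 : F.support = Finset.univ.erase a := by
      ext b
      rw [Equiv.Perm.mem_support, hnot, Finset.mem_erase]
      simp
    rw [h1, Finset.card_erase_of_mem (Finset.mem_univ a), Finset.card_univ, ← Nat.card_eq_fintype_card, hα]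
  have hsign := hcyc.sign
  rw [hsupp] at hsign
  have hodd : Odd p := hp.out.odd_of_ne_two (by omega)
  have heven : Even (p - 1) := by
    obtain ⟨k, hk⟩ := hodd
    exact ⟨k, by omega⟩
  rw [heven.neg_one_pow] at hsign
  have h1 := perfect_hom hperf ((Equiv.Perm.sign (α := α)).comp (MulAction.toPermHom G α)) w₀
  have h2 : Equiv.Perm.sign F = 1 := h1
  rw [h2] at hsign
  exact absurd hsign (by decide)

theorem two_mul_le (h : Loc p x E P) (hα : Nat.card α = p) (hfaith : ∀ g : G, (∀ a : α, g • a = a) → g = 1)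
    (hperf : commutator G = ⊤) (hp5 : 5 ≤ p) : 2 * Nat.card E ≤ p - 1 := by
  obtain ⟨t, ht⟩ := h.card_E_dvd
  have hne := card_E_ne h hα hfaith hperf hp5
  have ht0 : t ≠ 0 := by
    rintro rfl
    rw [mul_zero] at ht
    omega
  have ht1 : t ≠ 1 := by
    rintro rfl
    rw [mul_one] at ht
    exact hne ht.symm
  have h2 : 2 ≤ t := by omega
  calc 2 * Nat.card E = Nat.card E * 2 := mul_comm _ _
    _ ≤ Nat.card E * t := Nat.mul_le_mul_left _ h2
    _ = p - 1 := ht.symm

end Cfsg.Agent.Lib.DefectOne.TopC
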